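import Cfsg.Agent.OrthMono17.Spread
import Cfsg.Agent.OrthGeo.NondegSmall
import Cfsg.Agent.OrthGeo.OddInvolutions

/-!
The stabiliser in the commutator subgroup of an orthogonal group over a prime field of odd order of an
orthogonal decomposition into isometric lines is maximal, in odd dimension at least seven, and in dimension
five away from characteristic three.
-/

set_option autoImplicit false
set_option linter.unusedSectionVars false

namespace CfsgLib.OrthMono17

open Cfsg.Geo Module CfsgLib.OrthGeo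
open scoped Matrix MatrixGroups

variable {ι : Type} [Fintype ι] [DecidableEq ι] {F : Type*} [Field F] [Fintype F]
variable {Q : (ι → F) → F}

/-- The frame of an orthogonal decomposition into isometric lines. -/
lemma exists_frame (hQ : IsNondegenerateQuadraticForm Q) (h2 : (2 : F) ≠ 0) {t : ℕ}
    {D : Fin t → Submodule F (ι → F)} (hD : IsOrthogonalMDecomposition Q 1 D) :
    ∃ 𝔉 : Frame Q (Fin t), ∀ i, D i = Submodule.span F {𝔉.basis i} := by
  classical
  have ht := hD.decomp.decomp.two_le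
  set i₀ : Fin t := ⟨0, by omega⟩
  have hline : ∀ i, ∃ v, v ≠ 0 ∧ D i = Submodule.span F {v} := fun i => by
    obtain ⟨v, hv0, hv⟩ := finrank_eq_one_iff'.1 (hD.decomp.decomp.finrank_eq i)
    refine ⟨v, fun h => hv0 (Subtype.ext h), le_antisymm (fun x hx => ?_)
      ((Submodule.span_singleton_le_iff_mem _ _).2 v.2)⟩
    obtain ⟨c, hc⟩ := hv ⟨x, hx⟩
    exact Submodule.mem_span_singleton.2 ⟨c, congrArg Subtype.val hc⟩
  obtain ⟨v₀, hv₀0, hv₀⟩ := hline i₀
  have hv₀m : v₀ ∈ D i₀ := hv₀ ▸ Submodule.mem_span_singleton_self v₀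
  have hlam : Q v₀ ≠ 0 := by
    intro h
    obtain ⟨⟨x, hx, hne⟩, -⟩ := hD.decomp.nondegenerate i₀ v₀ hv₀m hv₀0
    rw [hv₀] at hx
    obtain ⟨c, rfl⟩ := Submodule.mem_span_singleton.1 hx
    rw [← bform_apply hQ, map_smul, LinearMap.smul_apply, b_self hQ, h, mul_zero, smul_zero] at hne
    exact hne rfl
  choose e he using fun i => hD.isometric i₀ i
  set f : Fin t → (ι → F) := fun i => ((e i ⟨v₀, hv₀m⟩ : D i) : ι → F) with hf
  have hfQ : ∀ i, Q (f i) = Q v₀ := fun i => he i ⟨v₀, hv₀m⟩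
  have hf0 : ∀ i, f i ≠ 0 := fun i h => hlam (by rw [← hfQ i, h, q_zero hQ])
  have hfD : ∀ i, D i = Submodule.span F {f i} := fun i => by
    obtain ⟨v, hv0, hv⟩ := hline i
    have hm : f i ∈ D i := (e i ⟨v₀, hv₀m⟩).2
    rw [hv] at hm ⊢
    obtain ⟨c, hc⟩ := Submodule.mem_span_singleton.1 hm
    rw [← hc, Submodule.span_singleton_smul_eq]
    exact isUnit_iff_ne_zero.2 fun h => hf0 i (by rw [← hc, h, zero_smul])
  have horth : ∀ k l, k ≠ l → bform hQ (f k) (f l) = 0 := fun k l hkl =>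
    hD.decomp.orthogonal k l hkl (f k) (e k ⟨v₀, hv₀m⟩).2 (f l) (e l ⟨v₀, hv₀m⟩).2
  have hli : LinearIndependent F f := by
    rw [Fintype.linearIndependent_iff]
    intro c hc k
    have := congrArg (bform hQ (f k)) hc
    rw [map_sum, map_zero, Finset.sum_eq_single k] at this
    · rw [map_smul, smul_eq_mul, b_self hQ, hfQ] at this
      exact (mul_eq_zero.1 this).resolve_right (mul_ne_zero h2 hlam)
    · intro l _ hl
      rw [map_smul, horth k l (Ne.symm hl), smul_zero]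
    · exact fun h => absurd (Finset.mem_univ k) h
  have hsp : ⊤ ≤ Submodule.span F (Set.range f) := by
    rw [← hD.decomp.decomp.iSup_eq_top, iSup_le_iff]
    intro i
    rw [hfD i]
    exact Submodule.span_mono (by rintro _ rfl; exact ⟨i, rfl⟩)
  refine ⟨⟨hQ, h2, Basis.mk hli hsp, Q v₀, hlam, fun k => ?_, fun k l hkl => ?_⟩, fun i => ?_⟩
  · rw [Basis.mk_apply]; exact hfQ k
  · rw [Basis.mk_apply, Basis.mk_apply]; exact horth k l hkl
  · show D i = Submodule.span F {Basis.mk hli hsp i}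
    rw [Basis.mk_apply]; exact hfD i

namespace Frame

variable {κ : Type} [Fintype κ] [DecidableEq κ] (𝔉 : Frame Q κ)

lemma q_diff {a b : κ} (hab : a ≠ b) : Q (𝔉.basis a - 𝔉.basis b) ≠ 0 := by
  rw [q_sub 𝔉.nondeg, 𝔉.q_basis, 𝔉.q_basis, 𝔉.ortho a b hab, sub_zero, ← two_mul]
  exact mul_ne_zero 𝔉.two_ne 𝔉.lam_ne

lemma reflection_diff {a b : κ} (hab : a ≠ b) (k : κ) :
    (reflection 𝔉.nondeg (𝔉.q_diff hab) : Matrix ι ι F) *ᵥ 𝔉.basis k = 𝔉.basis (Equiv.swap a b k) := by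
  have hc : (Q (𝔉.basis a - 𝔉.basis b))⁻¹ * (2 * 𝔉.lam) = 1 := by
    rw [show Q (𝔉.basis a - 𝔉.basis b) = 2 * 𝔉.lam by
      rw [q_sub 𝔉.nondeg, 𝔉.q_basis, 𝔉.q_basis, 𝔉.ortho a b hab]; ring]
    exact inv_mul_cancel₀ (mul_ne_zero 𝔉.two_ne 𝔉.lam_ne)
  rw [reflection_mulVec 𝔉.nondeg, 𝔉.bform_eq]
  by_cases hka : k = a
  · subst hka
    rw [Equiv.swap_apply_left]
    simp [co_basis_ne (h := hab.symm)]
    rw [hc, one_smul]; abel
  · by_cases hkb : k = b
    · subst hkb
      rw [Equiv.swap_apply_right]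
      simp [co_basis_ne (h := hab)]
      rw [hc, one_smul]; abel
    · rw [Equiv.swap_apply_of_ne_of_ne hka hkb]
      simp [co_basis_ne (h := Ne.symm hka), co_basis_ne (h := Ne.symm hkb)]

/-- A group containing the frame stabiliser has the even sign changes and the three-cycles. -/
lemma data_of_stabilizer {t : ℕ} (𝔉 : Frame Q (Fin t)) (hι : 5 ≤ Fintype.card ι)
    {D : Fin t → Submodule F (ι → F)} (hfr : ∀ i, D i = Submodule.span F {𝔉.basis i})
    {H : Subgroup (GL ι F)} (hle : decompositionStabilizer D ⊓ omegaGL Q ≤ H) (hHΩ : H ≤ omegaGL Q) :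
    𝔉.Data H Finset.univ := by
  have hmap : ∀ (g : GL ι F) (σ : Equiv.Perm (Fin t)) (c : Fin t → F),
      (∀ k, c k ≠ 0 ∧ (g : Matrix ι ι F) *ᵥ 𝔉.basis k = c k • 𝔉.basis (σ k)) →
      g ∈ decompositionStabilizer D := by
    intro g σ c hg
    refine ⟨σ, fun i => ?_⟩
    rw [hfr i, hfr (σ i), Submodule.map_span, Set.image_singleton, Matrix.toLin'_apply, (hg i).2,
      Submodule.span_singleton_smul_eq (isUnit_iff_ne_zero.2 (hg i).1)]
  refine ⟨hHΩ.trans omegaGL_le, fun g _ x _ => 𝔉.inS_univ _, fun a _ b _ hab => ?_, fun a _ b _ c _ hab hbc hac => ?_⟩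
  · have ha : Q (𝔉.basis a) ≠ 0 := by rw [𝔉.q_basis]; exact 𝔉.lam_ne
    have hb : Q (𝔉.basis b) ≠ 0 := by rw [𝔉.q_basis]; exact 𝔉.lam_ne
    set g := OddInvolutions.rr 𝔉.nondeg ha hb
    have hg : ∀ k, (g : Matrix ι ι F) *ᵥ 𝔉.basis k =
        (if k = a ∨ k = b then (-1 : F) else 1) • 𝔉.basis k := by
      intro k
      rw [OddInvolutions.rr_mulVec 𝔉.nondeg ha hb (𝔉.ortho a b hab), 𝔉.q_basis, 𝔉.q_basis]
      have hl := 𝔉.lam_ne
      have hbs : bform 𝔉.nondeg (𝔉.basis k) (𝔉.basis k) = 2 * 𝔉.lam := by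
        rw [b_self 𝔉.nondeg, 𝔉.q_basis]
      by_cases hka : k = a
      · subst hka
        rw [hbs, 𝔉.ortho b k hab.symm, if_pos (Or.inl rfl)]
        match_scalars
        all_goals first | ring1 | (field_simp; ring)
      · by_cases hkb : k = b
        · subst hkb
          rw [hbs, 𝔉.ortho a k hab, if_pos (Or.inr rfl)]
          match_scalars
          all_goals first | ring1 | (field_simp; ring)
        · rw [𝔉.ortho a k (Ne.symm hka), 𝔉.ortho b k (Ne.symm hkb), if_neg (by tauto)]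
          simp
    refine ⟨g, hle ⟨hmap g 1 _ fun k => ⟨?_, hg k⟩, ?_⟩, fun k _ => hg k⟩
    · split_ifs
      · exact neg_ne_zero.2 one_ne_zero
      · exact one_ne_zero
    · exact OddInvolutions.rr_mem_omegaGL 𝔉.nondeg 𝔉.two_ne ha hb (𝔉.ortho a b hab)
        (by rw [𝔉.q_basis, 𝔉.q_basis])
  · set g := reflection 𝔉.nondeg (𝔉.q_diff hab) * reflection 𝔉.nondeg (𝔉.q_diff hbc)
    have hg : ∀ k, (g : Matrix ι ι F) *ᵥ 𝔉.basis k =
        𝔉.basis (Equiv.swap a b (Equiv.swap b c k)) := fun k => by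
      rw [Units.val_mul, ← Matrix.mulVec_mulVec, reflection_diff 𝔉 hbc, reflection_diff 𝔉 hab]
    refine ⟨g, hle ⟨hmap g (Equiv.swap a b * Equiv.swap b c) (fun _ => 1)
      fun k => ⟨one_ne_zero, by rw [one_smul, hg k]; rfl⟩, ?_⟩, fun k _ => ?_⟩
    · refine reflection_pair_mem_omega_of_eq 𝔉.nondeg hι _ _ ?_
      rw [q_sub 𝔉.nondeg, q_sub 𝔉.nondeg, 𝔉.q_basis, 𝔉.q_basis, 𝔉.q_basis, 𝔉.ortho a b hab, 𝔉.ortho b c hbc]
    · rw [hg k]
      congr 1
      simp only [Equiv.swap_apply_def]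
      grind

end Frame

/-- The frame stabiliser is maximal. -/
theorem frame_isMaximal (hQ : IsNondegenerateQuadraticForm Q) (hp : (Fintype.card F).Prime)
    (h2 : (2 : F) ≠ 0) (hn : Odd (Fintype.card ι)) (hι : 5 ≤ Fintype.card ι)
    (h53 : Fintype.card ι = 5 → (3 : F) ≠ 0) {t : ℕ} {D : Fin t → Submodule F (ι → F)}
    (hD : IsOrthogonalMDecomposition Q 1 D) :
    IsMaximalIn (omegaGL Q) (decompositionStabilizer D ⊓ omegaGL Q) := by
  classical
  obtain ⟨𝔉, hfr⟩ := exists_frame hQ h2 hD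
  have ht : t = Fintype.card ι := by
    rw [← Fintype.card_fin t, ← Module.finrank_eq_card_basis 𝔉.basis, finrank_fintype_fun_eq_card]
  have hmono : ∀ g ∈ omegaGL Q, g ∈ decompositionStabilizer D ↔ 𝔉.Mono Finset.univ g := by
    intro g hg
    have hgI := omegaGL_le hg
    constructor
    · rintro ⟨σ, hσ⟩ i -
      have h : (g : Matrix ι ι F) *ᵥ 𝔉.basis i ∈ D (σ i) := by
        rw [← hσ i]
        exact ⟨𝔉.basis i, by rw [hfr i]; exact Submodule.mem_span_singleton_self _, Matrix.toLin'_apply _ _⟩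
      rw [hfr] at h
      obtain ⟨c, hc⟩ := Submodule.mem_span_singleton.1 h
      exact ⟨σ i, Finset.mem_univ _, c, hc.symm⟩
    · intro h
      choose σ _ c hc using fun i => h i (Finset.mem_univ i)
      have hc0 : ∀ i, c i ≠ 0 := fun i h0 => by
        have h1 := 𝔉.dot_isometry hgI (𝔉.basis i) (𝔉.basis i)
        rw [hc, h0, zero_smul] at h1
        simp at h1
      have hinj : Function.Injective σ := by
        intro i j hij
        by_contra hne
        have h1 := 𝔉.dot_isometry hgI (𝔉.basis i) (𝔉.basis j)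
        rw [hc, hc, hij] at h1
        simp [Frame.co_basis_ne (h := hne), hc0, Frame.co_basis_ne (h := Ne.symm hne)] at h1
      refine ⟨Equiv.ofBijective σ (Finite.injective_iff_bijective.1 hinj), fun i => ?_⟩
      rw [hfr i, Equiv.ofBijective_apply, hfr (σ i), Submodule.map_span, Set.image_singleton, Matrix.toLin'_apply,
        hc, Submodule.span_singleton_smul_eq (isUnit_iff_ne_zero.2 (hc0 i))]
  refine ⟨lt_of_le_of_ne inf_le_right fun he => ?_, fun M hMle hMΩ => ?_⟩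
  · -- Omega is not monomial
    haveI : NeZero t := ⟨by omega⟩
    obtain ⟨a, b, c, d, hab, hac, had, hbc, hbd, hcd⟩ : ∃ a b c d : Fin t,
        a ≠ b ∧ a ≠ c ∧ a ≠ d ∧ b ≠ c ∧ b ≠ d ∧ c ≠ d :=
      ⟨⟨0, by omega⟩, ⟨1, by omega⟩, ⟨2, by omega⟩, ⟨3, by omega⟩, by simp, by simp, by simp, by simp, by simp,
        by simp⟩
    set v := (2 : F)⁻¹ • (𝔉.basis a + 𝔉.basis b + 𝔉.basis c + 𝔉.basis d) with hv
    have hvv : 𝔉.dot v v = 1 := by
      simp [hv, Frame.co_basis_ne (h := hab), Frame.co_basis_ne (h := hab.symm), Frame.co_basis_ne (h := hac),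
        Frame.co_basis_ne (h := hac.symm), Frame.co_basis_ne (h := had), Frame.co_basis_ne (h := had.symm),
        Frame.co_basis_ne (h := hbc), Frame.co_basis_ne (h := hbc.symm), Frame.co_basis_ne (h := hbd),
        Frame.co_basis_ne (h := hbd.symm), Frame.co_basis_ne (h := hcd), Frame.co_basis_ne (h := hcd.symm)]
      field_simp
      norm_num
    have hQv : Q v = 𝔉.lam := by rw [𝔉.q_eq, hvv, mul_one]
    obtain ⟨g, hg, hgv⟩ := exists_map_value hQ hι (a := 𝔉.basis a) (a' := v) (𝔉.basis.ne_zero a)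
      (fun h => 𝔉.lam_ne (by rw [← hQv, h, q_zero hQ])) (by rw [hQv, 𝔉.q_basis])
    have hgΩ : g ∈ omegaGL Q := eichlerGroup_le_omega hQ hι hg
    obtain ⟨j, -, e, hj⟩ := (hmono g hgΩ).1 (he.symm.le hgΩ).1 a (Finset.mem_univ _)
    rw [hgv] at hj
    have ha' := congrArg (fun x => 𝔉.co x a) hj
    have hb' := congrArg (fun x => 𝔉.co x b) hj
    simp [hv, Frame.co_basis_ne (h := hab), Frame.co_basis_ne (h := hab.symm),
      Frame.co_basis_ne (h := hac.symm), Frame.co_basis_ne (h := had.symm), Frame.co_basis_ne (h := hbc.symm),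
      Frame.co_basis_ne (h := hbd.symm)] at ha' hb'
    by_cases hja : j = a
    · rw [Frame.co_basis_ne (h := (hja ▸ hab : j ≠ b)), mul_zero] at hb'
      exact inv_ne_zero h2 hb'
    · rw [Frame.co_basis_ne (h := hja), mul_zero] at ha'
      exact inv_ne_zero h2 ha'
  · by_cases hM : ∀ g ∈ M, 𝔉.Mono Finset.univ g
    · exact Or.inl (le_antisymm (fun g hg => ⟨(hmono g (hMΩ hg)).2 (hM g hg), hMΩ hg⟩) hMle)
    · refine Or.inr (le_antisymm hMΩ ?_)
      refine Frame.omegaGL_le_of_not_mono hp ?_ ?_ ?_ hι (𝔉.data_of_stabilizer hι hfr hMle hMΩ) hM <;>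
        rw [Fintype.card_fin, ht]
      exacts [hn, hι, h53]

end CfsgLib.OrthMono17
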