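import Cfsg.Agent.OrthMono17.Lift

/-!
Over the field with three elements a non-monomial group with all sign changes and transpositions of five
frame vectors contains the root elements with a unit second vector.
-/

set_option autoImplicit false
set_option linter.unusedSectionVars false

namespace CfsgLib.OrthMono17.Frame

open Cfsg.Geo Module CfsgLib.OrthGeo
open scoped Matrix MatrixGroups

variable {ι : Type} [Fintype ι] [DecidableEq ι] {F : Type*} [Field F] [Fintype F]
variable {Q : (ι → F) → F} {κ : Type} [Fintype κ] [DecidableEq κ] {𝔉 : Frame Q κ}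
variable {K : Subgroup (GL ι F)}

lemma Full.flip {R : Finset κ} (hF : 𝔉.Full K R) : ∀ S : Finset κ, S ⊆ R → ∃ g ∈ K, ∀ k ∈ R,
    (g : Matrix ι ι F) *ᵥ 𝔉.basis k = (if k ∈ S then (-1 : F) else 1) • 𝔉.basis k := by
  intro S
  induction S using Finset.induction with
  | empty => exact fun _ => ⟨1, one_mem _, fun k _ => by simp⟩
  | @insert a S ha ih =>
    intro hsub
    obtain ⟨haR, hSR⟩ := Finset.insert_subset_iff.1 hsub
    obtain ⟨g, hg, hgk⟩ := ih hSR
    obtain ⟨e, he, hek⟩ := hF.sgn_one a haR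
    refine ⟨g * e, mul_mem hg he, fun k hk => ?_⟩
    rw [Units.val_mul, ← Matrix.mulVec_mulVec, hek k hk, Matrix.mulVec_smul, hgk k hk, smul_smul]
    congr 1
    by_cases h1 : k = a
    · subst h1; simp [ha]
    · simp [h1]

theorem base_five (hq : Fintype.card F = 3) {R : Finset κ} (hR : R.card = 5)
    (hD : 𝔉.Data K R) (hF : 𝔉.Full K R) (hnm : ¬ ∀ g ∈ K, 𝔉.Mono R g) :
    ∀ z w, 𝔉.InS R z → 𝔉.InS R w → 𝔉.dot z z = 0 → 𝔉.dot z w = 0 → 𝔉.dot w w = 1 → 𝔉.EJ K R z w := by
  classical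
  have hodd : Odd R.card := by rw [hR]; decide
  haveI : Fact (Nat.Prime 3) := ⟨Nat.prime_three⟩
  haveI : CharP F 3 := charP_of_card_eq_prime (p := 3) hq
  have hsq : ∀ x : F, x ≠ 0 → x * x = 1 := fun x hx => by
    have := FiniteField.pow_card_sub_one_eq_one x hx
    rw [hq] at this
    simpa [pow_two] using this
  have hwt : ∀ v, 𝔉.InS R v → 𝔉.dot v v = 1 → (𝔉.supp R v).card = 1 ∨ (𝔉.supp R v).card = 4 := by
    intro v hv hvv
    have h := hv.sum_sq_supp
    rw [hvv, Finset.sum_congr rfl (g := fun _ => (1 : F)) (fun k hk => by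
      rw [sq, hsq _ (𝔉.mem_supp.1 hk).2]), Finset.sum_const, nsmul_eq_mul, mul_one] at h
    have hle := Finset.card_le_card (𝔉.supp_subset (J := R) v)
    rw [hR] at hle
    have h' : ((((𝔉.supp R v).card : ℕ)) : F) = ((1 : ℕ) : F) := by rw [h, Nat.cast_one]
    rw [CharP.natCast_eq_natCast F 3, Nat.ModEq] at h'
    omega
  -- a vector of weight four among the images
  push Not at hnm
  obtain ⟨g, hg, hgm⟩ := hnm
  obtain ⟨v, hv, hv4⟩ : ∃ v, 𝔉.Orb K R v ∧ (𝔉.supp R v).card = 4 := by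
    unfold Mono at hgm
    push Not at hgm
    obtain ⟨i, hi, hgi⟩ := hgm
    have hv : 𝔉.Orb K R ((g : Matrix ι ι F) *ᵥ 𝔉.basis i) := ⟨g, hg, i, hi, rfl⟩
    refine ⟨_, hv, (hwt _ (hv.inS hD) (hv.dot_self hD)).resolve_left fun h1 => ?_⟩
    obtain ⟨j, hj⟩ := Finset.card_eq_one.1 h1
    obtain ⟨hjR, -⟩ := 𝔉.mem_supp.1 (hj ▸ Finset.mem_singleton_self j : j ∈ 𝔉.supp R _)
    refine hgi j hjR (𝔉.co ((g : Matrix ι ι F) *ᵥ 𝔉.basis i) j) ?_
    refine InS.ext (hv.inS hD) ((𝔉.inS_basis hjR).smul _) fun k _ => ?_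
    by_cases hk : k = j
    · subst hk; simp
    · rw [(hv.inS hD).co_eq_zero_of_not_supp (by rw [hj]; simpa using hk), co_smul,
        co_basis_ne (h := Ne.symm hk), mul_zero]
  -- all unit vectors are images
  have hall : ∀ a, 𝔉.InS R a → 𝔉.dot a a = 1 → 𝔉.Orb K R a := by
    intro a ha haa
    have key : ∀ u, 𝔉.Orb K R u → 𝔉.supp R u = 𝔉.supp R a → 𝔉.Orb K R a := by
      intro u hu hsupp
      obtain ⟨e, he, hek⟩ := hF.flip (R.filter fun k => 𝔉.co u k ≠ 𝔉.co a k) (Finset.filter_subset _ _)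
      have := hu.map hD he
      convert this using 1
      refine InS.ext ha (this.inS hD) fun k hk => ?_
      have e1 := co_mulVec_mono (hu.inS hD) (σ := id)
        (c := fun l => if l ∈ R.filter (fun k => 𝔉.co u k ≠ 𝔉.co a k) then -1 else 1) hek (fun _ _ _ _ h => h) hk
      rw [id] at e1
      rw [e1]
      simp only [Finset.mem_filter, hk, true_and]
      by_cases hne : 𝔉.co u k = 𝔉.co a k
      · simp [hne]
      · rw [if_pos hne]
        by_cases hk0 : k ∈ 𝔉.supp R a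
        · have hu0 := (𝔉.mem_supp.1 (hsupp.symm ▸ hk0 : k ∈ 𝔉.supp R u)).2
          have ha0 := (𝔉.mem_supp.1 hk0).2
          rcases sq_eq_sq_iff_eq_or_eq_neg.1 (show 𝔉.co a k ^ 2 = 𝔉.co u k ^ 2 by
            rw [sq, sq, hsq _ ha0, hsq _ hu0]) with h | h
          · exact absurd h.symm hne
          · rw [h]; ring
        · exact absurd (((hu.inS hD).co_eq_zero_of_not_supp (by rw [hsupp]; exact hk0)).trans
            (ha.co_eq_zero_of_not_supp hk0).symm) hne
    rcases hwt a ha haa with h1 | h4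
    · obtain ⟨i, hi⟩ := Finset.card_eq_one.1 h1
      have hiR : i ∈ R := (𝔉.mem_supp.1 (hi ▸ Finset.mem_singleton_self i : i ∈ 𝔉.supp R a)).1
      refine key _ (hD.orb_basis hiR) ?_
      rw [hi]
      ext k
      rw [mem_supp, co_basis, Finset.mem_singleton]
      by_cases hk : i = k
      · subst hk; simp [hiR]
      · simp [hk, Ne.symm hk]
    · obtain ⟨m, hm⟩ := Finset.card_eq_one.1 (show (R \ 𝔉.supp R v).card = 1 by
        rw [Finset.card_sdiff_of_subset (𝔉.supp_subset v), hR, hv4])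
      obtain ⟨n, hn⟩ := Finset.card_eq_one.1 (show (R \ 𝔉.supp R a).card = 1 by
        rw [Finset.card_sdiff_of_subset (𝔉.supp_subset a), hR, h4])
      have hmR : m ∈ R := (Finset.mem_sdiff.1 (hm ▸ Finset.mem_singleton_self m)).1
      have hnR : n ∈ R := (Finset.mem_sdiff.1 (hn ▸ Finset.mem_singleton_self n)).1
      have hsv : ∀ k, k ∈ 𝔉.supp R v ↔ k ∈ R ∧ k ≠ m := fun k => by
        constructor
        · intro h
          exact ⟨(𝔉.mem_supp.1 h).1, fun e => (Finset.mem_sdiff.1 (hm ▸ Finset.mem_singleton_self m)).2 (e ▸ h)⟩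
        · rintro ⟨hk, hkm⟩
          by_contra h
          exact hkm (Finset.mem_singleton.1 (hm ▸ Finset.mem_sdiff.2 ⟨hk, h⟩))
      have hsa : ∀ k, k ∈ 𝔉.supp R a ↔ k ∈ R ∧ k ≠ n := fun k => by
        constructor
        · intro h
          exact ⟨(𝔉.mem_supp.1 h).1, fun e => (Finset.mem_sdiff.1 (hn ▸ Finset.mem_singleton_self n)).2 (e ▸ h)⟩
        · rintro ⟨hk, hkn⟩
          by_contra h
          exact hkn (Finset.mem_singleton.1 (hn ▸ Finset.mem_sdiff.2 ⟨hk, h⟩))
      by_cases hmn : m = n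
      · exact key v hv (by ext k; rw [hsv, hsa, hmn])
      obtain ⟨e, he, hek⟩ := hF.swap m hmR n hnR hmn
      refine key _ (hv.map hD he) ?_
      have hswR : ∀ k ∈ R, Equiv.swap m n k ∈ R := fun k hk => by
        rw [Equiv.swap_apply_def]; split_ifs <;> assumption
      ext k
      rw [mem_supp, hsa]
      refine and_congr_right fun hk => ?_
      have e1 := co_mulVec_mono (hv.inS hD) (σ := Equiv.swap m n) (c := fun _ => 1)
        (fun l hl => by rw [one_smul]; exact hek l hl) (Equiv.injective _).injOn (hswR k hk)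
      rw [Equiv.swap_apply_self, one_mul] at e1
      rw [e1]
      constructor
      · intro h hkn
        subst hkn
        rw [Equiv.swap_apply_right] at h
        exact ((hsv m).1 (𝔉.mem_supp.2 ⟨hmR, h⟩)).2 rfl
      · intro hkn
        refine (𝔉.mem_supp.1 ((hsv _).2 ⟨hswR k hk, fun h => hkn ?_⟩)).2
        rw [← Equiv.swap_apply_self m n k, h, Equiv.swap_apply_left]
  -- the root elements
  intro z w hz hw hzz hzw hww
  have hll : 𝔉.lam * 𝔉.lam = 1 := hsq _ 𝔉.lam_ne
  obtain ⟨y₁, hy₁, hy₁x⟩ := (hall (𝔉.lam • w) (hw.smul _) (by simp [hww, hll])).refl_elt hD hodd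
  obtain ⟨y₂, hy₂, hy₂x⟩ := (hall (𝔉.lam • w + z) ((hw.smul _).add hz) (by
    simp [hzz, hzw, 𝔉.dot_comm w z, hww, hll])).refl_elt hD hodd
  refine ⟨y₂ * y₁, mul_mem hy₂ hy₁, fun x hx => ?_⟩
  rw [Units.val_mul, ← Matrix.mulVec_mulVec, hy₁x x hx, hy₂x _ (hx.neg.add ((hw.smul _).smul _)),
    eichlerMat_mulVec_dot (𝔉 := 𝔉)]
  simp only [dot_add_left, dot_add_right, dot_neg_right, dot_smul_left, dot_smul_right, hzw, hww,
    smul_add, neg_add, smul_smul]
  have h30 : (3 : F) = 0 := by exact_mod_cast CharP.cast_eq_zero F 3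
  match_scalars <;> first
    | ring1
    | linear_combination (4 * 𝔉.dot w x * 𝔉.lam) * hll
    | linear_combination (4 * 𝔉.dot w x * 𝔉.lam) * hll + (2 * 𝔉.dot z x) * hll
    | linear_combination (4 * 𝔉.dot w x * 𝔉.lam ^ 2) * hll
    | linear_combination (-4 * 𝔉.dot w x * 𝔉.lam ^ 2) * hll
    | linear_combination (4 * 𝔉.dot w x * 𝔉.lam ^ 2 + 2 * 𝔉.dot z x) * hll
    | linear_combination (4 * 𝔉.dot w x * 𝔉.lam - 2 * 𝔉.dot z x) * hll

end CfsgLib.OrthMono17.Frame
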