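import Cfsg.Agent.OrthMono17.RotAxes
import Mathlib.GroupTheory.Sylow
import Mathlib.GroupTheory.OrderOfElement
import Mathlib.GroupTheory.GroupAction.Quotient
import Mathlib.LinearAlgebra.Span.Basic
import Mathlib.Data.Fintype.Prod
import Mathlib.Tactic.IntervalCases

/-!
A group of three dimensional rotations containing the rotations of the coordinate octahedron either has an
element of order the characteristic or consists of signed permutations.
-/

set_option autoImplicit false
set_option linter.unusedSectionVars false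

namespace CfsgLib.OrthMono17.Rot

open scoped Matrix MatrixGroups

variable {F : Type*} [Field F] [Fintype F]

/-- Every column has at most one non-zero entry. -/
def IsSignedPerm (A : Matrix (Fin 3) (Fin 3) F) : Prop := ∀ j, ∃ i, ∀ k, k ≠ i → A k j = 0

/-- The three generators of the rotations of the octahedron, over the integers. -/
def zC : Matrix (Fin 3) (Fin 3) ℤ := !![0, 0, 1; 1, 0, 0; 0, 1, 0]
def zR : Matrix (Fin 3) (Fin 3) ℤ := !![1, 0, 0; 0, 0, -1; 0, 1, 0]
def zH : Matrix (Fin 3) (Fin 3) ℤ := !![-1, 0, 0; 0, 1, 0; 0, 0, -1]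

/-- The twenty-four products. -/
def zWord (n : Fin 3 × Fin 4 × Fin 2) : Matrix (Fin 3) (Fin 3) ℤ :=
  zC ^ (n.1 : ℕ) * zR ^ (n.2.1 : ℕ) * zH ^ (n.2.2 : ℕ)

lemma zWord_entry (n : Fin 3 × Fin 4 × Fin 2) (i j : Fin 3) :
    zWord n i j = 0 ∨ zWord n i j = 1 ∨ zWord n i j = -1 := by
  have h : ((zWord n i j).natAbs ≤ 1) = true := by
    revert n i j; simp only [eq_iff_iff, iff_true]; decide
  simp only [eq_iff_iff, iff_true] at h
  omega

lemma zWord_injective (n m : Fin 3 × Fin 4 × Fin 2) (h : ∀ i j, zWord n i j = zWord m i j) : n = m := by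
  have key : Function.Injective zWord := by decide
  exact key (Matrix.ext h)

lemma zWord_sp : ∀ n j, ∃ i, ∀ k, k ≠ i → zWord n k j = 0 := by decide

/-- A matrix over the field from one over the integers. -/
def castM (A : Matrix (Fin 3) (Fin 3) ℤ) : Matrix (Fin 3) (Fin 3) F := (Int.castRingHom F).mapMatrix A

theorem rot_three {p : ℕ} [CharP F p] (hp : p.Prime) (hp3 : 3 ≤ p) (G : Subgroup (GL (Fin 3) F))
    (hG : ∀ A ∈ G, IsRot (A : Matrix (Fin 3) (Fin 3) F))
    (hC : ∃ A ∈ G, (A : Matrix (Fin 3) (Fin 3) F) = castM zC)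
    (hR : ∃ A ∈ G, (A : Matrix (Fin 3) (Fin 3) F) = castM zR)
    (hH : ∃ A ∈ G, (A : Matrix (Fin 3) (Fin 3) F) = castM zH)
    (hnp : ¬ p ∣ Nat.card G) : ∀ A ∈ G, IsSignedPerm (A : Matrix (Fin 3) (Fin 3) F) := by
  classical
  have h2 : (2 : F) ≠ 0 := fun h => by
    have h' : ((2 : ℕ) : F) = 0 := by exact_mod_cast h
    rw [CharP.cast_eq_zero_iff F p] at h'
    have := Nat.le_of_dvd (by norm_num) h'
    omega
  let V := Fin 3 → F
  let mv : G → V → V := fun g v => ((g : GL (Fin 3) F) : Matrix (Fin 3) (Fin 3) F) *ᵥ v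
  have mv_mul : ∀ (g h : G) v, mv (g * h) v = mv g (mv h v) := fun g h v => by
    simp only [mv, Subgroup.coe_mul, Units.val_mul, Matrix.mulVec_mulVec]
  have mv_one : ∀ v, mv 1 v = v := fun v => by simp [mv]
  have mv_smul : ∀ (g : G) (c : F) v, mv g (c • v) = c • mv g v := fun g c v => Matrix.mulVec_smul _ _ _
  have mv_inj : ∀ (g : G) {u v}, mv g u = mv g v → u = v := fun g u v h => by
    have := congrArg (mv g⁻¹) h
    rwa [← mv_mul, ← mv_mul, inv_mul_cancel, mv_one, mv_one] at this
  have mv_zero : ∀ g : G, mv g 0 = 0 := fun g => Matrix.mulVec_zero _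
  -- no unipotent elements
  have huni : ∀ g : G, (((g : GL (Fin 3) F) : Matrix (Fin 3) (Fin 3) F) - 1) ^ 3 = 0 → g = 1 := by
    intro g hg
    have h := pow_char_eq_one hp hp3 hg
    have h' : g ^ p = 1 := Subtype.ext (Units.ext (by simpa using h))
    rw [← orderOf_eq_one_iff]
    rcases (Nat.dvd_prime hp).1 (orderOf_dvd_of_pow_eq_one h') with h1 | h1
    · exact h1
    · exact absurd (h1 ▸ orderOf_dvd_natCard g) hnp
  have hfix : ∀ g : G, g ≠ 1 → ∀ x : V, x ≠ 0 → mv g x = x → x ⬝ᵥ x ≠ 0 ∧ ∀ y, mv g y = y →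
      ∃ c : F, y = c • x := by
    intro g hg1 x hx0 hgx
    refine ⟨fun h => hg1 (huni g (unipotent_of_fixed h2 (hG _ g.2) hgx (Or.inl ⟨hx0, h⟩))), fun y hy => ?_⟩
    refine eq_smul_of_cross_eq_zero hx0 ?_
    by_contra h
    exact hg1 (huni g (unipotent_of_fixed h2 (hG _ g.2) hgx (Or.inr ⟨y, hy, h⟩)))
  -- lines
  let act : MulAction G (Submodule F V) :=
    { smul := fun g L => L.map (Matrix.toLin' ((g : GL (Fin 3) F) : Matrix (Fin 3) (Fin 3) F))
      one_smul := fun L => by
        show L.map _ = L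
        simp
      mul_smul := fun g h L => by
        show L.map _ = (L.map _).map _
        rw [Subgroup.coe_mul, Units.val_mul, Matrix.toLin'_mul, Submodule.map_comp] }
  letI := act
  have smul_span : ∀ (g : G) (x : V), g • (Submodule.span F {x}) = Submodule.span F {mv g x} := fun g x => by
    show Submodule.map _ _ = _
    rw [Submodule.map_span, Set.image_singleton, Matrix.toLin'_apply]
  have hex : ∀ g : G, ∃ x : V, x ≠ 0 ∧ mv g x = x := fun g => exists_fixed (hG _ g.2) h2
  choose ax hax0 hax using hex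
  let axis : G → Submodule F V := fun g => Submodule.span F {ax g}
  let fx : Submodule F V → Subgroup G := fun L =>
    { carrier := {g | ∀ x ∈ L, mv g x = x}
      one_mem' := fun x _ => mv_one x
      mul_mem' := fun {g h} hg hh x hx => by rw [mv_mul, hh x hx, hg x hx]
      inv_mem' := fun {g} hg x hx => mv_inj g (by rw [← mv_mul, mul_inv_cancel, mv_one, hg x hx]) }
  have mem_fx : ∀ (g : G) (L : Submodule F V), g ∈ fx L ↔ ∀ x ∈ L, mv g x = x := fun _ _ => Iff.rfl
  have mem_fx_span : ∀ (g : G) (x : V), g ∈ fx (Submodule.span F {x}) ↔ mv g x = x := fun g x => by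
    rw [mem_fx]
    refine ⟨fun h => h x (Submodule.mem_span_singleton_self x), fun h y hy => ?_⟩
    obtain ⟨c, rfl⟩ := Submodule.mem_span_singleton.1 hy
    rw [mv_smul, h]
  have axis_unique : ∀ (g : G), g ≠ 1 → ∀ x : V, x ≠ 0 → mv g x = x → axis g = Submodule.span F {x} := by
    intro g hg1 x hx0 hgx
    obtain ⟨c, hc⟩ := (hfix g hg1 x hx0 hgx).2 (ax g) (hax g)
    show Submodule.span F {ax g} = _
    rw [hc, Submodule.span_singleton_smul_eq]
    exact isUnit_iff_ne_zero.2 fun h => hax0 g (by rw [hc, h, zero_smul])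
  let X : Finset (Submodule F V) := (Finset.univ.erase (1 : G)).image axis
  have memX : ∀ L, L ∈ X ↔ ∃ g : G, g ≠ 1 ∧ axis g = L := fun L => by simp [X]
  have axis_mem : ∀ g : G, g ≠ 1 → g ∈ fx (axis g) := fun g _ => (mem_fx_span g (ax g)).2 (hax g)
  -- each non-identity element lies in exactly one axis stabiliser
  have hfib : ∀ L ∈ X, ((Finset.univ.erase (1 : G)).filter fun g => axis g = L).card = Nat.card (fx L) - 1 := by
    intro L hL
    obtain ⟨h, hh1, rfl⟩ := (memX L).1 hL
    rw [Nat.card_eq_fintype_card, Fintype.card_subtype]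
    rw [← Finset.card_erase_of_mem (a := (1 : G)) (by simp [one_mem])]
    congr 1
    ext g
    simp only [Finset.mem_filter, Finset.mem_erase, Finset.mem_univ, and_true, true_and]
    refine and_congr_right fun hg1 => ⟨fun he => he ▸ axis_mem g hg1, fun hg => ?_⟩
    exact (axis_unique g hg1 (ax h) (hax0 h) ((mem_fx_span g _).1 hg))
  have htot : ∑ L ∈ X, (Nat.card (fx L) - 1) = Nat.card G - 1 := by
    rw [Nat.card_eq_fintype_card, ← Finset.card_univ, ← Finset.card_erase_of_mem (Finset.mem_univ (1 : G)),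
      Finset.card_eq_sum_card_fiberwise (f := axis) (t := X) (fun g hg => Finset.mem_image_of_mem _ hg)]
    exact Finset.sum_congr rfl fun L hL => (hfib L hL).symm
  -- conjugation
  have hconj : ∀ (g : G) L, Nat.card (fx (g • L)) = Nat.card (fx L) := by
    intro g L
    refine Nat.card_congr ((MulAut.conj g⁻¹).toEquiv.subtypeEquiv fun h => ?_)
    show (∀ x ∈ Submodule.map _ L, mv h x = x) ↔ ∀ x ∈ L, mv (g⁻¹ * h * g⁻¹⁻¹) x = x
    rw [inv_inv]
    constructor
    · intro hh x hx
      rw [mv_mul, mv_mul, hh (mv g x) ⟨x, hx, Matrix.toLin'_apply _ _⟩, ← mv_mul, inv_mul_cancel, mv_one]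
    · rintro hh _ ⟨x, hx, rfl⟩
      rw [Matrix.toLin'_apply]
      refine mv_inj g⁻¹ ?_
      have e := hh x hx
      rw [mv_mul, mv_mul] at e
      show mv g⁻¹ (mv h (mv g x)) = mv g⁻¹ (mv g x)
      rw [e, ← mv_mul, inv_mul_cancel, mv_one]
  have hXsmul : ∀ (g : G) L, L ∈ X → g • L ∈ X := by
    intro g L hL
    obtain ⟨h, hh1, rfl⟩ := (memX L).1 hL
    refine (memX _).2 ⟨g * h * g⁻¹, fun e => hh1 ?_, ?_⟩
    · calc h = g⁻¹ * (g * h * g⁻¹) * g := by group
        _ = 1 := by rw [e]; group
    · show axis _ = g • Submodule.span F {ax h}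
      rw [smul_span]
      refine axis_unique _ (fun e => hh1 (by
        calc h = g⁻¹ * (g * h * g⁻¹) * g := by group
          _ = 1 := by rw [e]; group)) _ (fun e => hax0 h (mv_inj g (by rw [e, mv_zero]))) ?_
      rw [← mv_mul, inv_mul_cancel_right, mv_mul, hax h]
  -- stabilisers of axes
  have hstab : ∀ L ∈ X, Nat.card (MulAction.stabilizer G L) = Nat.card (fx L) ∨
      Nat.card (MulAction.stabilizer G L) = 2 * Nat.card (fx L) := by
    intro L hL
    obtain ⟨h, hh1, rfl⟩ := (memX L).1 hL
    set x := ax h with hx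
    have hxx := (hfix h hh1 x (hax0 h) (hax h)).1
    have hsub : fx (Submodule.span F {x}) ≤ MulAction.stabilizer G (Submodule.span F {x}) := fun g hg => by
      rw [MulAction.mem_stabilizer_iff, smul_span, (mem_fx_span g x).1 hg]
    have hval : ∀ g ∈ MulAction.stabilizer G (Submodule.span F {x}), mv g x = x ∨ mv g x = -x := by
      intro g hg
      rw [MulAction.mem_stabilizer_iff, smul_span] at hg
      obtain ⟨c, hc⟩ := Submodule.mem_span_singleton.1 (hg ▸ Submodule.mem_span_singleton_self (mv g x))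
      have hd := (hG _ g.2).dot x x
      change mv g x ⬝ᵥ mv g x = x ⬝ᵥ x at hd
      rw [← hc, smul_dotProduct, dotProduct_smul, smul_eq_mul, smul_eq_mul, ← mul_assoc] at hd
      have hcc : c * c = 1 := mul_right_cancel₀ hxx (by rw [hd, one_mul])
      rcases mul_self_eq_one_iff.1 hcc with rfl | rfl
      · exact Or.inl (by rw [← hc, one_smul])
      · exact Or.inr (by rw [← hc, neg_one_smul])
    have hdvd := Subgroup.card_dvd_of_le hsub
    have hpos : 0 < Nat.card (fx (Submodule.span F {x})) := Nat.card_pos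
    obtain ⟨d, hd⟩ := hdvd
    change Nat.card (MulAction.stabilizer G (Submodule.span F {x})) = _ ∨ _
    suffices hle : Nat.card (MulAction.stabilizer G (Submodule.span F {x})) ≤
        2 * Nat.card (fx (Submodule.span F {x})) by
      have hs : 0 < Nat.card (MulAction.stabilizer G (Submodule.span F {x})) := Nat.card_pos
      show Nat.card (MulAction.stabilizer G (Submodule.span F {x})) = Nat.card (fx (Submodule.span F {x})) ∨
        Nat.card (MulAction.stabilizer G (Submodule.span F {x})) = 2 * Nat.card (fx (Submodule.span F {x}))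
      rw [hd] at hle hs ⊢
      rcases d with _ | _ | _ | d
      · simp at hs
      · left; ring
      · right; ring
      · exfalso; nlinarith
    by_cases hneg : ∃ g₀ ∈ MulAction.stabilizer G (Submodule.span F {x}), mv g₀ x = -x
    · obtain ⟨g₀, hg₀, hg₀x⟩ := hneg
      let φ : MulAction.stabilizer G (Submodule.span F {x}) → fx (Submodule.span F {x}) × Bool := fun g =>
        if hg : mv g x = x then (⟨g, (mem_fx_span _ _).2 hg⟩, true)
        else (⟨g₀ * g, (mem_fx_span _ _).2 (by
          rw [mv_mul, (hval g g.2).resolve_left hg, ← neg_one_smul F x, mv_smul, hg₀x, smul_neg, neg_one_smul,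
            neg_neg])⟩, false)
      have hφ : Function.Injective φ := by
        intro g g' he
        simp only [φ] at he
        split_ifs at he with e1 e2 e2 <;> simp only [Prod.mk.injEq, Subtype.mk.injEq] at he
        · exact Subtype.ext he.1
        · exact absurd he.2 (by simp)
        · exact absurd he.2 (by simp)
        · exact Subtype.ext (mul_left_cancel he.1)
      have := Nat.card_le_card_of_injective φ hφ
      rw [Nat.card_prod, Nat.card_eq_fintype_card (α := Bool), Fintype.card_bool] at this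
      linarith
    · push Not at hneg
      have := Nat.card_le_card_of_injective
        (fun g : MulAction.stabilizer G (Submodule.span F {x}) =>
          (⟨g.1, (mem_fx_span _ _).2 ((hval g g.2).resolve_right (hneg g g.2))⟩ : fx (Submodule.span F {x})))
        (fun g g' he => Subtype.ext (by simpa using congrArg Subtype.val he))
      linarith
  -- orbits
  let orb : Submodule F V → Finset (Submodule F V) := fun L => Finset.univ.image fun g : G => g • L
  have horb_card : ∀ L, (orb L).card * Nat.card (MulAction.stabilizer G L) = Nat.card G := by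
    intro L
    have h := (MulAction.stabilizer G L).index_mul_card
    rw [MulAction.index_stabilizer, Set.ncard_eq_toFinset_card' ] at h
    rw [← h]
    congr 2
    ext M
    simp [orb, MulAction.mem_orbit_iff]
  let T : Finset (Finset (Submodule F V)) := X.image orb
  have horb_eq : ∀ L M, M ∈ orb L → orb M = orb L := by
    intro L M hM
    obtain ⟨g, -, rfl⟩ := Finset.mem_image.1 hM
    ext N
    simp only [orb, Finset.mem_image, Finset.mem_univ, true_and]
    exact ⟨fun ⟨h, e⟩ => ⟨h * g, by rw [mul_smul, e]⟩, fun ⟨h, e⟩ => ⟨h * g⁻¹, by rw [← mul_smul, inv_mul_cancel_right, e]⟩⟩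
  have hsum : ∑ O ∈ T, ∑ L ∈ X.filter (fun L => orb L = O), (Nat.card (fx L) - 1) = Nat.card G - 1 := by
    rw [Finset.sum_fiberwise_of_maps_to (fun L hL => Finset.mem_image_of_mem _ hL), htot]
  have hsize : ∀ L ∈ X, (∑ M ∈ X.filter (fun M => orb M = orb L), (Nat.card (fx M) - 1) : ℕ) =
      (orb L).card * (Nat.card (fx L) - 1) := by
    intro L hL
    have e : X.filter (fun M => orb M = orb L) = orb L := by
      ext M
      rw [Finset.mem_filter]
      refine ⟨fun h => h.2 ▸ Finset.mem_image.2 ⟨1, Finset.mem_univ _, one_smul _ _⟩, fun h => ?_⟩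
      refine ⟨?_, horb_eq L M h⟩
      obtain ⟨g, -, rfl⟩ := Finset.mem_image.1 h
      exact hXsmul g L hL
    rw [e, Finset.sum_const_nat (m := Nat.card (fx L) - 1)]
    intro M hM
    obtain ⟨g, -, rfl⟩ := Finset.mem_image.1 hM
    rw [hconj]
  -- the distinguished axis
  obtain ⟨C, hCG, hCv⟩ := hC
  obtain ⟨R, hRG, hRv⟩ := hR
  obtain ⟨H, hHG, hHv⟩ := hH
  have cast_mul : ∀ A B, castM (F := F) (A * B) = castM A * castM B := fun A B =>
    map_mul (Int.castRingHom F).mapMatrix A B
  have cast_pow : ∀ A (n : ℕ), castM (F := F) (A ^ n) = castM A ^ n := fun A n =>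
    map_pow (Int.castRingHom F).mapMatrix A n
  have castM_inj : ∀ n m, castM (F := F) (zWord n) = castM (zWord m) → n = m := by
    intro n m h
    refine zWord_injective n m fun i j => ?_
    have e : ((zWord n i j : ℤ) : F) = ((zWord m i j : ℤ) : F) := congrFun (congrFun h i) j
    have h1 : (1 : F) ≠ -1 := fun h' => h2 (by linear_combination h')
    rcases zWord_entry n i j with a | a | a <;> rcases zWord_entry m i j with b | b | b <;>
      rw [a, b] at e ⊢ <;> push_cast at e <;>
      first
      | rfl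
      | exact absurd e h1
      | exact absurd e.symm h1
      | exact absurd e one_ne_zero
      | exact absurd e.symm one_ne_zero
      | exact absurd e (neg_ne_zero.2 one_ne_zero)
      | exact absurd e.symm (neg_ne_zero.2 one_ne_zero)
  let word : Fin 3 × Fin 4 × Fin 2 → G := fun n =>
    ⟨C ^ (n.1 : ℕ) * R ^ (n.2.1 : ℕ) * H ^ (n.2.2 : ℕ),
      mul_mem (mul_mem (pow_mem hCG _) (pow_mem hRG _)) (pow_mem hHG _)⟩
  have hwordv : ∀ n, ((word n : GL (Fin 3) F) : Matrix (Fin 3) (Fin 3) F) = castM (zWord n) := fun n => by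
    simp only [word, Units.val_mul, Units.val_pow_eq_pow_val, hCv, hRv, hHv, zWord, cast_mul, cast_pow]
  have hword_inj : Function.Injective word := fun n m h => castM_inj n m (by rw [← hwordv, ← hwordv, h])
  set x₀ : Fin 3 → F := ![1, 0, 0] with hx₀
  have hx₀0 : x₀ ≠ 0 := by simp [hx₀]
  have hmvcol : ∀ (g : G) (A : Matrix (Fin 3) (Fin 3) ℤ), ((g : GL (Fin 3) F) : Matrix (Fin 3) (Fin 3) F) = castM A →
      mv g x₀ = fun i => ((A i 0 : ℤ) : F) := fun g A hg => by
    funext i
    simp [mv, hg, hx₀, castM, Matrix.mulVec, dotProduct, Fin.sum_univ_three]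
  set r : G := ⟨R, hRG⟩ with hr
  set hh : G := ⟨H, hHG⟩ with hhh
  set cc : G := ⟨C, hCG⟩ with hcc
  have hr1 : r ≠ 1 := by
    intro h
    have h0 : word (0, 1, 0) = word (0, 0, 0) := Subtype.ext (by
      have := congrArg Subtype.val h
      simpa [word, hr] using this)
    exact absurd (hword_inj h0) (by decide)
  have hr4 : orderOf r = 4 := by
    rw [show (4 : ℕ) = 2 ^ (1 + 1) from rfl]
    haveI : Fact (Nat.Prime 2) := ⟨Nat.prime_two⟩
    have hval : ∀ (n : ℕ), (((r ^ n : G) : GL (Fin 3) F) : Matrix (Fin 3) (Fin 3) F) = castM (zR ^ n) :=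
      fun n => by simp [hr, hRv, cast_pow]
    refine orderOf_eq_prime_pow ?_ ?_
    · intro h
      have h0 : word (0, 2, 0) = word (0, 0, 0) := Subtype.ext (Units.ext (by
        have e := hval 2
        rw [show (2 : ℕ) = 2 ^ 1 from rfl] at e
        rw [h] at e
        simp only [hwordv]
        simpa [zWord, castM] using e.symm))
      exact absurd (hword_inj h0) (by decide)
    · refine Subtype.ext (Units.ext ?_)
      rw [hval, show zR ^ 2 ^ (1 + 1) = 1 by decide]
      simp [castM]
  set L₁ := Submodule.span F {x₀} with hL₁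
  have hrx : mv r x₀ = x₀ := by
    rw [hmvcol r zR (by simp [hr, hRv])]
    funext i
    fin_cases i <;> simp [zR, hx₀]
  have hL₁X : L₁ ∈ X := (memX _).2 ⟨r, hr1, axis_unique r hr1 x₀ hx₀0 hrx⟩
  have hk₁ : 4 ∣ Nat.card (fx L₁) := by
    have : r ∈ fx L₁ := (mem_fx_span r x₀).2 hrx
    have h := orderOf_dvd_natCard (⟨r, this⟩ : fx L₁)
    rwa [← orderOf_injective (fx L₁).subtype Subtype.val_injective, Subgroup.coe_subtype, hr4] at h
  have hs₁ : Nat.card (MulAction.stabilizer G L₁) = 2 * Nat.card (fx L₁) := by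
    refine (hstab L₁ hL₁X).resolve_left fun he => ?_
    have hle : fx L₁ ≤ MulAction.stabilizer G L₁ := fun g hg => by
      rw [MulAction.mem_stabilizer_iff, smul_span, (mem_fx_span g x₀).1 hg]
    have heq := Subgroup.eq_of_le_of_card_ge hle he.le
    have hneg : mv hh x₀ = -x₀ := by
      rw [hmvcol hh zH (by simp [hhh, hHv])]
      funext i
      fin_cases i <;> simp [zH, hx₀]
    have hmem : hh ∈ MulAction.stabilizer G L₁ := by
      rw [MulAction.mem_stabilizer_iff, smul_span, hneg, ← Set.neg_singleton, Submodule.span_neg]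
    rw [← heq, mem_fx_span, hneg] at hmem
    have := congrFun hmem 0
    simp [hx₀] at this
    exact h2 (by linear_combination -this)
  have hN : 4 * Nat.card (fx L₁) ≤ Nat.card G := by
    have h := horb_card L₁
    rw [hs₁] at h
    have h1 : 1 < (orb L₁).card := by
      refine Finset.one_lt_card.2 ⟨L₁, Finset.mem_image.2 ⟨1, Finset.mem_univ _, one_smul _ _⟩,
        cc • L₁, Finset.mem_image.2 ⟨cc, Finset.mem_univ _, rfl⟩, fun e => ?_⟩
      rw [smul_span, hmvcol cc zC (by simp [hcc, hCv])] at e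
      have hm : x₀ ∈ L₁ := Submodule.mem_span_singleton_self x₀
      rw [e] at hm
      obtain ⟨c, hc⟩ := Submodule.mem_span_singleton.1 hm
      simpa [zC, hx₀] using congrFun hc 0
    nlinarith
  -- the count
  have h24 : Nat.card G = 24 := by
    have hk0 : 0 < Nat.card (fx L₁) := Nat.card_pos
    let rep : Finset (Submodule F V) → Submodule F V := fun O =>
      if h : ∃ L ∈ X, orb L = O then h.choose else ⊥
    have hrep : ∀ O ∈ T, rep O ∈ X ∧ orb (rep O) = O := fun O hO => by
      obtain ⟨L, hL, hLO⟩ := Finset.mem_image.1 hO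
      have h : ∃ L ∈ X, orb L = O := ⟨L, hL, hLO⟩
      simp only [rep, dif_pos h]
      exact h.choose_spec
    have hO₁ : orb L₁ ∈ T := Finset.mem_image_of_mem _ hL₁X
    refine count_arith hk₁ hk0 hN (T.erase (orb L₁)) (fun O => Nat.card (fx (rep O)))
      (fun O => Nat.card (MulAction.stabilizer G (rep O))) ?_ ?_ ?_
    · intro O hO
      obtain ⟨h, hh1, hLh⟩ := (memX _).1 (hrep O (Finset.mem_of_mem_erase hO)).1
      refine Nat.succ_le_of_lt ((Finite.one_lt_card_iff_nontrivial).2 ⟨⟨h, hLh ▸ axis_mem h hh1⟩, 1, fun e => hh1 ?_⟩)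
      simpa using congrArg Subtype.val e
    · exact fun O hO => hstab _ (hrep O (Finset.mem_of_mem_erase hO)).1
    · have hterm : ∀ L ∈ X, ((((orb L).card * (Nat.card (fx L) - 1) : ℕ)) : ℚ) =
          (Nat.card G : ℚ) * (((Nat.card (fx L) : ℚ) - 1) / Nat.card (MulAction.stabilizer G L)) := by
        intro L hL
        have h := horb_card L
        have hs0 : (Nat.card (MulAction.stabilizer G L) : ℚ) ≠ 0 := by exact_mod_cast Nat.card_pos.ne'
        rw [Nat.cast_mul, Nat.cast_sub (Nat.card_pos), ← h, Nat.cast_mul]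
        field_simp
        push_cast
        ring
      have hE := congrArg (fun n : ℕ => (n : ℚ)) hsum
      simp only [Nat.cast_sum] at hE
      rw [Nat.cast_sub (Nat.card_pos), Nat.cast_one, ← Finset.add_sum_erase _ _ hO₁] at hE
      have e1 := hsize L₁ hL₁X
      have hf1 : ((∑ L ∈ X.filter (fun L => orb L = orb L₁), (Nat.card (fx L) - 1) : ℕ) : ℚ) =
          (Nat.card G : ℚ) * (((Nat.card (fx L₁) : ℚ) - 1) / (2 * Nat.card (fx L₁))) := by
        rw [e1, hterm L₁ hL₁X, hs₁]
        push_cast
        ring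
      have hf2 : ∀ O ∈ T.erase (orb L₁), ((∑ L ∈ X.filter (fun L => orb L = O), (Nat.card (fx L) - 1) : ℕ) : ℚ) =
          (Nat.card G : ℚ) * (((Nat.card (fx (rep O)) : ℚ) - 1) /
            Nat.card (MulAction.stabilizer G (rep O))) := by
        intro O hO
        obtain ⟨hr', he⟩ := hrep O (Finset.mem_of_mem_erase hO)
        conv_lhs => rw [← he]
        rw [hsize _ hr', hterm _ hr']
      simp only [Nat.cast_sum] at hf1 hf2
      rw [hf1, Finset.sum_congr rfl hf2, ← Finset.mul_sum] at hE
      have hN0 : (Nat.card G : ℚ) ≠ 0 := by exact_mod_cast Nat.card_pos.ne'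
      field_simp at hE ⊢
      linarith [hE]
  intro A hA
  have hbij : Function.Bijective word :=
    (Fintype.bijective_iff_injective_and_card word).2 ⟨hword_inj, by rw [← Nat.card_eq_fintype_card (α := G), h24]; rfl⟩
  obtain ⟨n, hn⟩ := hbij.2 ⟨A, hA⟩
  intro j
  obtain ⟨i, hi⟩ := zWord_sp n j
  refine ⟨i, fun k hk => ?_⟩
  have e : (A : Matrix (Fin 3) (Fin 3) F) = castM (zWord n) := by rw [← hwordv, hn]
  simp [e, castM, hi k hk]

end CfsgLib.OrthMono17.Rot
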