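import Cfsg.Agent.OrthMono17.Lift
import Cfsg.Agent.OrthGeo.RootLines
import Cfsg.Agent.OrthMono17.RotThree
import Mathlib.LinearAlgebra.Matrix.Charpoly.Coeff
import Mathlib.LinearAlgebra.Matrix.Charpoly.Minpoly
import Mathlib.RingTheory.Polynomial.Nilpotent

/-!
A non-monomial group with all sign changes and transpositions of three frame vectors contains all root
elements of their span, over a prime field of characteristic at least five.
-/

set_option autoImplicit false
set_option linter.unusedSectionVars false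

namespace CfsgLib.OrthMono17.Frame

open Cfsg.Geo Module CfsgLib.OrthGeo CfsgLib.OrthMono17.Rot
open scoped Matrix MatrixGroups

lemma exists_natCast {F : Type*} [Field F] [Fintype F] (hp : (Fintype.card F).Prime) (x : F) :
    ∃ n : ℕ, (n : F) = x := by
  haveI : Fact (Fintype.card F).Prime := ⟨hp⟩
  haveI : CharP F (Fintype.card F) := charP_of_card_eq_prime rfl
  obtain ⟨y, rfl⟩ := (ZMod.castHom_bijective (R := F) rfl).2 x
  exact ⟨y.val, by rw [ZMod.castHom_apply, ← ZMod.natCast_val]⟩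

lemma three_pow_zero {F : Type*} [Field F] {M : Matrix (Fin 3) (Fin 3) F} (h : IsNilpotent M) : M ^ 3 = 0 := by
  have h1 := (Matrix.isNilpotent_charpoly_sub_pow_of_isNilpotent h).eq_zero
  rw [sub_eq_zero, Fintype.card_fin] at h1
  have := Matrix.aeval_self_charpoly M
  rw [h1] at this
  simpa using this

variable {ι : Type} [Fintype ι] [DecidableEq ι] {F : Type*} [Field F] [Fintype F]
variable {Q : (ι → F) → F} {κ : Type} [Fintype κ] [DecidableEq κ] {𝔉 : Frame Q κ}
variable {K : Subgroup (GL ι F)} {J : Finset κ}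

lemma EJ.zero (z : ι → F) : 𝔉.EJ K J z 0 :=
  ⟨1, one_mem _, fun x _ => by rw [eichlerMat_zero 𝔉.nondeg]; rfl⟩

lemma EJ.add (hK : 𝔉.Data K J) {z w w' : ι → F} (hz : 𝔉.InS J z) (hw : 𝔉.InS J w') (hzz : 𝔉.dot z z = 0)
    (hzw : 𝔉.dot z w = 0) (hzw' : 𝔉.dot z w' = 0) (h : 𝔉.EJ K J z w) (h' : 𝔉.EJ K J z w') :
    𝔉.EJ K J z (w + w') := by
  obtain ⟨g, hg, hgx⟩ := h
  obtain ⟨g', hg', hgx'⟩ := h'
  refine ⟨g * g', mul_mem hg hg', fun x hx => ?_⟩
  rw [Units.val_mul, ← Matrix.mulVec_mulVec, hgx' x hx, hgx _ (hx.eichler hz hw), Matrix.mulVec_mulVec,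
    eichlerMat_mul 𝔉.nondeg (by rw [𝔉.q_eq, hzz, mul_zero]) (by rw [𝔉.bform_eq, hzw, mul_zero])
      (by rw [𝔉.bform_eq, hzw', mul_zero])]

lemma EJ.smul (hp : (Fintype.card F).Prime) (hK : 𝔉.Data K J) {z w : ι → F} (hz : 𝔉.InS J z) (hw : 𝔉.InS J w)
    (hzz : 𝔉.dot z z = 0) (hzw : 𝔉.dot z w = 0) (h : 𝔉.EJ K J z w) (c : F) : 𝔉.EJ K J z (c • w) := by
  obtain ⟨n, rfl⟩ := exists_natCast hp c
  induction n with
  | zero => rw [Nat.cast_zero, zero_smul]; exact EJ.zero z
  | succ n ih =>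
    rw [Nat.cast_succ, add_smul, one_smul]
    exact EJ.add hK hz hw hzz (by simp [hzw]) hzw ih h

/-- Conjugating a root element by a member. -/
lemma EJ.conj (hK : 𝔉.Data K J) {z w : ι → F} (h : 𝔉.EJ K J z w) {g : GL ι F} (hg : g ∈ K) :
    𝔉.EJ K J ((g : Matrix ι ι F) *ᵥ z) ((g : Matrix ι ι F) *ᵥ w) := by
  obtain ⟨e, he, hex⟩ := h
  refine ⟨g * e * g⁻¹, mul_mem (mul_mem hg he) (inv_mem hg), fun x hx => ?_⟩
  rw [Units.val_mul, Units.val_mul, ← Matrix.mulVec_mulVec, ← Matrix.mulVec_mulVec,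
    hex _ (hK.pres _ (inv_mem hg) x hx)]
  have hgI := hK.iso hg
  conv_rhs => rw [← mulVec_inv_cancel g x]
  rw [eichlerMat_mulVec_dot (𝔉 := 𝔉), eichlerMat_mulVec_dot (𝔉 := 𝔉)]
  simp only [Matrix.mulVec_sub, Matrix.mulVec_add, Matrix.mulVec_smul, 𝔉.dot_isometry hgI]

lemma eichlerMat_smul_left (𝔉 : Frame Q κ) (c : F) {z w : ι → F} :
    eichlerMat Q (c • z) w = eichlerMat Q z (c • w) := by
  refine Matrix.ext_of_mulVec_single fun i => ?_
  generalize (Pi.single i 1 : ι → F) = x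
  rw [eichlerMat_mulVec_dot (𝔉 := 𝔉), eichlerMat_mulVec_dot (𝔉 := 𝔉)]
  simp only [dot_smul_left, dot_smul_right, smul_smul]
  match_scalars <;> ring

theorem base_three (hp : (Fintype.card F).Prime) (h3 : (3 : F) ≠ 0) {R : Finset κ} (hR : R.card = 3)
    (hD : 𝔉.Data K R) (hF : 𝔉.Full K R) (hnm : ¬ ∀ g ∈ K, 𝔉.Mono R g) :
    ∀ z w, 𝔉.InS R z → 𝔉.InS R w → 𝔉.dot z z = 0 → 𝔉.dot z w = 0 → 𝔉.EJ K R z w := by
  classical
  set p := Fintype.card F with hpdef
  haveI : Fact p.Prime := ⟨hp⟩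
  haveI : CharP F p := charP_of_card_eq_prime rfl
  have h2 := 𝔉.two_ne
  have hp3 : 3 ≤ p := by
    rcases Nat.lt_or_ge p 3 with h | h
    · exfalso
      have h' : ((p : ℕ) : F) = 0 := Nat.cast_card_eq_zero F
      obtain h'' : p = 2 := by have := hp.two_le; omega
      rw [h''] at h'
      exact h2 (by exact_mod_cast h')
    · exact h
  obtain ⟨a, b, c, hab, hac, hbc, rfl⟩ := Finset.card_eq_three.1 hR
  set R : Finset κ := {a, b, c} with hRdef
  have hmem : a ∈ R ∧ b ∈ R ∧ c ∈ R := by simp [hRdef]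
  let s : Fin 3 → κ := ![a, b, c]
  have hs : ∀ i, s i ∈ R := fun i => by fin_cases i <;> simp [s, hRdef]
  have hsne : ∀ i j, i ≠ j → s i ≠ s j := fun i j h => by
    fin_cases i <;> fin_cases j <;> simp_all [s, Ne.symm hab, Ne.symm hac, Ne.symm hbc]
  have hexp : ∀ x, 𝔉.InS R x → x = ∑ i, 𝔉.co x (s i) • 𝔉.basis (s i) := fun x hx => by
    conv_lhs => rw [← hx.sum_eq, hRdef, Finset.sum_insert (by simp [hab, hac]), Finset.sum_pair hbc]
    simp [Fin.sum_univ_three, s, add_assoc]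
  have hco : ∀ i j, 𝔉.co (𝔉.basis (s j)) (s i) = if i = j then 1 else 0 := fun i j => by
    by_cases h : i = j
    · subst h; simp
    · rw [if_neg h, co_basis_ne (h := hsne j i (Ne.symm h))]
  -- the restriction as a matrix
  let ρm : K →* Matrix (Fin 3) (Fin 3) F :=
    { toFun := fun g => Matrix.of fun i j => 𝔉.co (((g : GL ι F) : Matrix ι ι F) *ᵥ 𝔉.basis (s j)) (s i)
      map_one' := by
        ext i j
        simp [Matrix.one_apply, hco]
      map_mul' := fun g h => by
        ext i j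
        simp only [Matrix.of_apply, Matrix.mul_apply, Subgroup.coe_mul, Units.val_mul]
        rw [← Matrix.mulVec_mulVec]
        conv_lhs => rw [hexp _ (hD.pres h h.2 _ (𝔉.inS_basis (hs j))), Matrix.mulVec_sum]
        rw [co, map_sum, Finset.sum_apply']
        refine Finset.sum_congr rfl fun l _ => ?_
        rw [Matrix.mulVec_smul, map_smul, Finsupp.smul_apply, smul_eq_mul, mul_comm]
        rfl }
  have hρ : ∀ (g : K) i j, ρm g i j = 𝔉.co (((g : GL ι F) : Matrix ι ι F) *ᵥ 𝔉.basis (s j)) (s i) :=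
    fun _ _ _ => rfl
  have horth : ∀ g : K, (ρm g)ᵀ * ρm g = 1 := fun g => by
    ext i j
    have h := 𝔉.dot_isometry (hD.iso g.2) (𝔉.basis (s i)) (𝔉.basis (s j))
    rw [(hD.pres g g.2 _ (𝔉.inS_basis (hs i))).dot_eq, dot_basis_left, hco] at h
    rw [Matrix.mul_apply, Fin.sum_univ_three, Matrix.one_apply]
    simp only [Matrix.transpose_apply, hρ]
    rw [← h, hRdef, Finset.sum_insert (by simp [hab, hac]), Finset.sum_pair hbc]
    simp [s, add_assoc]
  let ρ : K →* GL (Fin 3) F := ρm.toHomUnits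
  have hρv : ∀ g : K, ((ρ g : GL (Fin 3) F) : Matrix (Fin 3) (Fin 3) F) = ρm g := fun _ => rfl
  let G : Subgroup (GL (Fin 3) F) := ρ.range ⊓ (Matrix.GeneralLinearGroup.det (n := Fin 3) (R := F)).ker
  have hGmem : ∀ g : K, (ρm g).det = 1 → ρ g ∈ G := fun g h => ⟨⟨g, rfl⟩, Units.ext h⟩
  have hG : ∀ A ∈ G, IsRot (A : Matrix (Fin 3) (Fin 3) F) := by
    rintro A ⟨⟨g, rfl⟩, hdet⟩
    exact ⟨horth g, congrArg Units.val hdet⟩
  -- the generators
  have hgen : ∀ (A : Matrix (Fin 3) (Fin 3) ℤ), (∀ g : K, ρm g = castM A → (ρm g).det = 1) →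
      (∃ g ∈ K, ∀ j, (g : Matrix ι ι F) *ᵥ 𝔉.basis (s j) = ∑ i, ((A i j : ℤ) : F) • 𝔉.basis (s i)) →
      ∃ B ∈ G, ((B : GL (Fin 3) F) : Matrix (Fin 3) (Fin 3) F) = castM A := by
    intro A hdet ⟨g, hg, hgs⟩
    have he : ρm ⟨g, hg⟩ = castM A := by
      ext i j
      rw [hρ, hgs j, co, map_sum, Finset.sum_apply', Finset.sum_eq_single i]
      · rw [map_smul, Finsupp.smul_apply, smul_eq_mul]
        show _ * 𝔉.co _ _ = _
        rw [co_basis_self, mul_one]
        rfl
      · intro l _ hli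
        rw [map_smul, Finsupp.smul_apply, smul_eq_mul]
        show _ * 𝔉.co _ _ = _
        rw [co_basis_ne (h := hsne l i hli), mul_zero]
      · exact fun h => absurd (Finset.mem_univ i) h
    exact ⟨ρ ⟨g, hg⟩, hGmem _ (hdet _ he), he⟩
  have hdetc : ∀ {A : Matrix (Fin 3) (Fin 3) ℤ}, A.det = 1 → ∀ g : K, ρm g = castM A → (ρm g).det = 1 :=
    fun {A} hA g he => by rw [he, castM, ← RingHom.map_det, hA, map_one]
  have hC : ∃ B ∈ G, ((B : GL (Fin 3) F) : Matrix (Fin 3) (Fin 3) F) = castM zC := by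
    refine hgen zC (hdetc (by decide)) ?_
    obtain ⟨g, hg, hgk⟩ := hD.cyc a hmem.1 b hmem.2.1 c hmem.2.2 hab hbc hac
    refine ⟨g, hg, fun j => ?_⟩
    rw [hgk (s j) (hs j), Fin.sum_univ_three]
    fin_cases j <;> simp [zC, s, Ne.symm hab, Ne.symm hac, Ne.symm hbc]
  have hH : ∃ B ∈ G, ((B : GL (Fin 3) F) : Matrix (Fin 3) (Fin 3) F) = castM zH := by
    refine hgen zH (hdetc (by decide)) ?_
    obtain ⟨g, hg, hgk⟩ := hD.sgn a hmem.1 c hmem.2.2 hac
    refine ⟨g, hg, fun j => ?_⟩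
    rw [hgk (s j) (hs j), Fin.sum_univ_three]
    fin_cases j <;> simp [zH, s, Ne.symm hab, Ne.symm hac, hbc]
  have hR' : ∃ B ∈ G, ((B : GL (Fin 3) F) : Matrix (Fin 3) (Fin 3) F) = castM zR := by
    refine hgen zR (hdetc (by decide)) ?_
    obtain ⟨g, hg, hgk⟩ := hF.sgn_one b hmem.2.1
    obtain ⟨h, hh, hhk⟩ := hF.swap b hmem.2.1 c hmem.2.2 hbc
    refine ⟨g * h, mul_mem hg hh, fun j => ?_⟩
    have hsw : Equiv.swap b c (s j) ∈ R := by
      rw [Equiv.swap_apply_def]; split_ifs <;> first | exact hs j | exact hmem.2.1 | exact hmem.2.2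
    rw [Units.val_mul, ← Matrix.mulVec_mulVec, hhk _ (hs j), hgk _ hsw, Fin.sum_univ_three]
    fin_cases j <;> simp [zR, s, Equiv.swap_apply_def, hab, hac, Ne.symm hbc]
  obtain ⟨A, hA⟩ : ∃ A : G, orderOf A = p := by
    refine exists_prime_orderOf_dvd_card' p ?_
    by_contra hnp
    refine hnm fun g hg i hi => ?_
    have hSP := rot_three hp hp3 G hG hC hR' hH hnp
    obtain ⟨e, he, hek⟩ := hF.sgn_one a hmem.1
    have hρe : ρm ⟨e, he⟩ = Matrix.diagonal (![-1, 1, 1] : Fin 3 → F) := by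
      ext i' j'
      rw [hρ, hek _ (hs j'), co_smul, hco, Matrix.diagonal_apply]
      fin_cases i' <;> fin_cases j' <;> simp [s, Ne.symm hab, Ne.symm hac]
    have hdd : (ρm ⟨g, hg⟩).det = 1 ∨ (ρm ⟨g, hg⟩).det = -1 := by
      have h := congrArg Matrix.det (horth ⟨g, hg⟩)
      rw [Matrix.det_mul, Matrix.det_transpose, Matrix.det_one] at h
      exact mul_self_eq_one_iff.1 h
    have hsp : IsSignedPerm (ρm ⟨g, hg⟩) := by
      rcases hdd with hd | hd
      · exact hSP _ (hGmem _ hd)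
      · have h := hSP _ (hGmem (⟨g, hg⟩ * ⟨e, he⟩) (by
          rw [map_mul, Matrix.det_mul, hd, hρe, Matrix.det_diagonal, Fin.prod_univ_three]; simp))
        intro j
        obtain ⟨i', hi'⟩ := h j
        refine ⟨i', fun k hk => ?_⟩
        have := hi' k hk
        rw [hρv, map_mul, hρe, Matrix.mul_diagonal] at this
        refine (mul_eq_zero.1 this).resolve_right ?_
        fin_cases j <;> simp
    obtain ⟨j, rfl⟩ : ∃ j, i = s j := by
      simp only [hRdef, Finset.mem_insert, Finset.mem_singleton] at hi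
      rcases hi with rfl | rfl | rfl
      exacts [⟨0, rfl⟩, ⟨1, rfl⟩, ⟨2, rfl⟩]
    obtain ⟨i', hi'⟩ := hsp j
    refine ⟨s i', hs i', _, (hexp _ (hD.pres g hg _ (𝔉.inS_basis (hs j)))).trans
      (Finset.sum_eq_single i' (fun l _ hl => ?_) fun h => absurd (Finset.mem_univ i') h)⟩
    have := hi' l hl
    rw [hρ] at this
    rw [this, zero_smul]
  obtain ⟨⟨g, hgK⟩, hgA⟩ := (A.2).1
  -- a unipotent member
  have hA1 : ρm ⟨g, hgK⟩ ≠ 1 := by
    intro h
    have : A = 1 := Subtype.ext (Units.ext (by rw [← hgA, hρv, h]; rfl))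
    rw [this, orderOf_one] at hA
    omega
  have hnil : IsNilpotent (ρm ⟨g, hgK⟩ - 1) := by
    refine ⟨p, ?_⟩
    haveI : CharP (Matrix (Fin 3) (Fin 3) F) p := inferInstance
    haveI : ExpChar (Matrix (Fin 3) (Fin 3) F) p := ExpChar.prime hp
    rw [sub_pow_expChar_of_commute _ (Commute.one_right (ρm ⟨g, hgK⟩)), one_pow, ← hρv, hgA]
    have := congrArg (fun B : G => ((B : GL (Fin 3) F) : Matrix (Fin 3) (Fin 3) F)) (pow_orderOf_eq_one A)
    rw [hA] at this
    simp only [SubgroupClass.coe_pow, Units.val_pow_eq_pow_val, OneMemClass.coe_one, Units.val_one] at this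
    rw [this, sub_self]
  have hcube := three_pow_zero hnil
  set d : (ι → F) → (ι → F) := fun x => (g : Matrix ι ι F) *ᵥ x - x with hd
  have hdS : ∀ x, 𝔉.InS R x → 𝔉.InS R (d x) := fun x hx => (hD.pres g hgK x hx).sub hx
  have hdco : ∀ x, 𝔉.InS R x → ∀ i, 𝔉.co (d x) (s i) =
      ((ρm ⟨g, hgK⟩ - 1) *ᵥ fun j => 𝔉.co x (s j)) i := by
    intro x hx i
    rw [Matrix.sub_mulVec, Matrix.one_mulVec, Pi.sub_apply, hd, co_sub]
    congr 1
    conv_lhs => rw [hexp x hx, Matrix.mulVec_sum]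
    rw [co, map_sum, Finset.sum_apply', Matrix.mulVec, dotProduct]
    refine Finset.sum_congr rfl fun l _ => ?_
    rw [Matrix.mulVec_smul, map_smul, Finsupp.smul_apply, smul_eq_mul, mul_comm]
    rfl
  have hext : ∀ x, 𝔉.InS R x → (∀ i, 𝔉.co x (s i) = 0) → x = 0 := fun x hx h => by
    rw [hexp x hx]; simp [h]
  have hd3 : ∀ x, 𝔉.InS R x → d (d (d x)) = 0 := by
    intro x hx
    refine hext _ (hdS _ (hdS _ (hdS x hx))) fun i => ?_
    rw [hdco _ (hdS _ (hdS x hx)), funext (hdco _ (hdS x hx)), funext (hdco x hx), Matrix.mulVec_mulVec,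
      Matrix.mulVec_mulVec, ← pow_two, ← pow_succ, hcube, Matrix.zero_mulVec, Pi.zero_apply]
  have hgI := hD.iso hgK
  have hB : ∀ x y, 𝔉.dot (d x) (d y) + 𝔉.dot (d x) y + 𝔉.dot x (d y) = 0 := fun x y => by
    have := 𝔉.dot_isometry hgI x y
    simp only [hd, dot_sub_left, dot_sub_right]
    linear_combination this
  -- the square of `g - 1` is not zero
  have hd2 : ∃ y, 𝔉.InS R y ∧ d (d y) ≠ 0 := by
    by_contra hcon
    push Not at hcon
    have hbasis : ∀ y, 𝔉.InS R y → d y = 0 := by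
      intro y hy
      by_contra hy0
      set t := d y with ht
      have htS := hdS y hy
      have ht0 : d t = 0 := hcon y hy
      -- the image is totally isotropic
      have himg : ∀ x, 𝔉.InS R x → 𝔉.dot t (d x) = 0 := fun x hx => by
        have := hB t x
        rw [ht0] at this
        simpa using this
      have hts : ∀ x, 𝔉.InS R x → d x = 0 → 𝔉.dot t x = 0 := fun x hx hx0 => by
        have := hB y x
        rw [hx0] at this
        simpa using this
      -- everything in the image is a multiple of `t`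
      have himg2 : ∀ x, 𝔉.InS R x → ∃ c : F, d x = c • t := by
        intro x hx
        by_contra hne
        push Not at hne
        set u := d x with hu
        have huS := hdS x hx
        have hu0 : d u = 0 := hcon x hx
        have htt : 𝔉.dot t t = 0 := hts t htS ht0
        have htu : 𝔉.dot t u = 0 := hts u huS hu0
        have huu : 𝔉.dot u u = 0 := by
          have := hB x u
          rw [hu0] at this
          simpa [← hu] using this
        let T : Fin 3 → F := fun i => 𝔉.co t (s i)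
        let U : Fin 3 → F := fun i => 𝔉.co u (s i)
        have hdot : ∀ v w, 𝔉.InS R v →
            (fun i => 𝔉.co v (s i)) ⬝ᵥ (fun i => 𝔉.co w (s i)) = 𝔉.dot v w := fun v w hv => by
          rw [hv.dot_eq, dotProduct, Fin.sum_univ_three, hRdef, Finset.sum_insert (by simp [hab, hac]),
            Finset.sum_pair hbc]
          simp [s, add_assoc]
        have hT0 : T ≠ 0 := fun h => hy0 (hext t htS fun i => congrFun h i)
        by_cases hcr : crossProduct T U = 0
        · obtain ⟨e, he⟩ := eq_smul_of_cross_eq_zero hT0 hcr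
          refine hne e (InS.ext huS (htS.smul _) fun k hk => ?_)
          obtain ⟨j, rfl⟩ : ∃ j, k = s j := by
            simp only [hRdef, Finset.mem_insert, Finset.mem_singleton] at hk
            rcases hk with rfl | rfl | rfl
            exacts [⟨0, rfl⟩, ⟨1, rfl⟩, ⟨2, rfl⟩]
          simpa using congrFun he j
        · obtain ⟨e1, he1⟩ := eq_smul_cross hcr (w := T) (by rw [hdot t t htS, htt])
            (by rw [dotProduct_comm, hdot t u htS, htu])
          obtain ⟨e2, he2⟩ := eq_smul_cross hcr (w := U) (by rw [hdot t u htS, htu])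
            (by rw [hdot u u huS, huu])
          refine hcr ?_
          have h' := congrArg₂ (fun x y => crossProduct x y) he1 he2
          simp only [map_smul, LinearMap.smul_apply, cross_self, smul_zero] at h'
          exact h'
      have hperp : ∀ x, 𝔉.InS R x → 𝔉.dot t x = 0 := by
        intro x hx
        obtain ⟨e, he⟩ := himg2 x hx
        have := hts (x - e • y) (hx.sub (hy.smul _)) (by
          simp only [hd, Matrix.mulVec_sub, Matrix.mulVec_smul] at he ht ⊢
          rw [ht] at he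
          linear_combination (norm := module) he)
        have hty : 𝔉.dot t y = 0 := by
          have := hB y y
          rw [← ht, hts t htS ht0, zero_add, 𝔉.dot_comm y t] at this
          exact (mul_eq_zero.1 (show 2 * 𝔉.dot t y = 0 by linear_combination this)).resolve_left h2
        simpa [hty] using this
      refine hy0 (hext t htS fun i => ?_)
      simpa using hperp _ (𝔉.inS_basis (hs i))
    apply hA1
    ext i j
    have := hbasis _ (𝔉.inS_basis (hs j))
    rw [hρ, show (g : Matrix ι ι F) *ᵥ 𝔉.basis (s j) = 𝔉.basis (s j) from sub_eq_zero.1 this, hco,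
      Matrix.one_apply]
  obtain ⟨y, hy, hy2⟩ := hd2
  set w := d y with hw
  set z := d w with hz
  have hwS := hdS y hy
  have hzS := hdS w hwS
  have hdz : d z = 0 := hd3 y hy
  have hgz : (g : Matrix ι ι F) *ᵥ z = z := sub_eq_zero.1 hdz
  have hgw : (g : Matrix ι ι F) *ᵥ w = w + z := by simp only [hz, hd, add_sub_cancel]
  have hgy : (g : Matrix ι ι F) *ᵥ y = y + w := by simp only [hw, hd, add_sub_cancel]
  have hzz : 𝔉.dot z z = 0 := by
    have := hB z w
    rw [hdz, ← hz] at this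
    simpa using this
  have hzw : 𝔉.dot z w = 0 := by
    have := hB z y
    rw [hdz, ← hw] at this
    simpa using this
  have hwy : 2 * 𝔉.dot w y + 𝔉.dot w w = 0 := by
    have := hB y y
    rw [← hw, 𝔉.dot_comm y w] at this
    linear_combination this
  have hww : 𝔉.dot w w = -𝔉.dot z y := by
    have := hB w y
    rw [← hw, ← hz, hzw] at this
    linear_combination this
  -- coordinates of `y, w, z`
  have hspan : ∀ x, 𝔉.InS R x → ∀ (f₁ f₂ : (ι → F) →ₗ[F] (ι → F)), f₁ y = f₂ y → f₁ w = f₂ w → f₁ z = f₂ z →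
      f₁ x = f₂ x := by
    intro x hx f₁ f₂ h1 h2' h3'
    have hli : LinearIndependent F ![fun i => 𝔉.co y (s i), fun i => 𝔉.co w (s i), fun i => 𝔉.co z (s i)] := by
      rw [Fintype.linearIndependent_iff]
      intro e he
      have hcomb : e 0 • y + e 1 • w + e 2 • z = 0 := by
        refine hext _ (((hy.smul _).add (hwS.smul _)).add (hzS.smul _)) fun i => ?_
        have := congrFun he i
        simp [Fin.sum_univ_three] at this
        simpa using this
      have hlin : ∀ u v, d (u + v) = d u + d v := fun u v => by simp only [hd, Matrix.mulVec_add]; abel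
      have hlins : ∀ (r : F) u, d (r • u) = r • d u := fun r u => by
        simp only [hd, Matrix.mulVec_smul, smul_sub]
      have hd0 : d 0 = 0 := by simp [hd]
      have h := congrArg (fun u => d (d u)) hcomb
      simp only [hlin, hlins, ← hw, ← hz, hdz, hd0, smul_zero, add_zero] at h
      have e0 : e 0 = 0 := (smul_eq_zero.1 h).resolve_right hy2
      rw [e0, zero_smul, zero_add] at hcomb
      have h' := congrArg d hcomb
      simp only [hlin, hlins, ← hz, hdz, hd0, smul_zero, add_zero] at h'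
      have e1 : e 1 = 0 := (smul_eq_zero.1 h').resolve_right hy2
      rw [e1, zero_smul, zero_add] at hcomb
      have e2 : e 2 = 0 := (smul_eq_zero.1 hcomb).resolve_right hy2
      intro i; fin_cases i <;> assumption
    have htop := hli.span_eq_top_of_card_eq_finrank (by simp)
    obtain ⟨e, he⟩ := (Submodule.mem_span_range_iff_exists_fun F).1
      (htop ▸ Submodule.mem_top : (fun i => 𝔉.co x (s i)) ∈ Submodule.span F _)
    have hxeq : x = e 0 • y + e 1 • w + e 2 • z := by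
      refine sub_eq_zero.1 (hext _ (hx.sub (((hy.smul _).add (hwS.smul _)).add (hzS.smul _))) fun i => ?_)
      have := congrFun he i
      simp [Fin.sum_univ_three] at this
      simp
      linear_combination -this
    rw [hxeq]; simp only [map_add, map_smul, h1, h2', h3']
  have hww0 : 𝔉.dot w w ≠ 0 := by
    intro h
    have hzy : 𝔉.dot z y = 0 := by linear_combination hww - h
    have hperp : ∀ x, 𝔉.InS R x → 𝔉.dot z x = 0 := fun x hx => by
      let f₁ : (ι → F) →ₗ[F] (ι → F) :=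
        { toFun := fun v => 𝔉.dot z v • z
          map_add' := fun u v => by simp [add_smul]
          map_smul' := fun r v => by simp [mul_smul] }
      have := hspan x hx f₁ 0 (by simp [f₁, hzy]) (by simp [f₁, hzw]) (by simp [f₁, hzz])
      exact (smul_eq_zero.1 this).resolve_right hy2
    refine hy2 (hext z hzS fun i => ?_)
    simpa using hperp _ (𝔉.inS_basis (hs i))
  obtain ⟨lw, hlw0, hl⟩ : ∃ lw : F, lw ≠ 0 ∧ lw * (2 * 𝔉.lam * 𝔉.dot w w) = 1 :=
    have h0 := mul_ne_zero (mul_ne_zero h2 𝔉.lam_ne) hww0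
    ⟨_, inv_ne_zero h0, inv_mul_cancel₀ h0⟩
  have hEJ : 𝔉.EJ K R z (lw • w) := by
    refine ⟨g, hgK, fun x hx => hspan x hx (Matrix.toLin' (g : Matrix ι ι F))
      (Matrix.toLin' (eichlerMat Q z (lw • w))) ?_ ?_ ?_⟩ <;>
      simp only [Matrix.toLin'_apply, eichlerMat_mulVec_dot (𝔉 := 𝔉), hgy, hgw, hgz, dot_smul_left,
        dot_smul_right, hzw, hzz, 𝔉.dot_comm w z, smul_smul]
    · have hzy : 𝔉.dot z y = -𝔉.dot w w := by linear_combination hww
      rw [hzy]
      have e1 : 2 * 𝔉.lam * -𝔉.dot w w * lw = -1 := by linear_combination -hl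
      rw [e1]
      match_scalars <;> first
        | ring1
        | linear_combination (-(lw * 𝔉.lam)) * hwy + (-(𝔉.lam * lw * 𝔉.dot w w)) * hl
        | linear_combination (lw * 𝔉.lam) * hwy + (𝔉.lam * lw * 𝔉.dot w w) * hl
    · match_scalars <;> first
        | ring1
        | linear_combination -hl
        | linear_combination hl
    · simp
  -- all root elements at `z`
  have hperpz : ∀ x, 𝔉.InS R x → 𝔉.dot z x = 0 → ∃ e f : F, x = e • z + f • w := by
    intro x hx hzx
    let f₁ : (ι → F) →ₗ[F] (ι → F) :=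
      { toFun := fun v => 𝔉.dot z v • z
        map_add' := fun u v => by simp [add_smul]
        map_smul' := fun r v => by simp [mul_smul] }
    set e := (𝔉.dot w x) / 𝔉.dot w w with he
    set x' := x - e • w with hx'
    have hx'S : 𝔉.InS R x' := hx.sub (hwS.smul _)
    have h1 : 𝔉.dot z x' = 0 := by rw [hx', dot_sub_right, dot_smul_right, hzx, hzw]; ring
    have h2' : 𝔉.dot w x' = 0 := by
      rw [hx', dot_sub_right, dot_smul_right, he, div_mul_cancel₀ _ hww0, sub_self]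
    have hzy0 : 𝔉.dot z y ≠ 0 := fun h => hww0 (by rw [hww, h, neg_zero])
    refine ⟨𝔉.dot y x' / 𝔉.dot z y, e, ?_⟩
    set x'' := x' - (𝔉.dot y x' / 𝔉.dot z y) • z with hx''
    suffices h0 : x'' = 0 by rw [hx'', hx'] at h0; rw [← sub_eq_zero, ← h0]; abel
    let f₂ : (ι → F) →ₗ[F] (ι → F) :=
      { toFun := fun v => 𝔉.dot x'' v • z
        map_add' := fun u v => by simp [add_smul]
        map_smul' := fun r v => by simp [mul_smul] }
    have hx''S : 𝔉.InS R x'' := hx'S.sub (hzS.smul _)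
    refine hext _ hx''S fun i => ?_
    have := hspan _ (𝔉.inS_basis (hs i)) f₂ 0
      (by simp [f₂, hx'', 𝔉.dot_comm x' y, div_mul_cancel₀ _ hzy0])
      (by simp [f₂, hx'', 𝔉.dot_comm x' w, h2', hzw])
      (by simp [f₂, hx'', 𝔉.dot_comm x' z, h1, hzz])
    simpa using (smul_eq_zero.1 this).resolve_right hy2
  have hfull : ∀ x, 𝔉.InS R x → 𝔉.dot z x = 0 → 𝔉.EJ K R z x := by
    intro x hx hzx
    obtain ⟨e, f, rfl⟩ := hperpz x hx hzx
    have hE2 : 𝔉.EJ K R z (f • w) := by
      have := EJ.smul hp hD hzS (hwS.smul lw) hzz (by rw [dot_smul_right, hzw, mul_zero]) hEJ (f / lw)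
      rwa [smul_smul, div_mul_cancel₀ _ hlw0] at this
    obtain ⟨g', hg', hgx'⟩ := hE2
    refine ⟨g', hg', fun v hv => ?_⟩
    rw [hgx' v hv, add_comm (e • z),
      eichlerMat_add_smul 𝔉.nondeg (by rw [𝔉.q_eq, hzz, mul_zero]) (by rw [𝔉.bform_eq]; simp [hzw])]
  -- transport
  have hscale : ∀ (u : ι → F) (r : F), (∀ x, 𝔉.InS R x → 𝔉.dot u x = 0 → 𝔉.EJ K R u x) →
      ∀ x, 𝔉.InS R x → 𝔉.dot (r • u) x = 0 → 𝔉.EJ K R (r • u) x := by
    intro u r hu x hx h
    unfold EJ
    rw [eichlerMat_smul_left 𝔉 r]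
    refine hu _ (hx.smul r) ?_
    simpa using h
  have hconj : ∀ (u : ι → F) (h : GL ι F), h ∈ K → (∀ x, 𝔉.InS R x → 𝔉.dot u x = 0 → 𝔉.EJ K R u x) →
      ∀ x, 𝔉.InS R x → 𝔉.dot ((h : Matrix ι ι F) *ᵥ u) x = 0 → 𝔉.EJ K R ((h : Matrix ι ι F) *ᵥ u) x := by
    intro u h hh hu x hx hux
    rw [← mulVec_inv_cancel h x] at hux ⊢
    rw [𝔉.dot_isometry (hD.iso hh)] at hux
    exact EJ.conj hD (hu _ (hD.pres _ (inv_mem hh) x hx) hux) hh
  intro u x hu hx huu hux
  by_cases hu0 : u = 0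
  · subst hu0
    refine ⟨1, one_mem _, fun v _ => ?_⟩
    rw [Units.val_one, Matrix.one_mulVec, eichlerMat_mulVec_dot (𝔉 := 𝔉)]
    simp
  obtain ⟨k, hk, hk0⟩ : ∃ k ∈ R, 𝔉.co z k ≠ 0 := by
    by_contra h
    push Not at h
    exact hy2 (hext z hzS fun i => h _ (hs i))
  obtain ⟨e, he, hek⟩ := hF.sgn_one k hk
  set z' := (e : Matrix ι ι F) *ᵥ z with hz'
  have hz'S : 𝔉.InS R z' := hD.pres e he z hzS
  have hz'co : ∀ l ∈ R, 𝔉.co z' l = (if l = k then -1 else 1) * 𝔉.co z l := fun l hl =>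
    co_mulVec_mono hzS (σ := id) (c := fun m => if m = k then -1 else 1) hek (fun _ _ _ _ h => h) hl
  have hzz' : 𝔉.dot z z' = -2 * 𝔉.co z k ^ 2 := by
    have h1 : 𝔉.dot z z' = ∑ l ∈ R, (𝔉.co z l * 𝔉.co z l - 2 * (if l = k then 𝔉.co z k ^ 2 else 0)) := by
      rw [hzS.dot_eq]
      refine Finset.sum_congr rfl fun l hl => ?_
      rw [hz'co l hl]
      split_ifs with h'
      · subst h'; ring
      · ring
    rw [h1, Finset.sum_sub_distrib, ← hzS.dot_eq, hzz, ← Finset.mul_sum, Finset.sum_ite_eq' R k, if_pos hk]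
    ring
  have hzz'0 : 𝔉.dot z z' ≠ 0 := by
    rw [hzz']; exact mul_ne_zero (neg_ne_zero.2 h2) (pow_ne_zero 2 hk0)
  by_cases hzu : 𝔉.dot z u = 0
  · obtain ⟨e', f', rfl⟩ := hperpz u hu hzu
    have hf' : f' = 0 := by
      have : f' ^ 2 * 𝔉.dot w w = 0 := by
        simp only [dot_add_left, dot_add_right, dot_smul_left, dot_smul_right, 𝔉.dot_comm w z] at huu
        rw [hzz, hzw] at huu
        linear_combination huu
      exact (pow_eq_zero_iff (by norm_num)).1 ((mul_eq_zero.1 this).resolve_right hww0)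
    rw [hf', zero_smul, add_zero] at hux ⊢
    exact hscale z e' hfull x hx hux
  -- move the second singular vector to `u`
  set c₁ := 2 * 𝔉.lam * 𝔉.dot z z' with hc₁
  set c₂ := 2 * 𝔉.lam * 𝔉.dot z u with hc₂
  have hc₁0 : c₁ ≠ 0 := mul_ne_zero (mul_ne_zero h2 𝔉.lam_ne) hzz'0
  have hc₂0 : c₂ ≠ 0 := mul_ne_zero (mul_ne_zero h2 𝔉.lam_ne) hzu
  set v := c₁⁻¹ • z' with hv
  set v' := c₂⁻¹ • u with hv'
  have hbv : bform 𝔉.nondeg z v = 1 := by
    rw [hv, map_smul, 𝔉.bform_eq, smul_eq_mul, ← hc₁, inv_mul_cancel₀ hc₁0]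
  have hbv' : bform 𝔉.nondeg z v' = 1 := by
    rw [hv', map_smul, 𝔉.bform_eq, smul_eq_mul, ← hc₂, inv_mul_cancel₀ hc₂0]
  have hQv : Q v = 0 := by
    rw [hv, q_smul 𝔉.nondeg, 𝔉.q_eq, hz', 𝔉.dot_isometry (hD.iso he), hzz, mul_zero, mul_zero]
  have hQv' : Q v' = 0 := by rw [hv', q_smul 𝔉.nondeg, 𝔉.q_eq, huu, mul_zero, mul_zero]
  have hdzh : 𝔉.dot z (v - v') = 0 := by
    have h := 𝔉.bform_eq z (v - v')
    rw [map_sub, hbv, hbv', sub_self] at h
    exact (mul_eq_zero.1 h.symm).resolve_left (mul_ne_zero h2 𝔉.lam_ne)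
  obtain ⟨m, hm, hmx⟩ := hfull (v - v') ((hz'S.smul _).sub (hu.smul _)) hdzh
  have hmap : (m : Matrix ι ι F) *ᵥ v = v' := by
    rw [hmx v (hz'S.smul _), eichlerMat_mulVec 𝔉.nondeg, hbv, map_sub, LinearMap.sub_apply, b_self 𝔉.nondeg,
      hQv, q_sub 𝔉.nondeg, hQv, hQv', b_symm 𝔉.nondeg v' v]
    module
  have hz'full := hconj z e he hfull
  rw [← hz'] at hz'full
  have hu_eq : u = c₂ • ((m : Matrix ι ι F) *ᵥ v) := by rw [hmap, hv', smul_inv_smul₀ hc₂0]
  rw [hu_eq] at hux ⊢
  exact hscale _ c₂ (hconj v m hm (hscale z' c₁⁻¹ hz'full)) x hx hux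

end CfsgLib.OrthMono17.Frame
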