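import Cfsg.Agent.OrthMono17.Orbit

/-!
The stabiliser of two frame vectors contains all sign changes and transpositions of the others.
-/

set_option autoImplicit false
set_option linter.unusedSectionVars false

namespace CfsgLib.OrthMono17.Frame

open Cfsg.Geo Module CfsgLib.OrthGeo
open scoped Matrix MatrixGroups

variable {ι : Type} [Fintype ι] [DecidableEq ι] {F : Type*} [Field F] [Finite F]
variable {Q : (ι → F) → F} {κ : Type} [Fintype κ] [DecidableEq κ] {𝔉 : Frame Q κ}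
variable {K : Subgroup (GL ι F)} {J : Finset κ}

lemma inv_eq_pow (g : GL ι F) : ∃ n : ℕ, g⁻¹ = g ^ n := by
  classical
  haveI : Fintype F := Fintype.ofFinite F
  refine ⟨orderOf g - 1, inv_eq_of_mul_eq_one_right ?_⟩
  rw [← pow_succ', Nat.sub_add_cancel (orderOf_pos g), pow_orderOf_eq_one]

lemma Mono.mul {g h : GL ι F} (hg : 𝔉.Mono J g) (hh : 𝔉.Mono J h) : 𝔉.Mono J (g * h) := fun i hi => by
  obtain ⟨j, hj, c, hc⟩ := hh i hi
  obtain ⟨k, hk, d, hd⟩ := hg j hj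
  exact ⟨k, hk, c * d, by rw [Units.val_mul, ← Matrix.mulVec_mulVec, hc, Matrix.mulVec_smul, hd, smul_smul]⟩

lemma mono_one : 𝔉.Mono J (1 : GL ι F) := fun i hi => ⟨i, hi, 1, by simp⟩

lemma Mono.inv {g : GL ι F} (hg : 𝔉.Mono J g) : 𝔉.Mono J g⁻¹ := by
  obtain ⟨n, hn⟩ := inv_eq_pow g
  rw [hn]
  clear hn
  induction n with
  | zero => rw [pow_zero]; exact mono_one
  | succ n ih => rw [pow_succ]; exact ih.mul hg

lemma Pres.pow {g : GL ι F} (hg : 𝔉.Pres J g) (n : ℕ) : 𝔉.Pres J (g ^ n) := by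
  induction n with
  | zero => intro x hx; simpa using hx
  | succ n ih =>
    intro x hx
    rw [pow_succ, Units.val_mul, ← Matrix.mulVec_mulVec]
    exact ih _ (hg x hx)

lemma Pres.inv {g : GL ι F} (hg : 𝔉.Pres J g) : 𝔉.Pres J g⁻¹ := by
  obtain ⟨n, hn⟩ := inv_eq_pow g
  rw [hn]
  exact hg.pow n

lemma pres_of_images {g : GL ι F} (h : ∀ k ∈ J, 𝔉.InS J ((g : Matrix ι ι F) *ᵥ 𝔉.basis k)) : 𝔉.Pres J g := by
  intro x hx
  rw [← hx.sum_eq, Matrix.mulVec_sum]
  exact fun k hk => by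
    rw [co, map_sum, Finset.sum_apply']
    refine Finset.sum_eq_zero fun l hl => ?_
    rw [Matrix.mulVec_smul, map_smul, Finsupp.smul_apply]
    show 𝔉.co x l • 𝔉.co _ k = 0
    rw [h l hl k hk, smul_zero]

lemma mem_cent_of_images {g : GL ι F} (hg : g ∈ K) {a b : κ}
    (ha : 𝔉.InS {a, b} ((g : Matrix ι ι F) *ᵥ 𝔉.basis a))
    (hb : 𝔉.InS {a, b} ((g : Matrix ι ι F) *ᵥ 𝔉.basis b)) : g ∈ 𝔉.cent K a b := by
  have h : 𝔉.Pres {a, b} g := pres_of_images fun k hk => by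
    simp only [Finset.mem_insert, Finset.mem_singleton] at hk
    rcases hk with rfl | rfl <;> assumption
  exact mem_cent_of_pres hg h h.inv

/-- A member of the stabiliser of two frame vectors preserves the span of the others. -/
lemma Data.cent_pres (hD : 𝔉.Data K J) {a b : κ} (ha : a ∈ J) (hb : b ∈ J) {g : GL ι F}
    (hg : g ∈ 𝔉.cent K a b) : 𝔉.Pres ((J.erase a).erase b) g := by
  intro x hx k hk
  by_cases hkJ : k ∈ J
  · have hkP : k = a ∨ k = b := by
      simp only [Finset.mem_erase] at hk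
      tauto
    have hkS : 𝔉.InS {a, b} (𝔉.basis k) := 𝔉.inS_basis (by simpa using hkP)
    have hgi := (inv_mem hg : g⁻¹ ∈ 𝔉.cent K a b)
    have h1 := (hgi.2 _).1 hkS
    set w := ((g⁻¹ : GL ι F) : Matrix ι ι F) *ᵥ 𝔉.basis k with hw
    have h2 : 𝔉.dot w x = 0 := by
      rw [h1.dot_eq]
      refine Finset.sum_eq_zero fun l hl => ?_
      rw [hx l (by simp only [Finset.mem_insert, Finset.mem_singleton] at hl; simp; tauto), mul_zero]
    rw [← 𝔉.dot_isometry (hD.iso hg.1), hw, mulVec_inv_cancel, dot_basis_left] at h2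
    exact h2
  · exact hD.pres g hg.1 x (hx.mono ((Finset.erase_subset _ _).trans (Finset.erase_subset _ _))) k hkJ

lemma Data.cent_sgn_one (hD : 𝔉.Data K J) {a b c : κ} (ha : a ∈ J) (hb : b ∈ J) (hab : a ≠ b)
    (hc : c ∈ (J.erase a).erase b) : ∃ g ∈ 𝔉.cent K a b, 𝔉.Mono J g ∧ ∀ k ∈ (J.erase a).erase b,
      (g : Matrix ι ι F) *ᵥ 𝔉.basis k = (if k = c then (-1 : F) else 1) • 𝔉.basis k := by
  simp only [Finset.mem_erase] at hc
  obtain ⟨g, hg, hgk⟩ := hD.sgn a ha c hc.2.2 hc.2.1.symm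
  refine ⟨g, mem_cent_of_images hg ?_ ?_, fun i hi => ⟨i, hi, _, hgk i hi⟩, fun k hk => ?_⟩
  · rw [hgk a ha]; exact (𝔉.inS_basis (by simp)).smul _
  · rw [hgk b hb]; exact (𝔉.inS_basis (by simp)).smul _
  · simp only [Finset.mem_erase] at hk
    rw [hgk k hk.2.2]
    simp [hk.2.1]

lemma Data.cent_swap (hD : 𝔉.Data K J) {a b c d : κ} (ha : a ∈ J) (hb : b ∈ J) (hab : a ≠ b)
    (hc : c ∈ (J.erase a).erase b) (hd : d ∈ (J.erase a).erase b) (hcd : c ≠ d) :
    ∃ g ∈ 𝔉.cent K a b, 𝔉.Mono J g ∧ ∀ k ∈ (J.erase a).erase b,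
      (g : Matrix ι ι F) *ᵥ 𝔉.basis k = 𝔉.basis (Equiv.swap c d k) := by
  simp only [Finset.mem_erase] at hc hd
  obtain ⟨g, hg, hgk⟩ := hD.cyc a ha b hb c hc.2.2 hab hc.1.symm hc.2.1.symm
  obtain ⟨h, hh, hhk⟩ := hD.cyc b hb c hc.2.2 d hd.2.2 hc.1.symm hcd hd.1.symm
  obtain ⟨hca, hcb⟩ : c ≠ a ∧ c ≠ b := ⟨hc.2.1, hc.1⟩
  obtain ⟨hda, hdb⟩ : d ≠ a ∧ d ≠ b := ⟨hd.2.1, hd.1⟩
  have key : ∀ k ∈ J, ((g * h : GL ι F) : Matrix ι ι F) *ᵥ 𝔉.basis k =
      𝔉.basis (if k = a then b else if k = b then a else Equiv.swap c d k) := by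
    intro k hk
    rw [Units.val_mul, ← Matrix.mulVec_mulVec, hhk k hk, hgk _ (by split_ifs <;>
      first | exact hk | exact hb | exact hc.2.2 | exact hd.2.2)]
    congr 1
    rw [Equiv.swap_apply_def]
    grind
  have hmap : ∀ k ∈ J, (if k = a then b else if k = b then a else Equiv.swap c d k) ∈ J := fun k hk => by
    rw [Equiv.swap_apply_def]
    split_ifs <;> first | exact hk | exact ha | exact hb | exact hc.2.2 | exact hd.2.2
  refine ⟨g * h, mem_cent_of_images (mul_mem hg hh) ?_ ?_,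
    fun i hi => ⟨_, hmap i hi, 1, by rw [one_smul]; exact key i hi⟩, fun k hk => ?_⟩
  · rw [key a ha]; exact 𝔉.inS_basis (by simp)
  · rw [key b hb, if_neg hab.symm, if_pos rfl]; exact 𝔉.inS_basis (by simp)
  · simp only [Finset.mem_erase] at hk
    rw [key k hk.2.2, if_neg hk.2.1, if_neg hk.1]

/-- The stabiliser of two frame vectors is again of the same kind on the other ones, with everything. -/
lemma Data.cent_data (hD : 𝔉.Data K J) {a b : κ} (ha : a ∈ J) (hb : b ∈ J) (hab : a ≠ b) :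
    𝔉.Data (𝔉.cent K a b) ((J.erase a).erase b) ∧ 𝔉.Full (𝔉.cent K a b) ((J.erase a).erase b) := by
  refine ⟨⟨fun g hg => hD.iso hg.1, fun g hg => hD.cent_pres ha hb hg, fun c hc d hd hcd => ?_,
    fun c hc d hd e he hcd hde hce => ?_⟩, ⟨fun c hc => ?_, fun c hc d hd hcd => ?_⟩⟩
  · obtain ⟨g, hg, -, hgk⟩ := hD.cent_sgn_one ha hb hab hc
    obtain ⟨h, hh, -, hhk⟩ := hD.cent_sgn_one ha hb hab hd
    refine ⟨g * h, mul_mem hg hh, fun k hk => ?_⟩
    rw [Units.val_mul, ← Matrix.mulVec_mulVec, hhk k hk, Matrix.mulVec_smul, hgk k hk, smul_smul]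
    congr 1
    by_cases h1 : k = c
    · subst h1; simp [hcd]
    · simp [h1]
  · obtain ⟨g, hg, -, hgk⟩ := hD.cent_swap ha hb hab hc hd hcd
    obtain ⟨h, hh, -, hhk⟩ := hD.cent_swap ha hb hab hd he hde
    refine ⟨g * h, mul_mem hg hh, fun k hk => ?_⟩
    have hm : Equiv.swap d e k ∈ (J.erase a).erase b := by
      rw [Equiv.swap_apply_def]; split_ifs <;> assumption
    rw [Units.val_mul, ← Matrix.mulVec_mulVec, hhk k hk, hgk _ hm]
    congr 1
    simp only [Equiv.swap_apply_def]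
    grind
  · obtain ⟨g, hg, -, hgk⟩ := hD.cent_sgn_one ha hb hab hc
    exact ⟨g, hg, hgk⟩
  · obtain ⟨g, hg, -, hgk⟩ := hD.cent_swap ha hb hab hc hd hcd
    exact ⟨g, hg, hgk⟩

/-- A monomial member of the stabiliser can be corrected to fix every other frame vector. -/
lemma Data.exists_correction (hD : 𝔉.Data K J) {a b : κ} (ha : a ∈ J) (hb : b ∈ J) (hab : a ≠ b)
    {g : GL ι F} (hg : g ∈ 𝔉.cent K a b) (hM : 𝔉.Mono ((J.erase a).erase b) g) :
    ∃ μ ∈ 𝔉.cent K a b, 𝔉.Mono J μ ∧ ∀ k ∈ (J.erase a).erase b,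
      ((μ * g : GL ι F) : Matrix ι ι F) *ᵥ 𝔉.basis k = 𝔉.basis k := by
  classical
  set R := (J.erase a).erase b with hR
  have hgI := hD.iso hg.1
  have hval : ∀ k ∈ R, ∃ l ∈ R, ∃ c : F, (c = 1 ∨ c = -1) ∧
      (g : Matrix ι ι F) *ᵥ 𝔉.basis k = c • 𝔉.basis l := by
    intro k hk
    obtain ⟨l, hl, c, hc⟩ := hM k hk
    have h := 𝔉.dot_isometry hgI (𝔉.basis k) (𝔉.basis k)
    rw [hc] at h
    simp at h
    exact ⟨l, hl, c, mul_self_eq_one_iff.1 h, hc⟩
  have hstep : ∀ (S : Finset κ), S ⊆ R → ∃ μ ∈ 𝔉.cent K a b, 𝔉.Mono J μ ∧ ∀ k ∈ S,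
      ((μ * g : GL ι F) : Matrix ι ι F) *ᵥ 𝔉.basis k = 𝔉.basis k := by
    intro S
    induction S using Finset.induction with
    | empty => exact fun _ => ⟨1, one_mem _, mono_one, by simp⟩
    | @insert n S hn ih =>
      intro hsub
      obtain ⟨hnR, hSR⟩ := Finset.insert_subset_iff.1 hsub
      obtain ⟨μ, hμ, hμM, hμk⟩ := ih hSR
      have hpow : (μ * g) ∈ 𝔉.cent K a b := mul_mem hμ hg
      -- the image of the new vector is a signed frame vector outside the fixed ones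
      obtain ⟨l, hl, c, hc1, hc⟩ := hval n hnR
      obtain ⟨l', hl', d, hd⟩ := hμM l (by
        simp only [hR, Finset.mem_erase] at hl; exact hl.2.2)
      have himg : ((μ * g : GL ι F) : Matrix ι ι F) *ᵥ 𝔉.basis n = (c * d) • 𝔉.basis l' := by
        rw [Units.val_mul, ← Matrix.mulVec_mulVec, hc, Matrix.mulVec_smul, hd, smul_smul]
      have hsq : (c * d) * (c * d) = 1 := by
        have h := 𝔉.dot_isometry (hD.iso hpow.1) (𝔉.basis n) (𝔉.basis n)
        rw [himg] at h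
        simpa using h
      have hcd0 : c * d ≠ 0 := fun h => by rw [h, mul_zero] at hsq; exact zero_ne_one hsq
      have hl'R : l' ∈ R := by
        by_contra h'
        have h := hD.cent_pres ha hb hpow _ (𝔉.inS_basis hnR) l' h'
        rw [himg, co_smul, co_basis_self, mul_one] at h
        exact hcd0 h
      have hl'S : l' ∉ S := by
        intro h'
        have h := 𝔉.dot_isometry (hD.iso hpow.1) (𝔉.basis n) (𝔉.basis l')
        rw [himg, hμk l' h'] at h
        have hne : n ≠ l' := fun e => hn (e ▸ h')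
        simp [co_basis_ne (h := hne)] at h
        exact hcd0 (mul_eq_zero.2 h)
      -- move it back
      obtain ⟨σ, hσ, hσM, hσk⟩ : ∃ σ ∈ 𝔉.cent K a b, 𝔉.Mono J σ ∧ ∀ k ∈ R,
          (σ : Matrix ι ι F) *ᵥ 𝔉.basis k = 𝔉.basis (Equiv.swap l' n k) := by
        by_cases he : l' = n
        · exact ⟨1, one_mem _, mono_one, fun k _ => by simp [he]⟩
        · exact hD.cent_swap ha hb hab hl'R hnR he
      obtain ⟨τ, hτ, hτM, hτk⟩ : ∃ τ ∈ 𝔉.cent K a b, 𝔉.Mono J τ ∧ ∀ k ∈ R,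
          (τ : Matrix ι ι F) *ᵥ 𝔉.basis k = (if k = n then c * d else 1) • 𝔉.basis k := by
        rcases mul_self_eq_one_iff.1 hsq with he | he
        · exact ⟨1, one_mem _, mono_one, fun k _ => by simp [he]⟩
        · obtain ⟨τ, h1, h2, h3⟩ := hD.cent_sgn_one ha hb hab hnR
          exact ⟨τ, h1, h2, fun k hk => by rw [h3 k hk, he]⟩
      refine ⟨τ * σ * μ, mul_mem (mul_mem hτ hσ) hμ, (hτM.mul hσM).mul hμM, fun k hk => ?_⟩
      rw [show τ * σ * μ * g = τ * (σ * (μ * g)) by group, Units.val_mul, ← Matrix.mulVec_mulVec,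
        Units.val_mul, ← Matrix.mulVec_mulVec]
      rw [Finset.mem_insert] at hk
      rcases hk with rfl | hk
      · rw [himg, Matrix.mulVec_smul, hσk l' hl'R, Equiv.swap_apply_left, Matrix.mulVec_smul, hτk _ hnR,
          if_pos rfl, smul_smul, hsq, one_smul]
      · have hkn : k ≠ n := fun e => hn (e ▸ hk)
        rw [hμk k hk, hσk k (hSR hk), Equiv.swap_apply_of_ne_of_ne (fun e : k = l' => hl'S (e ▸ hk)) hkn,
          hτk k (hSR hk), if_neg hkn, one_smul]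
  exact hstep R subset_rfl

end CfsgLib.OrthMono17.Frame
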