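import Cfsg.Agent.OrthMono17.Pair

/-!
A group of isometries containing the even sign changes and three-cycles of an odd number, at least five, of
frame vectors, whose members stabilising two of the frame vectors are monomial, is monomial.
-/

set_option autoImplicit false
set_option linter.unusedSectionVars false

namespace CfsgLib.OrthMono17.Frame

open Cfsg.Geo Module CfsgLib.OrthGeo
open scoped Matrix MatrixGroups

variable {ι : Type} [Fintype ι] [DecidableEq ι] {F : Type*} [Field F] [Finite F]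
variable {Q : (ι → F) → F} {κ : Type} [Fintype κ] [DecidableEq κ] {𝔉 : Frame Q κ}
variable {K : Subgroup (GL ι F)} {J : Finset κ}
variable (hD : 𝔉.Data K J) (hodd : Odd J.card) (h5 : 5 ≤ J.card) (hC : CentMono 𝔉 K J)
include hD hodd h5 hC

omit h5 in
lemma Orb.small {v : ι → F} (hv : 𝔉.Orb K J v) (hs : (𝔉.supp J v).card + 2 ≤ J.card) :
    (𝔉.supp J v).card ≤ 2 ∧ ∀ k ∈ 𝔉.supp J v, ∀ l ∈ 𝔉.supp J v, k ≠ l → 2 * 𝔉.co v k ^ 2 = 1 := by
  obtain ⟨a, ha, b, hb, hab⟩ := Finset.one_lt_card.1 (show 1 < (J \ 𝔉.supp J v).card by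
    rw [Finset.card_sdiff_of_subset (𝔉.supp_subset v)]; omega)
  rw [Finset.mem_sdiff] at ha hb
  have hz : ∀ k, k ∈ J → k ∉ 𝔉.supp J v → 𝔉.co v k = 0 := fun k _ h =>
    (hv.inS hD).co_eq_zero_of_not_supp h
  refine ⟨?_, fun k hk l hl hkl =>
    (hv.sparse hD hodd hC ha.1 hb.1 hab (hz a ha.1 ha.2) (hz b hb.1 hb.2) hk hl hkl).1⟩
  by_contra h
  push Not at h
  obtain ⟨k, hk, l, hl, n, hn, hkl, hkn, hln⟩ := Finset.two_lt_card.1 h
  exact (𝔉.mem_supp.1 hn).2
    ((hv.sparse hD hodd hC ha.1 hb.1 hab (hz a ha.1 ha.2) (hz b hb.1 hb.2) hk hl hkl).2 n hkn.symm hln.symm)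

omit h5 in
lemma Orb.dense_eq {v : ι → F} (hv : 𝔉.Orb K J v) (hs : 5 ≤ (𝔉.supp J v).card) {a b : κ}
    (ha : a ∈ 𝔉.supp J v) (hb : b ∈ 𝔉.supp J v) : 𝔉.co v a ^ 2 = 𝔉.co v b ^ 2 := by
  by_cases hab : a = b
  · rw [hab]
  obtain ⟨haJ, ha0⟩ := 𝔉.mem_supp.1 ha
  obtain ⟨hbJ, hb0⟩ := 𝔉.mem_supp.1 hb
  have hb' : b ∈ (𝔉.supp J v).erase a := Finset.mem_erase.2 ⟨Ne.symm hab, hb⟩
  obtain ⟨k, hk, l, hl, n, hn, hkl, hkn, hln⟩ :=
    Finset.two_lt_card.1 (show 2 < (((𝔉.supp J v).erase a).erase b).card by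
      rw [Finset.card_erase_of_mem hb', Finset.card_erase_of_mem ha]; omega)
  simp only [Finset.mem_erase] at hk hl hn
  refine (hv.pair_dichotomy hD hodd hC haJ hbJ hab ha0 hb0 hk.2.2 hl.2.2 hkl hk.2.1 hk.1 hl.2.1 hl.1).resolve_right
    fun h => ?_
  rcases h.1 n hn.2.2 with h' | h' | h' | h'
  exacts [hn.2.1 h', hn.1 h', hkn h'.symm, hln h'.symm]

omit h5 in
/-- The image of a frame vector under the involution of an image. -/
lemma Orb.basis_image {v : ι → F} (hv : 𝔉.Orb K J v) {i : κ} (hi : i ∈ J) : ∃ w, 𝔉.Orb K J w ∧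
    ∀ k, 𝔉.co w k = (if i = k then -1 else 0) + 2 * 𝔉.co v i * 𝔉.co v k :=
  ⟨_, hv.refl_image hD hodd (hD.orb_basis hi), fun k => by
    simp [co_basis, apply_ite (fun t : F => -t)]⟩

lemma Orb.no_quarter (h53 : J.card = 5 → (3 : F) ≠ 0) {v : ι → F} (hv : 𝔉.Orb K J v)
    (hs : 5 ≤ (𝔉.supp J v).card) (hq : ∀ k ∈ 𝔉.supp J v, 4 * 𝔉.co v k ^ 2 = 1) : False := by
  classical
  have h2 := 𝔉.two_ne
  have hvS := hv.inS hD
  have hsum := hvS.sum_sq_supp
  rw [hv.dot_self hD] at hsum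
  by_cases h5' : (𝔉.supp J v).card = 5
  · have h1 : ∑ k ∈ 𝔉.supp J v, (4 * 𝔉.co v k ^ 2) = ∑ _k ∈ 𝔉.supp J v, (1 : F) :=
      Finset.sum_congr rfl hq
    rw [← Finset.mul_sum, hsum, Finset.sum_const, h5', nsmul_eq_mul, mul_one, mul_one] at h1
    exact one_ne_zero (α := F) (by push_cast at h1; linear_combination -h1)
  obtain ⟨S, hS, hS4⟩ := Finset.exists_subset_card_eq (show 4 ≤ (𝔉.supp J v).card by omega)
  obtain ⟨v', hv', hv'k⟩ := hv.flip hD (hS.trans (𝔉.supp_subset v)) (by rw [hS4]; exact ⟨2, rfl⟩)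
  have hS1 : ∑ k ∈ S, 𝔉.co v k ^ 2 = 1 := by
    have h1 : ∑ k ∈ S, (4 * 𝔉.co v k ^ 2) = ∑ _k ∈ S, (1 : F) :=
      Finset.sum_congr rfl fun k hk => hq k (hS hk)
    rw [← Finset.mul_sum, Finset.sum_const, hS4, nsmul_eq_mul, mul_one] at h1
    have h4 : (4 : F) ≠ 0 := by
      rw [show (4 : F) = 2 * 2 by norm_num]; exact mul_ne_zero h2 h2
    exact mul_left_cancel₀ h4 (by push_cast at h1; linear_combination h1)
  have hdot : 𝔉.dot v v' = -1 := by
    have e : 𝔉.dot v v' = ∑ k, (𝔉.co v k * 𝔉.co v k - 2 * (if k ∈ S then 𝔉.co v k ^ 2 else 0)) := by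
      refine Finset.sum_congr rfl fun k _ => ?_
      rw [hv'k k]
      split_ifs <;> ring
    rw [e, Finset.sum_sub_distrib, ← Finset.mul_sum, Finset.sum_ite_mem, Finset.univ_inter, hS1]
    have := hv.dot_self hD
    rw [dot] at this
    rw [this]
    norm_num
  obtain ⟨w, hw, hwk⟩ : ∃ w, 𝔉.Orb K J w ∧
      ∀ k, 𝔉.co w k = (if k ∈ S then -1 else -3) * 𝔉.co v k := by
    refine ⟨_, hv.refl_image hD hodd hv', fun k => ?_⟩
    simp only [co_add, co_neg, co_smul, hdot, hv'k k]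
    split_ifs <;> ring
  by_cases h3 : (3 : F) = 0
  · have hsupp : 𝔉.supp J w = S := by
      ext k
      rw [mem_supp, hwk k]
      constructor
      · rintro ⟨-, h⟩
        by_contra hk
        rw [if_neg hk, show (-3 : F) = 0 by linear_combination -h3, zero_mul] at h
        exact h rfl
      · intro hk
        rw [if_pos hk]
        exact ⟨(𝔉.mem_supp.1 (hS hk)).1,
          mul_ne_zero (neg_ne_zero.2 one_ne_zero) (𝔉.mem_supp.1 (hS hk)).2⟩
    have hJ : 6 ≤ J.card := by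
      have := Finset.card_le_card (𝔉.supp_subset (J := J) v)
      omega
    have := (Orb.small hD hodd hC hw (by rw [hsupp, hS4]; omega)).1
    rw [hsupp, hS4] at this
    omega
  · have hsupp : 𝔉.supp J w = 𝔉.supp J v := by
      ext k
      rw [mem_supp, mem_supp, hwk k]
      refine and_congr_right fun _ => ?_
      constructor
      · exact right_ne_zero_of_mul
      · intro h
        refine mul_ne_zero ?_ h
        split_ifs
        · exact neg_ne_zero.2 one_ne_zero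
        · exact neg_ne_zero.2 h3
    obtain ⟨a, ha, haS⟩ := Finset.exists_mem_notMem_of_card_lt_card (show S.card < (𝔉.supp J v).card by omega)
    obtain ⟨b, hb⟩ := Finset.card_pos.1 (show 0 < S.card by omega)
    have he := Orb.dense_eq hD hodd hC hw (by rw [hsupp]; exact hs) (a := a) (b := b) (by rw [hsupp]; exact ha)
      (by rw [hsupp]; exact hS hb)
    rw [hwk, hwk, if_neg haS, if_pos hb, mul_pow, mul_pow] at he
    have h8 : (2 : F) ^ 3 = 0 := by linear_combination 4 * he - 9 * hq a ha + hq b (hS hb)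
    exact h2 (pow_eq_zero_iff (by norm_num) |>.1 h8)

lemma Orb.no_dense (h53 : J.card = 5 → (3 : F) ≠ 0) {v : ι → F} (hv : 𝔉.Orb K J v)
    (hs : 5 ≤ (𝔉.supp J v).card) : False := by
  classical
  have h2 := 𝔉.two_ne
  obtain ⟨i, hi⟩ := Finset.card_pos.1 (show 0 < (𝔉.supp J v).card by omega)
  obtain ⟨hiJ, hi0⟩ := 𝔉.mem_supp.1 hi
  obtain ⟨w, hw, hwk⟩ := hv.basis_image hD hodd hC hiJ
  have hwoff : ∀ k, k ≠ i → 𝔉.co w k = 2 * 𝔉.co v i * 𝔉.co v k := fun k hk => by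
    rw [hwk k, if_neg (Ne.symm hk), zero_add]
  have hwi : 𝔉.co w i = -1 + 2 * 𝔉.co v i ^ 2 := by rw [hwk i, if_pos rfl]; ring
  set q := 𝔉.co v i ^ 2 with hq
  have hall : ∀ k ∈ 𝔉.supp J v, 𝔉.co v k ^ 2 = q := fun k hk => Orb.dense_eq hD hodd hC hv hs hk hi
  by_cases hw0 : 2 * q = 1
  · have hsupp : 𝔉.supp J w = (𝔉.supp J v).erase i := by
      ext k
      simp only [Finset.mem_erase, mem_supp]
      by_cases hk : k = i
      · subst hk
        simp only [ne_eq, not_true_eq_false, false_and, iff_false, not_and, not_not, hwi]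
        intro _
        linear_combination hw0
      · rw [hwoff k hk]
        simp [hk, h2, hi0]
    have hcard : (𝔉.supp J w).card = (𝔉.supp J v).card - 1 := by rw [hsupp, Finset.card_erase_of_mem hi]
    by_cases hsm : (𝔉.supp J w).card + 2 ≤ J.card
    · have := (Orb.small hD hodd hC hw hsm).1
      omega
    by_cases h6 : 6 ≤ (𝔉.supp J v).card
    · obtain ⟨k, hk⟩ := Finset.card_pos.1 (show 0 < (𝔉.supp J w).card by omega)
      have hw1 : ∀ l ∈ 𝔉.supp J w, 𝔉.co w l ^ 2 = 1 := fun l hl => by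
        rw [hsupp, Finset.mem_erase] at hl
        rw [hwoff l hl.1, mul_pow, mul_pow, hall l hl.2, ← hq]
        linear_combination (2 * q + 1) * hw0
      obtain ⟨hkJ, hk0⟩ := 𝔉.mem_supp.1 hk
      obtain ⟨x, hx, hxk⟩ := hw.basis_image hD hodd hC hkJ
      have hxsupp : 𝔉.supp J x = 𝔉.supp J w := by
        ext l
        rw [mem_supp, mem_supp, hxk l]
        refine and_congr_right fun _ => ?_
        by_cases hl : k = l
        · subst hl
          rw [if_pos rfl]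
          refine iff_of_true ?_ hk0
          intro h'
          exact one_ne_zero (α := F) (by linear_combination h' - 2 * hw1 k hk)
        · rw [if_neg hl, zero_add]
          simp [h2, hk0]
      obtain ⟨l, hl, hlk⟩ : ∃ l ∈ 𝔉.supp J w, l ≠ k :=
        Finset.exists_mem_ne (show 1 < (𝔉.supp J w).card by omega) k
      have he := Orb.dense_eq hD hodd hC hx (by rw [hxsupp]; omega) (a := k) (b := l) (by rw [hxsupp]; exact hk)
        (by rw [hxsupp]; exact hl)
      rw [hxk, hxk, if_pos rfl, if_neg (Ne.symm hlk), zero_add, mul_pow, mul_pow, hw1 k hk, hw1 l hl] at he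
      have h3 : (3 : F) = 0 := by linear_combination -he + (-4 + 4 * (𝔉.co w k ^ 2 + 1)) * hw1 k hk
      exact Orb.no_quarter hD hodd h5 hC h53 hw (by omega) fun l hl => by
        linear_combination 4 * hw1 l hl + h3
    · have hs5 : (𝔉.supp J v).card = 5 := by omega
      have h1 : ∑ k ∈ 𝔉.supp J v, 𝔉.co v k ^ 2 = ∑ _k ∈ 𝔉.supp J v, q := Finset.sum_congr rfl hall
      rw [(hv.inS hD).sum_sq_supp, hv.dot_self hD, Finset.sum_const, hs5, nsmul_eq_mul] at h1
      have hq0 : q ≠ 0 := pow_ne_zero 2 hi0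
      refine h53 (by omega) ((mul_eq_zero.1 (show (3 : F) * q = 0 by
        push_cast at h1; linear_combination -h1 - hw0)).resolve_right hq0)
  · have hsupp : 𝔉.supp J w = 𝔉.supp J v := by
      ext k
      rw [mem_supp, mem_supp]
      refine and_congr_right fun _ => ?_
      by_cases hk : k = i
      · subst hk
        refine iff_of_true ?_ hi0
        rw [hwi]
        intro h'
        exact hw0 (by linear_combination h')
      · rw [hwoff k hk]
        simp [h2, hi0]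
    obtain ⟨l, hl, hli⟩ : ∃ l ∈ 𝔉.supp J v, l ≠ i :=
      Finset.exists_mem_ne (show 1 < (𝔉.supp J v).card by omega) i
    have he := Orb.dense_eq hD hodd hC hw (by rw [hsupp]; exact hs) (a := i) (b := l) (by rw [hsupp]; exact hi)
      (by rw [hsupp]; exact hl)
    rw [hwi, hwoff l hli, mul_pow, mul_pow, hall l hl, ← hq] at he
    exact Orb.no_quarter hD hodd h5 hC h53 hv hs fun k hk => by
      rw [hall k hk]
      linear_combination -he

lemma Orb.four_quarter {v : ι → F} (hv : 𝔉.Orb K J v) {a b c d : κ} (hJ : J.card = 5)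
    (hsupp : 𝔉.supp J v = {a, b, c, d}) (hcard : (𝔉.supp J v).card = 4)
    (hab : 𝔉.co v a ^ 2 = 𝔉.co v b ^ 2) (hac : 𝔉.co v a ^ 2 = 𝔉.co v c ^ 2) :
    ∀ k ∈ 𝔉.supp J v, 4 * 𝔉.co v k ^ 2 = 1 := by
  classical
  have h2 := 𝔉.two_ne
  rw [hsupp] at hcard
  have hne : a ≠ b ∧ a ≠ c ∧ a ≠ d ∧ b ≠ c ∧ b ≠ d ∧ c ≠ d := by
    refine ⟨?_, ?_, ?_, ?_, ?_, ?_⟩ <;> rintro rfl <;>
      simp only [Finset.mem_insert, Finset.mem_singleton, true_or, or_true, Finset.insert_eq_of_mem,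
        Finset.pair_comm] at hcard <;>
      exact absurd hcard ((Finset.card_le_three).trans_lt (by norm_num)).ne
  obtain ⟨hab', hac', had', hbc', hbd', hcd'⟩ := hne
  have hm : ∀ k ∈ ({a, b, c, d} : Finset κ), k ∈ J ∧ 𝔉.co v k ≠ 0 := fun k hk =>
    𝔉.mem_supp.1 (hsupp ▸ hk)
  obtain ⟨haJ, ha0⟩ := hm a (by simp)
  obtain ⟨hbJ, hb0⟩ := hm b (by simp)
  obtain ⟨hcJ, hc0⟩ := hm c (by simp)
  obtain ⟨hdJ, hd0⟩ := hm d (by simp)
  have hsum : 𝔉.co v a ^ 2 + (𝔉.co v b ^ 2 + (𝔉.co v c ^ 2 + 𝔉.co v d ^ 2)) = 1 := by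
    rw [← hv.dot_self hD, ← (hv.inS hD).sum_sq_supp, hsupp,
      Finset.sum_insert (by simp [hab', hac', had']), Finset.sum_insert (by simp [hbc', hbd']),
      Finset.sum_pair hcd']
  obtain ⟨w, hw, hwk⟩ := hv.basis_image hD hodd hC haJ
  have hwsupp : ∀ k ∈ 𝔉.supp J w, k ∈ ({a, b, c, d} : Finset κ) := fun k hk => by
    obtain ⟨hkJ, hk0⟩ := 𝔉.mem_supp.1 hk
    by_contra hk'
    have hz := (hv.inS hD).co_eq_zero_of_not_supp (hsupp ▸ hk')
    rw [hwk k, hz, mul_zero, add_zero, if_neg (fun h => hk' (by simp [h]))] at hk0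
    exact hk0 rfl
  by_cases h0 : 2 * 𝔉.co v a ^ 2 = 1
  · exfalso
    have hsub : 𝔉.supp J w = {b, c, d} := by
      ext k
      constructor
      · intro hk
        have hk2 := hwsupp k hk
        have := (𝔉.mem_supp.1 hk).2
        simp only [Finset.mem_insert, Finset.mem_singleton] at hk2 ⊢
        rcases hk2 with rfl | h
        · rw [hwk, if_pos rfl] at this
          exact absurd (by linear_combination h0) this
        · exact h
      · intro hk
        have hk' : k ∈ ({a, b, c, d} : Finset κ) := Finset.mem_insert_of_mem hk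
        obtain ⟨hkJ, hk0⟩ := hm k hk'
        have hka : a ≠ k := by
          rintro rfl
          simp [hab', hac', had'] at hk
        rw [mem_supp, hwk k, if_neg hka, zero_add]
        exact ⟨hkJ, mul_ne_zero (mul_ne_zero h2 ha0) hk0⟩
    have hc3 : (𝔉.supp J w).card = 3 := by
      rw [hsub, Finset.card_eq_three]; exact ⟨b, c, d, hbc', hbd', hcd', rfl⟩
    have := (Orb.small hD hodd hC hw (by omega)).1
    omega
  have hwa : 𝔉.co w a = -1 + 2 * 𝔉.co v a ^ 2 := by rw [hwk, if_pos rfl]; ring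
  have hwo : ∀ k, a ≠ k → 𝔉.co w k = 2 * 𝔉.co v a * 𝔉.co v k := fun k hk => by
    rw [hwk, if_neg hk, zero_add]
  have h0' : 𝔉.co w a ≠ 0 := fun h => h0 (by rw [hwa] at h; linear_combination h)
  have hx : ∀ k, a ≠ k → 𝔉.co v k ≠ 0 → 𝔉.co w k ≠ 0 := fun k hk h => by
    rw [hwo k hk]; exact mul_ne_zero (mul_ne_zero h2 ha0) h
  have hq : 4 * 𝔉.co v a ^ 2 = 1 := by
    rcases hw.pair_dichotomy hD hodd hC haJ hbJ hab' h0' (hx b hab' hb0)
      (k₀ := c) (l₀ := d) (𝔉.mem_supp.2 ⟨hcJ, hx c hac' hc0⟩) (𝔉.mem_supp.2 ⟨hdJ, hx d had' hd0⟩)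
      hcd' hac'.symm hbc'.symm had'.symm hbd'.symm with h | ⟨-, h⟩
    · rw [hwa, hwo b hab', mul_pow, mul_pow, ← hab] at h
      linear_combination -h
    · rw [hwo c hac', hwo d had', mul_pow, mul_pow, mul_pow, mul_pow] at h
      have h4 : (2 : F) ^ 2 * 𝔉.co v a ^ 2 ≠ 0 := mul_ne_zero (pow_ne_zero 2 h2) (pow_ne_zero 2 ha0)
      have h' := mul_left_cancel₀ h4 h
      linear_combination hsum + hab + 2 * hac + h'
  intro k hk
  rw [hsupp] at hk
  simp only [Finset.mem_insert, Finset.mem_singleton] at hk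
  rcases hk with rfl | rfl | rfl | rfl
  · exact hq
  · linear_combination hq - 4 * hab
  · linear_combination hq - 4 * hac
  · linear_combination 4 * hsum - 3 * hq + 4 * hab + 4 * hac

lemma Orb.no_four (h53 : J.card = 5 → (3 : F) ≠ 0) (hJ : J.card = 5) {v : ι → F} (hv : 𝔉.Orb K J v)
    (hs : (𝔉.supp J v).card = 4) : False := by
  classical
  have h2 := 𝔉.two_ne
  obtain ⟨a, b, c, d, hab, hac, had, hbc, hbd, hcd, hsupp⟩ := Finset.card_eq_four.1 hs
  have hm : ∀ k ∈ ({a, b, c, d} : Finset κ), k ∈ J ∧ 𝔉.co v k ≠ 0 := fun k hk =>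
    𝔉.mem_supp.1 (hsupp ▸ hk)
  obtain ⟨haJ, ha0⟩ := hm a (by simp)
  obtain ⟨hbJ, hb0⟩ := hm b (by simp)
  obtain ⟨hcJ, hc0⟩ := hm c (by simp)
  obtain ⟨hdJ, hd0⟩ := hm d (by simp)
  have hS : ∀ {k}, k ∈ ({a, b, c, d} : Finset κ) → k ∈ 𝔉.supp J v := fun h => hsupp ▸ h
  have p1 := (hv.pair_dichotomy hD hodd hC haJ hbJ hab ha0 hb0 (k₀ := c) (l₀ := d) (hS (by simp)) (hS (by simp))
    hcd hac.symm hbc.symm had.symm hbd.symm).imp id And.right
  have p2 := (hv.pair_dichotomy hD hodd hC haJ hcJ hac ha0 hc0 (k₀ := b) (l₀ := d) (hS (by simp)) (hS (by simp))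
    hbd hab.symm hbc had.symm hcd.symm).imp id And.right
  have p3 := (hv.pair_dichotomy hD hodd hC haJ hdJ had ha0 hd0 (k₀ := b) (l₀ := c) (hS (by simp)) (hS (by simp))
    hbc hab.symm hbd hac.symm hcd).imp id And.right
  have hq : ∀ k ∈ 𝔉.supp J v, 4 * 𝔉.co v k ^ 2 = 1 := by
    have e1 : ({a, b, d, c} : Finset κ) = {a, b, c, d} := by ext; simp; tauto
    have e2 : ({a, c, d, b} : Finset κ) = {a, b, c, d} := by ext; simp; tauto
    have e3 : ({b, c, d, a} : Finset κ) = {a, b, c, d} := by ext; simp; tauto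
    rcases p1 with h1 | h1 <;> rcases p2 with h | h <;> rcases p3 with h' | h'
    · exact Orb.four_quarter hD hodd h5 hC hv hJ hsupp hs h1 h
    · exact Orb.four_quarter hD hodd h5 hC hv hJ hsupp hs h1 h
    · exact Orb.four_quarter hD hodd h5 hC hv hJ (e1 ▸ hsupp) hs h1 h'
    · exact Orb.four_quarter hD hodd h5 hC hv hJ hsupp hs h1 (h1.trans h')
    · exact Orb.four_quarter hD hodd h5 hC hv hJ (e2 ▸ hsupp) hs h h'
    · exact Orb.four_quarter hD hodd h5 hC hv hJ hsupp hs (h.trans h'.symm) h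
    · exact Orb.four_quarter hD hodd h5 hC hv hJ (e1 ▸ hsupp) hs (h'.trans h.symm) h'
    · exact Orb.four_quarter hD hodd h5 hC hv hJ (e3 ▸ hsupp) hs h' h
  obtain ⟨e, he⟩ := Finset.card_pos.1 (show 0 < (J \ 𝔉.supp J v).card by
    rw [Finset.card_sdiff_of_subset (𝔉.supp_subset v)]; omega)
  rw [Finset.mem_sdiff, hsupp] at he
  obtain ⟨heJ, he'⟩ := he
  simp only [Finset.mem_insert, Finset.mem_singleton, not_or] at he'
  obtain ⟨hea, heb, hec, hed⟩ := he'
  have hve : 𝔉.co v e = 0 := (hv.inS hD).co_eq_zero_of_not_supp (by rw [hsupp]; simp [hea, heb, hec, hed])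
  obtain ⟨v', hv', he1, hb1, ha1, hrest⟩ := hv.cycle hD haJ heJ hbJ (Ne.symm hea) heb hab
  obtain ⟨v'', hv'', hk⟩ : ∃ v'', 𝔉.Orb K J v'' ∧ (𝔉.co v'' a = 𝔉.co v a ∧ 𝔉.co v'' b = 0 ∧
      𝔉.co v'' c = 𝔉.co v c ∧ 𝔉.co v'' d = 𝔉.co v d ∧ 𝔉.co v'' e ≠ 0) := by
    rcases sq_eq_sq_iff_eq_or_eq_neg.1 (show 𝔉.co v b ^ 2 = 𝔉.co v a ^ 2 from
      mul_left_cancel₀ (show (4 : F) ≠ 0 by
        rw [show (4 : F) = 2 * 2 by norm_num]; exact mul_ne_zero h2 h2)
        ((hq b (hS (by simp))).trans (hq a (hS (by simp))).symm)) with h | h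
    · exact ⟨v', hv', ha1.trans h, hb1.trans hve, hrest c hac.symm (Ne.symm hec) hbc.symm,
        hrest d had.symm (Ne.symm hed) hbd.symm, by rw [he1]; exact ha0⟩
    · obtain ⟨x, hx, hxk⟩ := hv'.flip hD (S := {a, e}) (pair_subset haJ heJ)
        (by rw [Finset.card_pair (Ne.symm hea)]; exact ⟨1, rfl⟩)
      refine ⟨x, hx, ?_, ?_, ?_, ?_, ?_⟩
      · rw [hxk, ha1, h]; simp
      · rw [hxk, hb1, hve, mul_zero]
      · rw [hxk, hrest c hac.symm (Ne.symm hec) hbc.symm]; simp [hac.symm, Ne.symm hec]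
      · rw [hxk, hrest d had.symm (Ne.symm hed) hbd.symm]; simp [had.symm, Ne.symm hed]
      · rw [hxk, he1]; simp [ha0]
  obtain ⟨hka, hkb, hkc, hkd, hke⟩ := hk
  have hdot : 4 * 𝔉.dot v v'' = 3 := by
    rw [(hv.inS hD).dot_eq, ← Finset.sum_subset (𝔉.supp_subset v)
      (fun k _ hk => by rw [(hv.inS hD).co_eq_zero_of_not_supp hk, zero_mul]), hsupp,
      Finset.sum_insert (by simp [hab, hac, had]), Finset.sum_insert (by simp [hbc, hbd]), Finset.sum_pair hcd,
      hka, hkb, hkc, hkd]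
    linear_combination hq a (hS (by simp)) + hq c (hS (by simp)) + hq d (hS (by simp))
  have hJeq : J = {a, b, c, d, e} := by
    refine (Finset.eq_of_subset_of_card_le ?_ ?_).symm
    · intro k hk
      simp only [Finset.mem_insert, Finset.mem_singleton] at hk
      rcases hk with rfl | rfl | rfl | rfl | rfl <;> assumption
    · rw [hJ, Finset.card_insert_of_notMem (by simp [hab, hac, had, Ne.symm hea]),
        Finset.card_insert_of_notMem (by simp [hbc, hbd, Ne.symm heb]),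
        Finset.card_insert_of_notMem (by simp [hcd, Ne.symm hec]), Finset.card_pair (Ne.symm hed)]
  have hw := hv.refl_image hD hodd hv''
  refine Orb.no_dense hD hodd h5 hC h53 hw ?_
  rw [← hJ]
  refine Finset.card_le_card fun k hk => 𝔉.mem_supp.2 ⟨hk, fun h => ?_⟩
  simp only [co_add, co_neg, co_smul] at h
  rw [hJeq] at hk
  simp only [Finset.mem_insert, Finset.mem_singleton] at hk
  have h3 := h53 hJ
  rcases hk with rfl | rfl | rfl | rfl | rfl
  · rw [hka] at h; exact ha0 (by linear_combination 2 * h - 𝔉.co v k * hdot)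
  · rw [hkb] at h; exact mul_ne_zero h3 hb0 (by linear_combination 2 * h - 𝔉.co v k * hdot)
  · rw [hkc] at h; exact hc0 (by linear_combination 2 * h - 𝔉.co v k * hdot)
  · rw [hkd] at h; exact hd0 (by linear_combination 2 * h - 𝔉.co v k * hdot)
  · rw [hve] at h; exact hke (by linear_combination -h)

/-- Every member is monomial. -/
theorem mono_of_centMono (h53 : J.card = 5 → (3 : F) ≠ 0)
    (h3 : (3 : F) = 0 → ∀ x : F, x ^ 2 ≠ -1) : ∀ g ∈ K, 𝔉.Mono J g := by
  classical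
  have hle2 : ∀ {v : ι → F}, 𝔉.Orb K J v → (𝔉.supp J v).card ≤ 2 ∧
      ∀ k ∈ 𝔉.supp J v, ∀ l ∈ 𝔉.supp J v, k ≠ l → 2 * 𝔉.co v k ^ 2 = 1 := by
    intro v hv
    by_cases hsm : (𝔉.supp J v).card + 2 ≤ J.card
    · exact Orb.small hD hodd hC hv hsm
    exfalso
    by_cases hs : 5 ≤ (𝔉.supp J v).card
    · exact Orb.no_dense hD hodd h5 hC h53 hv hs
    · exact Orb.no_four hD hodd h5 hC h53 (by omega) hv (by omega)
  have hle1 : ∀ {v : ι → F}, 𝔉.Orb K J v → (𝔉.supp J v).card ≤ 1 := by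
    intro v hv
    by_contra h
    push Not at h
    have hs := (hle2 hv).1
    obtain ⟨a, ha, b, hb, hab⟩ := Finset.one_lt_card.1 h
    have hqa := (hle2 hv).2 a ha b hb hab
    have hqb := (hle2 hv).2 b hb a ha hab.symm
    obtain ⟨haJ, ha0⟩ := 𝔉.mem_supp.1 ha
    obtain ⟨hbJ, hb0⟩ := 𝔉.mem_supp.1 hb
    have hsupp : 𝔉.supp J v = {a, b} := (Finset.eq_of_subset_of_card_le
      (by intro k hk; simp at hk; rcases hk with rfl | rfl <;> assumption)
      (by rw [Finset.card_pair hab]; exact hs)).symm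
    obtain ⟨c, hc⟩ := Finset.card_pos.1 (show 0 < (J \ {a, b}).card by
      rw [Finset.card_sdiff_of_subset (pair_subset haJ hbJ), Finset.card_pair hab]; omega)
    simp only [Finset.mem_sdiff, Finset.mem_insert, Finset.mem_singleton, not_or] at hc
    obtain ⟨hcJ, hca, hcb⟩ := hc
    obtain ⟨w, hw, hw1, hw2, hw3, -⟩ := hv.cycle hD haJ hbJ hcJ hab (Ne.symm hcb) (Ne.symm hca)
    have hvc : 𝔉.co v c = 0 := (hv.inS hD).co_eq_zero_of_not_supp (by rw [hsupp]; simp [hca, hcb])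
    have hdot : 𝔉.dot v w = 𝔉.co v b * 𝔉.co v a := by
      rw [(hv.inS hD).dot_eq, ← Finset.sum_subset (𝔉.supp_subset v)
        (fun k _ hk => by rw [(hv.inS hD).co_eq_zero_of_not_supp hk, zero_mul]), hsupp, Finset.sum_pair hab,
        hw3, hw1, hvc, mul_zero, zero_add]
    obtain ⟨g, hg, i, hi, rfl⟩ := hv
    have hu := hw.map hD (inv_mem hg)
    set u := ((g⁻¹ : GL ι F) : Matrix ι ι F) *ᵥ w with hu'
    have hui : 𝔉.co u i = 𝔉.dot ((g : Matrix ι ι F) *ᵥ 𝔉.basis i) w := by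
      conv_rhs => rw [← mulVec_inv_cancel g w]
      rw [← hu', 𝔉.dot_isometry (hD.iso hg), dot_basis_left]
    rw [hdot] at hui
    have hui4 : 4 * 𝔉.co u i ^ 2 = 1 := by
      rw [hui]; linear_combination (2 * 𝔉.co ((g : Matrix ι ι F) *ᵥ 𝔉.basis i) b ^ 2) * hqa + hqb
    have hisupp : i ∈ 𝔉.supp J u := 𝔉.mem_supp.2 ⟨hi, fun h' => by rw [h'] at hui4; simp at hui4⟩
    have h30 : (3 : F) = 0 := by
      by_cases hone : ∃ l ∈ 𝔉.supp J u, l ≠ i
      · obtain ⟨l, hl, hli⟩ := hone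
        have := (hle2 hu).2 i hisupp l hl hli.symm
        exact absurd (show (1 : F) = 0 by linear_combination hui4 - 2 * this) one_ne_zero
      · push Not at hone
        have h1 : 𝔉.supp J u = {i} := Finset.eq_singleton_iff_unique_mem.2 ⟨hisupp, hone⟩
        have h2' := (hu.inS hD).sum_sq_supp
        rw [h1, Finset.sum_singleton, hu.dot_self hD] at h2'
        linear_combination hui4 - 4 * h2'
    exact h3 h30 (𝔉.co ((g : Matrix ι ι F) *ᵥ 𝔉.basis i) a)
      (by linear_combination -hqa + 𝔉.co ((g : Matrix ι ι F) *ᵥ 𝔉.basis i) a ^ 2 * h30)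
  intro g hg i hi
  have hv : 𝔉.Orb K J ((g : Matrix ι ι F) *ᵥ 𝔉.basis i) := ⟨g, hg, i, hi, rfl⟩
  set v := (g : Matrix ι ι F) *ᵥ 𝔉.basis i
  obtain ⟨j, hj⟩ : (𝔉.supp J v).Nonempty := by
    by_contra h
    rw [Finset.not_nonempty_iff_eq_empty] at h
    have := (hv.inS hD).sum_sq_supp
    rw [h, Finset.sum_empty, hv.dot_self hD] at this
    exact zero_ne_one this
  refine ⟨j, (𝔉.mem_supp.1 hj).1, 𝔉.co v j, InS.ext (hv.inS hD)
    ((𝔉.inS_basis (𝔉.mem_supp.1 hj).1).smul _) fun k _ => ?_⟩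
  by_cases hk : k = j
  · subst hk; simp
  · rw [(hv.inS hD).co_eq_zero_of_not_supp fun h => hk (Finset.card_le_one.1 (hle1 hv) k h j hj), co_smul,
      co_basis_ne (h := Ne.symm hk), mul_zero]

end CfsgLib.OrthMono17.Frame
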