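import Cfsg.Agent.OrthMono17.Orbit

/-!
The central involution of the dihedral group spanned by a double sign change and the involution of an image
of a frame vector.
-/

set_option autoImplicit false
set_option linter.unusedSectionVars false

namespace CfsgLib.OrthMono17.Frame

open Cfsg.Geo Module CfsgLib.OrthGeo
open scoped Matrix MatrixGroups

variable {ι : Type} [Fintype ι] [DecidableEq ι] {F : Type*} [Field F] [Finite F]
variable {Q : (ι → F) → F} {κ : Type} [Fintype κ] [DecidableEq κ] {𝔉 : Frame Q κ}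
variable {K : Subgroup (GL ι F)} {J : Finset κ}

/-- The product of two involutions has even order on the set unless they are conjugate there. -/
lemma exists_central (hD : 𝔉.Data K J) {t y : GL ι F} (ht : t ∈ K) (hy : y ∈ K)
    (htt : ∀ x, 𝔉.InS J x → (t : Matrix ι ι F) *ᵥ ((t : Matrix ι ι F) *ᵥ x) = x)
    (hyy : ∀ x, 𝔉.InS J x → (y : Matrix ι ι F) *ᵥ ((y : Matrix ι ι F) *ᵥ x) = x)
    (hnc : ∀ h ∈ K, ¬ ∀ x, 𝔉.InS J x → (y : Matrix ι ι F) *ᵥ ((h : Matrix ι ι F) *ᵥ x) =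
      (h : Matrix ι ι F) *ᵥ ((t : Matrix ι ι F) *ᵥ x)) :
    ∃ m : ℕ, (∀ x, 𝔉.InS J x → (((t * y) ^ m * t : GL ι F) : Matrix ι ι F) *ᵥ x =
        ((t * (t * y) ^ m : GL ι F) : Matrix ι ι F) *ᵥ x) ∧
      (∀ x, 𝔉.InS J x → (((t * y) ^ m * y : GL ι F) : Matrix ι ι F) *ᵥ x =
        ((y * (t * y) ^ m : GL ι F) : Matrix ι ι F) *ᵥ x) ∧
      (∀ x, 𝔉.InS J x → (((t * y) ^ m * (t * y) ^ m : GL ι F) : Matrix ι ι F) *ᵥ x = x) ∧
      ∃ x, 𝔉.InS J x ∧ (((t * y) ^ m : GL ι F) : Matrix ι ι F) *ᵥ x ≠ x := by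
  classical
  haveI : Fintype F := Fintype.ofFinite F
  set g := t * y with hg
  have hgK : g ∈ K := mul_mem ht hy
  have hpg : ∀ (m : ℕ) x, 𝔉.InS J x → 𝔉.InS J (((g ^ m : GL ι F) : Matrix ι ι F) *ᵥ x) :=
    fun m x hx => hD.pres _ (pow_mem hgK m) x hx
  have hpw : ∀ (m k : ℕ) (x : ι → F), ((g ^ (m + k) : GL ι F) : Matrix ι ι F) *ᵥ x =
      ((g ^ m : GL ι F) : Matrix ι ι F) *ᵥ (((g ^ k : GL ι F) : Matrix ι ι F) *ᵥ x) := fun m k x => by
    rw [pow_add, Units.val_mul, Matrix.mulVec_mulVec]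
  have hg1 : ∀ x, 𝔉.InS J x → (g : Matrix ι ι F) *ᵥ ((t : Matrix ι ι F) *ᵥ ((g : Matrix ι ι F) *ᵥ x)) =
      (t : Matrix ι ι F) *ᵥ x := by
    intro x hx
    rw [hg, Units.val_mul, ← Matrix.mulVec_mulVec, ← Matrix.mulVec_mulVec, htt _ (hD.pres y hy x hx),
      hyy x hx]
  have hgm : ∀ m : ℕ, ∀ x, 𝔉.InS J x → ((g ^ m : GL ι F) : Matrix ι ι F) *ᵥ
      ((t : Matrix ι ι F) *ᵥ (((g ^ m : GL ι F) : Matrix ι ι F) *ᵥ x)) = (t : Matrix ι ι F) *ᵥ x := by
    intro m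
    induction m with
    | zero => intro x _; simp
    | succ m ih =>
      intro x hx
      rw [hpw m 1, pow_one]
      conv_lhs =>
        enter [2, 2, 2]
        rw [show m + 1 = 1 + m by omega, hpw 1 m, pow_one]
      rw [hg1 _ (hpg m x hx), ih x hx]
  have hex : ∃ N, 0 < N ∧ ∀ x, 𝔉.InS J x → ((g ^ N : GL ι F) : Matrix ι ι F) *ᵥ x = x :=
    ⟨orderOf g, orderOf_pos g, fun x _ => by rw [pow_orderOf_eq_one]; simp⟩
  obtain ⟨hN0, hN⟩ := Nat.find_spec hex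
  set N := Nat.find hex with hNdef
  rcases Nat.even_or_odd N with ⟨m, hm⟩ | ⟨m, hm⟩
  · have hm0 : 0 < m := by omega
    have hzz : ∀ x, 𝔉.InS J x → ((g ^ m : GL ι F) : Matrix ι ι F) *ᵥ
        (((g ^ m : GL ι F) : Matrix ι ι F) *ᵥ x) = x := fun x hx => by
      rw [← hpw, ← hm]; exact hN x hx
    have hzt : ∀ x, 𝔉.InS J x → ((g ^ m : GL ι F) : Matrix ι ι F) *ᵥ ((t : Matrix ι ι F) *ᵥ x) =
        (t : Matrix ι ι F) *ᵥ (((g ^ m : GL ι F) : Matrix ι ι F) *ᵥ x) := by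
      intro x hx
      conv_lhs => rw [← hzz x hx]
      exact hgm m _ (hpg m x hx)
    have hty : ∀ x, 𝔉.InS J x →
        (t : Matrix ι ι F) *ᵥ ((g : Matrix ι ι F) *ᵥ x) = (y : Matrix ι ι F) *ᵥ x := fun x hx => by
      rw [hg, Units.val_mul, ← Matrix.mulVec_mulVec, htt _ (hD.pres y hy x hx)]
    refine ⟨m, fun x hx => ?_, fun x hx => ?_, fun x hx => ?_, ?_⟩
    · rw [Units.val_mul, Units.val_mul, ← Matrix.mulVec_mulVec, ← Matrix.mulVec_mulVec]
      exact hzt x hx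
    · rw [Units.val_mul, Units.val_mul, ← Matrix.mulVec_mulVec, ← Matrix.mulVec_mulVec, ← hty x hx,
        ← hty _ (hpg m x hx), hzt _ (hD.pres g hgK x hx)]
      congr 1
      calc ((g ^ m : GL ι F) : Matrix ι ι F) *ᵥ ((g : Matrix ι ι F) *ᵥ x)
          = ((g ^ (m + 1) : GL ι F) : Matrix ι ι F) *ᵥ x := by rw [hpw m 1, pow_one]
        _ = ((g ^ (1 + m) : GL ι F) : Matrix ι ι F) *ᵥ x := by rw [add_comm]
        _ = _ := by rw [hpw 1 m, pow_one]
    · rw [Units.val_mul, ← Matrix.mulVec_mulVec]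
      exact hzz x hx
    · by_contra h
      push Not at h
      exact Nat.find_min hex (show m < N by omega) ⟨hm0, h⟩
  · exfalso
    refine hnc (g ^ m) (pow_mem hgK m) fun x hx => ?_
    have h1 := hgm m _ (hpg (m + 1) x hx)
    rw [← hpw m (m + 1), show m + (m + 1) = N by omega, hN x hx] at h1
    rw [h1, show m + 1 = 1 + m by omega, hpw 1 m, pow_one, hg, Units.val_mul,
      ← Matrix.mulVec_mulVec, htt _ (hD.pres y hy _ (hg ▸ hpg m x hx))]

/-- A vector of a set annihilating all vectors of the set orthogonal to a non-zero one is a multiple of it. -/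
lemma eq_smul_of_forall_perp {R : Finset κ} {u d : ι → F} (hd : 𝔉.InS R d) (hu : 𝔉.InS R u) (hu0 : u ≠ 0)
    (h : ∀ x, 𝔉.InS R x → 𝔉.dot u x = 0 → 𝔉.dot d x = 0) : ∃ c : F, d = c • u := by
  obtain ⟨k, hk, hk0⟩ : ∃ k ∈ R, 𝔉.co u k ≠ 0 := by
    by_contra hh
    push Not at hh
    exact hu0 (InS.ext hu 𝔉.inS_zero fun k hk => by simp [hh k hk])
  refine ⟨𝔉.co d k / 𝔉.co u k, InS.ext hd (hu.smul _) fun l hl => ?_⟩
  have h1 := h (𝔉.co u k • 𝔉.basis l - 𝔉.co u l • 𝔉.basis k)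
    (((𝔉.inS_basis hl).smul _).sub ((𝔉.inS_basis hk).smul _)) (by simp [mul_comm])
  simp only [dot_sub_right, dot_smul_right, dot_basis_right] at h1
  rw [co_smul]
  field_simp
  linear_combination h1

/-- An isometry which is a scalar of square one on a hyperplane with singular normal is that scalar. -/
lemma eq_smul_of_singular {R : Finset κ} {g : GL ι F} (hg : g ∈ Cfsg.isometryGroup F Q)
    (hR : 𝔉.Pres R g) {ε : F} (hε : ε * ε = 1) {u : ι → F} (hu : 𝔉.InS R u) (hu0 : u ≠ 0)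
    (hu1 : 𝔉.dot u u = 0)
    (hfix : ∀ x, 𝔉.InS R x → 𝔉.dot u x = 0 → (g : Matrix ι ι F) *ᵥ x = ε • x) :
    ∀ x, 𝔉.InS R x → (g : Matrix ι ι F) *ᵥ x = ε • x := by
  intro x hx
  obtain ⟨c, hc⟩ := eq_smul_of_forall_perp (d := (g : Matrix ι ι F) *ᵥ x - ε • x)
    ((hR x hx).sub (hx.smul ε)) hu hu0 fun y hy huy => by
      have h := 𝔉.dot_isometry hg x y
      rw [hfix y hy huy, dot_smul_right] at h
      rw [dot_sub_left, dot_smul_left]
      linear_combination ε * h - 𝔉.dot ((g : Matrix ι ι F) *ᵥ x) y * hε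
  have hgx : (g : Matrix ι ι F) *ᵥ x = ε • x + c • u := by rw [← hc]; abel
  have h := 𝔉.dot_isometry hg x x
  rw [hgx] at h
  simp only [dot_add_left, dot_add_right, dot_smul_left, dot_smul_right, hu1, 𝔉.dot_comm x u] at h
  by_cases hxu : 𝔉.dot u x = 0
  · exact hfix x hx hxu
  · have hε0 : ε ≠ 0 := fun h0 => by rw [h0, mul_zero] at hε; exact zero_ne_one hε
    have h3 : c = 0 := (mul_eq_zero.1 (show c * (2 * ε * 𝔉.dot u x) = 0 by
      linear_combination h - 𝔉.dot x x * hε)).resolve_right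
        (mul_ne_zero (mul_ne_zero 𝔉.two_ne hε0) hxu)
    rw [hgx, h3, zero_smul, add_zero]

end CfsgLib.OrthMono17.Frame
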