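import Cfsg.Agent.OrthGeo.Eichler

/-!
Orthogonal frames of equal values: coordinates, supports, and groups containing the even sign changes and
the three-cycles of a set of frame vectors.
-/

set_option autoImplicit false
set_option linter.unusedSectionVars false

namespace CfsgLib.OrthMono17

open Cfsg.Geo Module CfsgLib.OrthGeo
open scoped Matrix MatrixGroups

variable {ι : Type} [Fintype ι] [DecidableEq ι] {F : Type*} [Field F]

/-- A basis of pairwise perpendicular vectors on which the form takes one non-zero value. -/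
structure Frame (Q : (ι → F) → F) (κ : Type) [Fintype κ] where
  nondeg : IsNondegenerateQuadraticForm Q
  two_ne : (2 : F) ≠ 0
  basis : Basis κ F (ι → F)
  lam : F
  lam_ne : lam ≠ 0
  q_basis : ∀ k, Q (basis k) = lam
  ortho : ∀ k l, k ≠ l → bform nondeg (basis k) (basis l) = 0

variable {Q : (ι → F) → F} {κ : Type} [Fintype κ] [DecidableEq κ] (𝔉 : Frame Q κ)

namespace Frame

/-- The coordinate of a vector. -/
noncomputable def co (x : ι → F) (k : κ) : F := 𝔉.basis.repr x k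

/-- The sum of the products of the coordinates. -/
noncomputable def dot (x y : ι → F) : F := ∑ k, 𝔉.co x k * 𝔉.co y k

/-- The vector is supported inside the index set. -/
def InS (J : Finset κ) (x : ι → F) : Prop := ∀ k, k ∉ J → 𝔉.co x k = 0

@[simp] lemma co_add (x y : ι → F) (k : κ) : 𝔉.co (x + y) k = 𝔉.co x k + 𝔉.co y k := by simp [co]
@[simp] lemma co_sub (x y : ι → F) (k : κ) : 𝔉.co (x - y) k = 𝔉.co x k - 𝔉.co y k := by simp [co]
@[simp] lemma co_neg (x : ι → F) (k : κ) : 𝔉.co (-x) k = -𝔉.co x k := by simp [co]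
@[simp] lemma co_smul (c : F) (x : ι → F) (k : κ) : 𝔉.co (c • x) k = c * 𝔉.co x k := by simp [co]
@[simp] lemma co_zero (k : κ) : 𝔉.co 0 k = 0 := by simp [co]
lemma co_basis (i k : κ) : 𝔉.co (𝔉.basis i) k = if i = k then 1 else 0 := by
  simp [co, Finsupp.single_apply]
@[simp] lemma co_basis_self (i : κ) : 𝔉.co (𝔉.basis i) i = 1 := by simp [co_basis]
lemma co_basis_ne {i k : κ} (h : i ≠ k) : 𝔉.co (𝔉.basis i) k = 0 := by simp [co_basis, h]

lemma ext_co {x y : ι → F} (h : ∀ k, 𝔉.co x k = 𝔉.co y k) : x = y :=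
  𝔉.basis.repr.injective (Finsupp.ext h)

lemma sum_co (x : ι → F) : ∑ k, 𝔉.co x k • 𝔉.basis k = x := 𝔉.basis.sum_repr x

lemma dot_comm (x y : ι → F) : 𝔉.dot x y = 𝔉.dot y x := by simp [dot, mul_comm]
@[simp] lemma dot_add_left (x y z : ι → F) : 𝔉.dot (x + y) z = 𝔉.dot x z + 𝔉.dot y z := by
  simp [dot, add_mul, Finset.sum_add_distrib]
@[simp] lemma dot_add_right (x y z : ι → F) : 𝔉.dot x (y + z) = 𝔉.dot x y + 𝔉.dot x z := by
  simp [dot, mul_add, Finset.sum_add_distrib]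
@[simp] lemma dot_smul_left (c : F) (x y : ι → F) : 𝔉.dot (c • x) y = c * 𝔉.dot x y := by
  simp [dot, Finset.mul_sum, mul_assoc]
@[simp] lemma dot_smul_right (c : F) (x y : ι → F) : 𝔉.dot x (c • y) = c * 𝔉.dot x y := by
  simp [dot, Finset.mul_sum, mul_left_comm]
@[simp] lemma dot_neg_left (x y : ι → F) : 𝔉.dot (-x) y = -𝔉.dot x y := by simp [dot]
@[simp] lemma dot_neg_right (x y : ι → F) : 𝔉.dot x (-y) = -𝔉.dot x y := by simp [dot]
@[simp] lemma dot_sub_left (x y z : ι → F) : 𝔉.dot (x - y) z = 𝔉.dot x z - 𝔉.dot y z := by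
  simp [dot, sub_mul, Finset.sum_sub_distrib]
@[simp] lemma dot_sub_right (x y z : ι → F) : 𝔉.dot x (y - z) = 𝔉.dot x y - 𝔉.dot x z := by
  simp [dot, mul_sub, Finset.sum_sub_distrib]
@[simp] lemma dot_zero_left (x : ι → F) : 𝔉.dot 0 x = 0 := by simp [dot]
@[simp] lemma dot_zero_right (x : ι → F) : 𝔉.dot x 0 = 0 := by simp [dot]
@[simp] lemma dot_basis_left (i : κ) (x : ι → F) : 𝔉.dot (𝔉.basis i) x = 𝔉.co x i := by
  simp [dot, co_basis]
@[simp] lemma dot_basis_right (i : κ) (x : ι → F) : 𝔉.dot x (𝔉.basis i) = 𝔉.co x i := by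
  simp [dot, co_basis]

lemma bform_eq (x y : ι → F) : bform 𝔉.nondeg x y = 2 * 𝔉.lam * 𝔉.dot x y := by
  have h1 : ∀ k, bform 𝔉.nondeg (𝔉.basis k) y = 2 * 𝔉.lam * 𝔉.co y k := by
    intro k
    conv_lhs => rw [← 𝔉.sum_co y, map_sum]
    rw [Finset.sum_eq_single k]
    · rw [map_smul, smul_eq_mul, b_self, 𝔉.q_basis]; ring
    · intro l _ hl
      rw [map_smul, 𝔉.ortho k l (Ne.symm hl), smul_zero]
    · exact fun h => absurd (Finset.mem_univ k) h
  conv_lhs => rw [← 𝔉.sum_co x, map_sum, LinearMap.sum_apply]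
  rw [dot, Finset.mul_sum]
  refine Finset.sum_congr rfl fun k _ => ?_
  rw [map_smul, LinearMap.smul_apply, h1, smul_eq_mul]
  ring

lemma q_eq (x : ι → F) : Q x = 𝔉.lam * 𝔉.dot x x := by
  have h := b_self 𝔉.nondeg x
  rw [𝔉.bform_eq] at h
  exact mul_left_cancel₀ 𝔉.two_ne (by linear_combination -h)

lemma dot_isometry {g : GL ι F} (hg : g ∈ Cfsg.isometryGroup F Q) (x y : ι → F) :
    𝔉.dot ((g : Matrix ι ι F) *ᵥ x) ((g : Matrix ι ι F) *ᵥ y) = 𝔉.dot x y := by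
  have h := isometry_b 𝔉.nondeg hg x y
  rw [𝔉.bform_eq, 𝔉.bform_eq] at h
  exact mul_left_cancel₀ (mul_ne_zero 𝔉.two_ne 𝔉.lam_ne) h

variable {J J' : Finset κ}

lemma inS_basis {i : κ} (hi : i ∈ J) : 𝔉.InS J (𝔉.basis i) := fun _ hk => 𝔉.co_basis_ne fun h => hk (h ▸ hi)
variable {𝔉}
lemma InS.add {x y : ι → F} (hx : 𝔉.InS J x) (hy : 𝔉.InS J y) : 𝔉.InS J (x + y) :=
  fun k hk => by simp [hx k hk, hy k hk]
lemma InS.sub {x y : ι → F} (hx : 𝔉.InS J x) (hy : 𝔉.InS J y) : 𝔉.InS J (x - y) :=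
  fun k hk => by simp [hx k hk, hy k hk]
lemma InS.smul {x : ι → F} (hx : 𝔉.InS J x) (c : F) : 𝔉.InS J (c • x) := fun k hk => by simp [hx k hk]
lemma InS.neg {x : ι → F} (hx : 𝔉.InS J x) : 𝔉.InS J (-x) := fun k hk => by simp [hx k hk]
variable (𝔉)
lemma inS_zero : 𝔉.InS J 0 := fun k _ => 𝔉.co_zero k
variable {𝔉}
lemma InS.mono {x : ι → F} (hx : 𝔉.InS J x) (h : J ⊆ J') : 𝔉.InS J' x := fun k hk => hx k fun hk' => hk (h hk')
variable (𝔉)
lemma inS_univ (x : ι → F) : 𝔉.InS Finset.univ x := fun k hk => absurd (Finset.mem_univ k) hk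

variable {𝔉}
lemma InS.ext {x y : ι → F} (hx : 𝔉.InS J x) (hy : 𝔉.InS J y) (h : ∀ k ∈ J, 𝔉.co x k = 𝔉.co y k) : x = y :=
  𝔉.ext_co fun k => if hk : k ∈ J then h k hk else by rw [hx k hk, hy k hk]

lemma InS.dot_eq {x : ι → F} (hx : 𝔉.InS J x) (y : ι → F) : 𝔉.dot x y = ∑ k ∈ J, 𝔉.co x k * 𝔉.co y k := by
  refine (Finset.sum_subset (Finset.subset_univ J) fun k _ hk => ?_).symm
  rw [hx k hk, zero_mul]

lemma InS.sum_eq {x : ι → F} (hx : 𝔉.InS J x) : ∑ k ∈ J, 𝔉.co x k • 𝔉.basis k = x := by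
  conv_rhs => rw [← 𝔉.sum_co x]
  refine Finset.sum_subset (Finset.subset_univ J) fun k _ hk => ?_
  rw [hx k hk, zero_smul]

lemma InS.mulVec_congr {x : ι → F} (hx : 𝔉.InS J x) {A B : Matrix ι ι F}
    (h : ∀ k ∈ J, A *ᵥ 𝔉.basis k = B *ᵥ 𝔉.basis k) : A *ᵥ x = B *ᵥ x := by
  rw [← hx.sum_eq, Matrix.mulVec_sum, Matrix.mulVec_sum]
  refine Finset.sum_congr rfl fun k hk => ?_
  rw [Matrix.mulVec_smul, Matrix.mulVec_smul, h k hk]

/-- The coordinates of the image of a vector under an element which is monomial on the set. -/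
lemma co_mulVec_mono {A : Matrix ι ι F} {x : ι → F} (hx : 𝔉.InS J x) {σ : κ → κ} {c : κ → F}
    (hA : ∀ l ∈ J, A *ᵥ 𝔉.basis l = c l • 𝔉.basis (σ l)) (hσ : Set.InjOn σ J) {k : κ} (hk : k ∈ J) :
    𝔉.co (A *ᵥ x) (σ k) = c k * 𝔉.co x k := by
  have h : A *ᵥ x = ∑ l ∈ J, (𝔉.co x l * c l) • 𝔉.basis (σ l) := by
    conv_lhs => rw [← hx.sum_eq, Matrix.mulVec_sum]
    exact Finset.sum_congr rfl fun l hl => by rw [Matrix.mulVec_smul, hA l hl, smul_smul]
  rw [h]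
  simp only [co, map_sum, map_smul, Basis.repr_self, Finsupp.smul_single, smul_eq_mul, mul_one,
    Finsupp.coe_finsetSum, Finset.sum_apply]
  rw [Finset.sum_eq_single k]
  · rw [Finsupp.single_eq_same, mul_comm]
  · intro l hl hlk
    exact Finsupp.single_eq_of_ne fun e => hlk (hσ hl hk e.symm)
  · exact fun h => absurd hk h

variable (𝔉)

/-- The element maps vectors supported in the set to such vectors. -/
def Pres (J : Finset κ) (g : GL ι F) : Prop :=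
  ∀ x, 𝔉.InS J x → 𝔉.InS J ((g : Matrix ι ι F) *ᵥ x)

/-- The element permutes the lines of the frame vectors in the set. -/
def Mono (J : Finset κ) (g : GL ι F) : Prop :=
  ∀ i ∈ J, ∃ j ∈ J, ∃ c : F, (g : Matrix ι ι F) *ᵥ 𝔉.basis i = c • 𝔉.basis j

/-- A group of isometries of the span of part of the frame containing the even sign changes and the
three-cycles. -/
structure Data (K : Subgroup (GL ι F)) (J : Finset κ) : Prop where
  iso : K ≤ Cfsg.isometryGroup F Q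
  pres : ∀ g ∈ K, 𝔉.Pres J g
  sgn : ∀ a ∈ J, ∀ b ∈ J, a ≠ b → ∃ g ∈ K, ∀ k ∈ J,
    (g : Matrix ι ι F) *ᵥ 𝔉.basis k = (if k = a ∨ k = b then (-1 : F) else 1) • 𝔉.basis k
  cyc : ∀ a ∈ J, ∀ b ∈ J, ∀ c ∈ J, a ≠ b → b ≠ c → a ≠ c → ∃ g ∈ K, ∀ k ∈ J,
    (g : Matrix ι ι F) *ᵥ 𝔉.basis k =
      𝔉.basis (if k = a then b else if k = b then c else if k = c then a else k)

/-- All sign changes and transpositions occur. -/
structure Full (K : Subgroup (GL ι F)) (J : Finset κ) : Prop where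
  sgn_one : ∀ a ∈ J, ∃ g ∈ K, ∀ k ∈ J,
    (g : Matrix ι ι F) *ᵥ 𝔉.basis k = (if k = a then (-1 : F) else 1) • 𝔉.basis k
  swap : ∀ a ∈ J, ∀ b ∈ J, a ≠ b → ∃ g ∈ K, ∀ k ∈ J,
    (g : Matrix ι ι F) *ᵥ 𝔉.basis k = 𝔉.basis (Equiv.swap a b k)

/-- The members stabilising the span of two frame vectors. -/
def cent (K : Subgroup (GL ι F)) (a b : κ) : Subgroup (GL ι F) where
  carrier := {g | g ∈ K ∧ ∀ x, 𝔉.InS {a, b} x ↔ 𝔉.InS {a, b} ((g : Matrix ι ι F) *ᵥ x)}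
  one_mem' := ⟨one_mem _, fun x => by simp⟩
  mul_mem' {g h} hg hh := ⟨mul_mem hg.1 hh.1, fun x => by
    rw [Units.val_mul, ← Matrix.mulVec_mulVec, hh.2 x, hg.2]⟩
  inv_mem' {g} hg := ⟨inv_mem hg.1, fun x => by
    rw [hg.2 (((g⁻¹ : GL ι F) : Matrix ι ι F) *ᵥ x), mulVec_inv_cancel]⟩

lemma mem_cent {K : Subgroup (GL ι F)} {a b : κ} {g : GL ι F} :
    g ∈ 𝔉.cent K a b ↔ g ∈ K ∧ ∀ x, 𝔉.InS {a, b} x ↔ 𝔉.InS {a, b} ((g : Matrix ι ι F) *ᵥ x) := Iff.rfl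

variable {𝔉} {K : Subgroup (GL ι F)}

lemma pair_subset {a b : κ} (ha : a ∈ J) (hb : b ∈ J) : ({a, b} : Finset κ) ⊆ J := by
  intro x hx
  simp only [Finset.mem_insert, Finset.mem_singleton] at hx
  rcases hx with rfl | rfl <;> assumption

lemma mem_cent_of_pres {a b : κ} {g : GL ι F} (hg : g ∈ K)
    (h1 : ∀ x, 𝔉.InS {a, b} x → 𝔉.InS {a, b} ((g : Matrix ι ι F) *ᵥ x))
    (h2 : ∀ x, 𝔉.InS {a, b} x → 𝔉.InS {a, b} (((g⁻¹ : GL ι F) : Matrix ι ι F) *ᵥ x)) :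
    g ∈ 𝔉.cent K a b :=
  ⟨hg, fun x => ⟨h1 x, fun h => by simpa [inv_mulVec_cancel] using h2 _ h⟩⟩

lemma cent_le (a b : κ) : 𝔉.cent K a b ≤ K := fun _ h => h.1

end Frame

end CfsgLib.OrthMono17
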