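import Cfsg.Agent.OrthMono17.CentData
import Mathlib.Algebra.CharP.Lemmas
import Mathlib.LinearAlgebra.Matrix.ToLin

/-!
A root element of the span of all but two frame vectors, acting somehow on the remaining plane, has a power
which is a root element fixing that plane, over a prime field.
-/

set_option autoImplicit false
set_option linter.unusedSectionVars false

namespace CfsgLib.OrthMono17.Frame

open Cfsg.Geo Module CfsgLib.OrthGeo
open scoped Matrix MatrixGroups

section TwoByTwo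

variable {F : Type*} [Field F] [Fintype F]

/-- A two by two orthogonal matrix over a prime field of odd characteristic is killed by `2 (p² - 1)`. -/
lemma orth_two_pow (hp : (Fintype.card F).Prime) (h2 : (2 : F) ≠ 0) {R : Matrix (Fin 2) (Fin 2) F}
    (hR : Rᵀ * R = 1) : R ^ (2 * (Fintype.card F ^ 2 - 1)) = 1 := by
  classical
  set p := Fintype.card F with hpdef
  have hp2 : p ≠ 2 := fun h => h2 (by
    have h' : ((p : ℕ) : F) = 0 := Nat.cast_card_eq_zero F
    rw [h] at h'
    exact_mod_cast h')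
  obtain ⟨k, hk⟩ := hp.odd_of_ne_two hp2
  haveI : Fact p.Prime := ⟨hp⟩
  haveI : CharP F p := charP_of_card_eq_prime rfl
  set α := R 0 0 with hα
  set β := R 1 0 with hβ
  have e : ∀ i j, R 0 i * R 0 j + R 1 i * R 1 j = if i = j then 1 else 0 := fun i j => by
    have := congrFun (congrFun hR i) j
    simpa [Matrix.mul_apply, Fin.sum_univ_two, Matrix.one_apply] using this
  have e00 := e 0 0
  have e01 := e 0 1
  have e11 := e 1 1
  simp only [if_pos rfl, Fin.zero_eq_one_iff, OfNat.ofNat_ne_one, ↓reduceIte] at e00 e01 e11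
  set d := α * R 1 1 - β * R 0 1 with hd
  have hR01 : R 0 1 = -(d * β) := by
    simp only [hd, hα, hβ] at *
    linear_combination -(R 0 1) * e00 + R 0 0 * e01
  have hR11 : R 1 1 = d * α := by
    simp only [hd, hα, hβ] at *
    linear_combination -(R 1 1) * e00 + R 1 0 * e01
  have hdd : d * d = 1 := by
    rw [hR01, hR11] at e11
    simp only [hα, hβ] at *
    linear_combination e11 - d * d * e00
  rcases mul_self_eq_one_iff.1 hdd with he | he
  · -- a rotation
    set Jm : Matrix (Fin 2) (Fin 2) F := !![0, -1; 1, 0] with hJ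
    have hRJ : R = α • (1 : Matrix (Fin 2) (Fin 2) F) + β • Jm := by
      ext i j
      fin_cases i <;> fin_cases j <;> simp [hJ, hR01, hR11, he, hα, hβ]
    have hJ2 : Jm * Jm = -1 := by
      ext i j
      fin_cases i <;> fin_cases j <;> simp [hJ, Matrix.mul_apply, Fin.sum_univ_two]
    have hJodd : ∀ n : ℕ, Jm ^ (4 * n + 1) = Jm := by
      intro n
      rw [pow_succ, pow_mul, show Jm ^ 4 = 1 by
        rw [show 4 = 2 + 2 from rfl, pow_add, sq, hJ2]; simp, one_pow, one_mul]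
    haveI : CharP (Matrix (Fin 2) (Fin 2) F) p := inferInstance
    haveI : ExpChar (Matrix (Fin 2) (Fin 2) F) p := ExpChar.prime hp
    have hfix : ∀ c : F, c ^ p = c := FiniteField.pow_card
    have hpow : ∀ (c d' : F) (M : Matrix (Fin 2) (Fin 2) F),
        (c • (1 : Matrix (Fin 2) (Fin 2) F) + d' • M) ^ p = c • 1 + d' • M ^ p := by
      intro c d' M
      rw [add_pow_expChar_of_commute _ ((Commute.one_left (d' • M)).smul_left c), smul_pow, smul_pow,
        one_pow, hfix, hfix]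
    have hRpp : R ^ (p ^ 2) = R := by
      rw [sq, pow_mul, hRJ, hpow, hpow, ← pow_mul]
      have hpp : p * p = 4 * (k * k + k) + 1 := by rw [hk]; ring
      rw [hpp, hJodd]
    have hinv : Rᵀ * R ^ (p ^ 2) = R ^ (p ^ 2 - 1) := by
      have h1 : p ^ 2 = 1 + (p ^ 2 - 1) := by
        have := Nat.one_le_pow 2 p hp.pos
        omega
      conv_lhs => rw [h1, pow_add, pow_one, ← mul_assoc, hR, one_mul]
    rw [hRpp, hR] at hinv
    rw [mul_comm, pow_mul, ← hinv, one_pow]
  · -- a reflection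
    have h1 : R * R = 1 := by
      ext i j
      have e00' : α * α + β * β = 1 := e00
      fin_cases i <;> fin_cases j <;>
        simp [Matrix.mul_apply, Fin.sum_univ_two, hR01, hR11, he, ← hα, ← hβ] <;>
        first | linear_combination e00' | ring
    rw [pow_mul, sq, h1, one_pow]

lemma cast_two_mul_sq_sub_one : ((2 * (Fintype.card F ^ 2 - 1) : ℕ) : F) = -2 := by
  rw [Nat.cast_mul, Nat.cast_sub (Nat.one_le_pow _ _ Fintype.card_pos), Nat.cast_pow, Nat.cast_card_eq_zero]
  simp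

end TwoByTwo

variable {ι : Type} [Fintype ι] [DecidableEq ι] {F : Type*} [Field F] [Fintype F]
variable {Q : (ι → F) → F} {κ : Type} [Fintype κ] [DecidableEq κ] (𝔉 : Frame Q κ)
variable {K : Subgroup (GL ι F)} {J : Finset κ}

/-- A member acts on the span of the index set as the root element of the pair. -/
def EJ (K : Subgroup (GL ι F)) (J : Finset κ) (z w : ι → F) : Prop :=
  ∃ g ∈ K, ∀ x, 𝔉.InS J x → (g : Matrix ι ι F) *ᵥ x = eichlerMat Q z w *ᵥ x

variable {𝔉}

lemma eichlerMat_mulVec_dot (z w x : ι → F) : eichlerMat Q z w *ᵥ x =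
    x + (2 * 𝔉.lam * 𝔉.dot w x) • z - (2 * 𝔉.lam * 𝔉.dot z x) • w
      - (𝔉.lam * 𝔉.dot w w * (2 * 𝔉.lam * 𝔉.dot z x)) • z := by
  rw [eichlerMat_mulVec 𝔉.nondeg, 𝔉.bform_eq, 𝔉.bform_eq, 𝔉.q_eq]

lemma InS.eichler {x z w : ι → F} (hx : 𝔉.InS J x) (hz : 𝔉.InS J z) (hw : 𝔉.InS J w) :
    𝔉.InS J (eichlerMat Q z w *ᵥ x) := by
  rw [eichlerMat_mulVec_dot (𝔉 := 𝔉)]
  exact ((hx.add (hz.smul _)).sub (hw.smul _)).sub (hz.smul _)

lemma InS.dot_zero {S T : Finset κ} {x y : ι → F} (hx : 𝔉.InS S x) (hy : 𝔉.InS T y)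
    (h : ∀ k ∈ S, k ∉ T) : 𝔉.dot x y = 0 := by
  rw [hx.dot_eq]
  exact Finset.sum_eq_zero fun k hk => by rw [hy k (h k hk), mul_zero]

lemma eichler_fix_outside {S : Finset κ} {z w : ι → F} (hz : 𝔉.InS S z) (hw : 𝔉.InS S w) {k : κ}
    (hk : k ∉ S) : eichlerMat Q z w *ᵥ 𝔉.basis k = 𝔉.basis k := by
  rw [eichlerMat_mulVec_dot (𝔉 := 𝔉), dot_basis_right, dot_basis_right, hz k hk, hw k hk]
  simp

/-- The lift of a root element through the stabiliser of two frame vectors. -/
theorem Data.lift_EJ (hp : (Fintype.card F).Prime) (hD : 𝔉.Data K J) {a b : κ} (ha : a ∈ J) (hb : b ∈ J)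
    (hab : a ≠ b) {z w : ι → F} (hz : 𝔉.InS ((J.erase a).erase b) z) (hw : 𝔉.InS ((J.erase a).erase b) w)
    (hzz : 𝔉.dot z z = 0) (hzw : 𝔉.dot z w = 0)
    (hE : 𝔉.EJ (𝔉.cent K a b) ((J.erase a).erase b) z w) : 𝔉.EJ K J z ((-2 : F) • w) := by
  classical
  obtain ⟨g, hg, hgx⟩ := hE
  set R := (J.erase a).erase b with hR
  have hgI := hD.iso hg.1
  have hqz : Q z = 0 := by rw [𝔉.q_eq, hzz, mul_zero]
  have hbzw : bform 𝔉.nondeg z w = 0 := by rw [𝔉.bform_eq, hzw, mul_zero]
  let s : Fin 2 → κ := ![a, b]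
  have hs : ∀ i, s i ∈ ({a, b} : Finset κ) := fun i => by fin_cases i <;> simp [s]
  have hsne : ∀ i j, i ≠ j → s i ≠ s j := fun i j h => by
    fin_cases i <;> fin_cases j <;> simp_all [s, hab, Ne.symm hab]
  let A : Matrix (Fin 2) (Fin 2) F :=
    Matrix.of fun i j => 𝔉.co ((g : Matrix ι ι F) *ᵥ 𝔉.basis (s j)) (s i)
  have hexp : ∀ x, 𝔉.InS {a, b} x → x = ∑ i, 𝔉.co x (s i) • 𝔉.basis (s i) := fun x hx => by
    conv_lhs => rw [← hx.sum_eq, Finset.sum_pair hab]
    simp [Fin.sum_univ_two, s]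
  have hcol : ∀ j, (g : Matrix ι ι F) *ᵥ 𝔉.basis (s j) = ∑ i, A i j • 𝔉.basis (s i) := fun j =>
    hexp _ ((hg.2 _).1 (𝔉.inS_basis (hs j)))
  have hA : Aᵀ * A = 1 := by
    ext i j
    have h := 𝔉.dot_isometry hgI (𝔉.basis (s i)) (𝔉.basis (s j))
    rw [((hg.2 _).1 (𝔉.inS_basis (hs i))).dot_eq, Finset.sum_pair hab, dot_basis_left, co_basis] at h
    rw [Matrix.mul_apply, Fin.sum_univ_two, Matrix.one_apply]
    simp only [Matrix.transpose_apply, A, Matrix.of_apply]
    refine h.trans ?_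
    by_cases hij : i = j
    · subst hij; simp
    · rw [if_neg hij, if_neg (hsne j i (Ne.symm hij))]
  have hpow : ∀ (n : ℕ) (j : Fin 2), ((g ^ n : GL ι F) : Matrix ι ι F) *ᵥ 𝔉.basis (s j) =
      ∑ i, (A ^ n) i j • 𝔉.basis (s i) := by
    intro n
    induction n with
    | zero =>
      intro j
      simp [Matrix.one_apply]
    | succ n ih =>
      intro j
      rw [pow_succ, Units.val_mul, ← Matrix.mulVec_mulVec, hcol j, Matrix.mulVec_sum]
      simp only [Matrix.mulVec_smul, ih, Finset.smul_sum, smul_smul]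
      rw [Finset.sum_comm]
      refine Finset.sum_congr rfl fun i _ => ?_
      rw [pow_succ, Matrix.mul_apply, Finset.sum_smul]
      exact Finset.sum_congr rfl fun l _ => by rw [mul_comm]
  have hrest : ∀ (n : ℕ) x, 𝔉.InS R x →
      ((g ^ n : GL ι F) : Matrix ι ι F) *ᵥ x = eichlerMat Q z ((n : F) • w) *ᵥ x := by
    intro n
    induction n with
    | zero => intro x _; simp [eichlerMat_zero 𝔉.nondeg]
    | succ n ih =>
      intro x hx
      rw [pow_succ, Units.val_mul, ← Matrix.mulVec_mulVec, hgx x hx, ih _ (hx.eichler hz hw),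
        Matrix.mulVec_mulVec,
        eichlerMat_mul 𝔉.nondeg hqz (by rw [map_smul, hbzw, smul_zero]) hbzw, Nat.cast_succ, add_smul, one_smul]
  set N := 2 * (Fintype.card F ^ 2 - 1) with hN
  refine ⟨g ^ N, pow_mem hg.1 N, fun x hx => hx.mulVec_congr fun k hk => ?_⟩
  by_cases hkR : k ∈ R
  · rw [hrest N _ (𝔉.inS_basis hkR), hN, cast_two_mul_sq_sub_one]
  · rw [eichler_fix_outside hz (hw.smul _) hkR]
    have hkP : k = a ∨ k = b := by
      simp only [hR, Finset.mem_erase] at hkR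
      tauto
    obtain ⟨j, rfl⟩ : ∃ j, k = s j := by
      rcases hkP with rfl | rfl
      exacts [⟨0, rfl⟩, ⟨1, rfl⟩]
    rw [hpow, hN, orth_two_pow hp 𝔉.two_ne hA]
    simp [Matrix.one_apply]

end CfsgLib.OrthMono17.Frame
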