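import Cfsg.Agent.OrthMono17.Frame

/-!
Sign changes, images of frame vectors, the involutions attached to them, and the three shapes of their
supports.
-/

set_option autoImplicit false
set_option linter.unusedSectionVars false

namespace CfsgLib.OrthMono17.Frame

open Cfsg.Geo Module CfsgLib.OrthGeo
open scoped Matrix MatrixGroups

variable {ι : Type} [Fintype ι] [DecidableEq ι] {F : Type*} [Field F]
variable {Q : (ι → F) → F} {κ : Type} [Fintype κ] [DecidableEq κ] (𝔉 : Frame Q κ)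
variable {K : Subgroup (GL ι F)} {J : Finset κ}

/-- The images of the frame vectors under the group. -/
def Orb (K : Subgroup (GL ι F)) (J : Finset κ) (v : ι → F) : Prop :=
  ∃ h ∈ K, ∃ i ∈ J, v = (h : Matrix ι ι F) *ᵥ 𝔉.basis i

/-- The support of a vector inside the index set. -/
noncomputable def supp (J : Finset κ) (v : ι → F) : Finset κ := by
  classical exact J.filter fun k => 𝔉.co v k ≠ 0

lemma mem_supp {v : ι → F} {k : κ} : k ∈ 𝔉.supp J v ↔ k ∈ J ∧ 𝔉.co v k ≠ 0 := by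
  classical simp [supp]

lemma supp_subset (v : ι → F) : 𝔉.supp J v ⊆ J := fun _ h => (𝔉.mem_supp.1 h).1

variable {𝔉}

lemma InS.co_eq_zero_of_not_supp {v : ι → F} (hv : 𝔉.InS J v) {k : κ} (h : k ∉ 𝔉.supp J v) : 𝔉.co v k = 0 := by
  by_contra h'
  by_cases hk : k ∈ J
  · exact h (𝔉.mem_supp.2 ⟨hk, h'⟩)
  · exact h' (hv k hk)

lemma InS.sum_sq_supp {v : ι → F} (hv : 𝔉.InS J v) :
    ∑ k ∈ 𝔉.supp J v, 𝔉.co v k ^ 2 = 𝔉.dot v v := by
  rw [dot, ← Finset.sum_subset (Finset.subset_univ (𝔉.supp J v))]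
  · exact Finset.sum_congr rfl fun k _ => sq _
  · exact fun k _ hk => by rw [hv.co_eq_zero_of_not_supp hk, zero_mul]

lemma InS.mono_supp {v : ι → F} (hv : 𝔉.InS J v) {P : Finset κ}
    (h : ∀ k ∈ J, k ∉ P → 𝔉.co v k = 0) : 𝔉.InS P v := fun k hk =>
  if hJ : k ∈ J then h k hJ hk else hv k hJ

/-- Sign changes at every subset of even size. -/
lemma Data.sgn_set (hD : 𝔉.Data K J) : ∀ (m : ℕ) (S : Finset κ), S ⊆ J → S.card = 2 * m → ∃ g ∈ K, ∀ k ∈ J,
    (g : Matrix ι ι F) *ᵥ 𝔉.basis k = (if k ∈ S then (-1 : F) else 1) • 𝔉.basis k := by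
  intro m
  induction m with
  | zero =>
    intro S _ hS
    refine ⟨1, one_mem _, fun k _ => ?_⟩
    rw [Finset.card_eq_zero.1 hS]
    simp
  | succ m ih =>
    intro S hSJ hS
    obtain ⟨a, ha, b, hb, hab⟩ := Finset.one_lt_card.1 (show 1 < S.card by omega)
    have hb' : b ∈ S.erase a := Finset.mem_erase.2 ⟨hab.symm, hb⟩
    obtain ⟨g, hg, hgk⟩ := ih ((S.erase a).erase b)
      ((Finset.erase_subset _ _).trans ((Finset.erase_subset _ _).trans hSJ))
      (by rw [Finset.card_erase_of_mem hb', Finset.card_erase_of_mem ha]; omega)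
    obtain ⟨s, hs, hsk⟩ := hD.sgn a (hSJ ha) b (hSJ hb) hab
    refine ⟨g * s, mul_mem hg hs, fun k hk => ?_⟩
    rw [Units.val_mul, ← Matrix.mulVec_mulVec, hsk k hk, Matrix.mulVec_smul, hgk k hk, smul_smul]
    congr 1
    by_cases h1 : k = a
    · subst h1; simp [ha]
    · by_cases h2 : k = b
      · subst h2; simp [hb, h1]
      · simp [h1, h2]

lemma Data.orb_basis (hD : 𝔉.Data K J) {i : κ} (hi : i ∈ J) : 𝔉.Orb K J (𝔉.basis i) :=
  ⟨1, one_mem _, i, hi, by simp⟩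

lemma Orb.inS (hD : 𝔉.Data K J) {v : ι → F} (hv : 𝔉.Orb K J v) : 𝔉.InS J v := by
  obtain ⟨h, hh, i, hi, rfl⟩ := hv
  exact hD.pres h hh _ (𝔉.inS_basis hi)

lemma Orb.dot_self (hD : 𝔉.Data K J) {v : ι → F} (hv : 𝔉.Orb K J v) : 𝔉.dot v v = 1 := by
  obtain ⟨h, hh, i, hi, rfl⟩ := hv
  rw [𝔉.dot_isometry (hD.iso hh)]
  simp

lemma Orb.map (hD : 𝔉.Data K J) {v : ι → F} (hv : 𝔉.Orb K J v) {g : GL ι F} (hg : g ∈ K) :
    𝔉.Orb K J ((g : Matrix ι ι F) *ᵥ v) := by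
  obtain ⟨h, hh, i, hi, rfl⟩ := hv
  exact ⟨g * h, mul_mem hg hh, i, hi, by rw [Units.val_mul, Matrix.mulVec_mulVec]⟩

/-- Even sign changes of an image of a frame vector are such images. -/
lemma Orb.flip (hD : 𝔉.Data K J) {v : ι → F} (hv : 𝔉.Orb K J v) {S : Finset κ} (hS : S ⊆ J)
    (hc : Even S.card) : ∃ w, 𝔉.Orb K J w ∧
      ∀ k, 𝔉.co w k = (if k ∈ S then -1 else 1) * 𝔉.co v k := by
  obtain ⟨m, hm⟩ := hc
  obtain ⟨g, hg, hgk⟩ := hD.sgn_set m S hS (by omega)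
  refine ⟨_, hv.map hD hg, fun k => ?_⟩
  have hvS := hv.inS hD
  by_cases hk : k ∈ J
  · exact co_mulVec_mono hvS (σ := id) (c := fun l => if l ∈ S then -1 else 1) hgk (fun _ _ _ _ h => h) hk
  · rw [(hD.pres g hg v hvS) k hk, hvS k hk, mul_zero]

/-- Three-cycles of the coordinates of an image of a frame vector give such images. -/
lemma Orb.cycle (hD : 𝔉.Data K J) {v : ι → F} (hv : 𝔉.Orb K J v) {a b c : κ} (ha : a ∈ J) (hb : b ∈ J)
    (hc : c ∈ J) (hab : a ≠ b) (hbc : b ≠ c) (hac : a ≠ c) : ∃ w, 𝔉.Orb K J w ∧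
      𝔉.co w b = 𝔉.co v a ∧ 𝔉.co w c = 𝔉.co v b ∧ 𝔉.co w a = 𝔉.co v c ∧
      ∀ k, k ≠ a → k ≠ b → k ≠ c → 𝔉.co w k = 𝔉.co v k := by
  obtain ⟨g, hg, hgk⟩ := hD.cyc a ha b hb c hc hab hbc hac
  refine ⟨_, hv.map hD hg, ?_⟩
  have hvS := hv.inS hD
  set f : κ → κ := fun k => if k = a then b else if k = b then c else if k = c then a else k with hf
  have finj : Function.Injective f := by
    intro x y hxy
    simp only [hf] at hxy
    grind
  have key : ∀ k ∈ J, 𝔉.co ((g : Matrix ι ι F) *ᵥ v) (f k) = 𝔉.co v k := fun k hk => by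
    rw [co_mulVec_mono hvS (σ := f) (c := fun _ => 1) (fun l hl => by rw [one_smul]; exact hgk l hl)
      finj.injOn hk, one_mul]
  refine ⟨?_, ?_, ?_, fun k h1 h2 h3 => ?_⟩
  · simpa [hf] using key a ha
  · simpa [hf, hab.symm] using key b hb
  · simpa [hf, hac.symm, hbc.symm] using key c hc
  · by_cases hk : k ∈ J
    · simpa [hf, h1, h2, h3] using key k hk
    · rw [(hD.pres g hg v hvS) k hk, hvS k hk]

/-- The involution with an image of a frame vector as its only fixed line. -/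
lemma Orb.refl_elt (hD : 𝔉.Data K J) (hodd : Odd J.card) {v : ι → F} (hv : 𝔉.Orb K J v) :
    ∃ y ∈ K, ∀ x, 𝔉.InS J x →
      (y : Matrix ι ι F) *ᵥ x = -x + (2 * 𝔉.dot v x) • v := by
  obtain ⟨h, hh, i, hi, rfl⟩ := hv
  obtain ⟨m, hm⟩ := hodd
  obtain ⟨e, he, hek⟩ := hD.sgn_set m (J.erase i) (Finset.erase_subset _ _)
    (by rw [Finset.card_erase_of_mem hi]; omega)
  refine ⟨h * e * h⁻¹, mul_mem (mul_mem hh he) (inv_mem hh), fun x hx => ?_⟩
  obtain ⟨x', hx', rfl⟩ : ∃ x', 𝔉.InS J x' ∧ x = (h : Matrix ι ι F) *ᵥ x' :=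
    ⟨_, hD.pres _ (inv_mem hh) x hx, (mulVec_inv_cancel h x).symm⟩
  have hdot : 𝔉.dot ((h : Matrix ι ι F) *ᵥ 𝔉.basis i) ((h : Matrix ι ι F) *ᵥ x') = 𝔉.co x' i := by
    rw [𝔉.dot_isometry (hD.iso hh), dot_basis_left]
  have hex : (e : Matrix ι ι F) *ᵥ x' = -x' + (2 * 𝔉.co x' i) • 𝔉.basis i := by
    refine InS.ext (hD.pres e he _ hx') (hx'.neg.add ((𝔉.inS_basis hi).smul _)) fun k hk => ?_
    have h1 := co_mulVec_mono hx' (σ := id) (c := fun l => if l ∈ J.erase i then -1 else 1) hek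
      (fun _ _ _ _ h => h) hk
    rw [id] at h1
    rw [h1]
    by_cases hki : k = i
    · subst hki; simp; ring
    · simp [hki, hk, co_basis_ne (h := Ne.symm hki)]
  rw [Units.val_mul, Units.val_mul, ← Matrix.mulVec_mulVec, ← Matrix.mulVec_mulVec, inv_mulVec_cancel, hex,
    Matrix.mulVec_add, Matrix.mulVec_neg, Matrix.mulVec_smul, hdot]

/-- The reflection images: applying the involution of one image to another gives an image. -/
lemma Orb.refl_image (hD : 𝔉.Data K J) (hodd : Odd J.card) {v w : ι → F} (hv : 𝔉.Orb K J v)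
    (hw : 𝔉.Orb K J w) : 𝔉.Orb K J (-w + (2 * 𝔉.dot v w) • v) := by
  obtain ⟨y, hy, hyx⟩ := hv.refl_elt hD hodd
  rw [← hyx w (hw.inS hD)]
  exact hw.map hD hy

/-- The centraliser hypothesis: members stabilising two frame vectors are monomial. -/
def CentMono (𝔉 : Frame Q κ) (K : Subgroup (GL ι F)) (J : Finset κ) : Prop :=
  ∀ a ∈ J, ∀ b ∈ J, a ≠ b → ∀ g ∈ 𝔉.cent K a b, 𝔉.Mono J g

/-- An image with two zero coordinates has support of size one, or of size two with both squares one half. -/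
lemma Orb.sparse (hD : 𝔉.Data K J) (hodd : Odd J.card) (hC : CentMono 𝔉 K J) {v : ι → F}
    (hv : 𝔉.Orb K J v) {a b : κ} (ha : a ∈ J) (hb : b ∈ J) (hab : a ≠ b) (hva : 𝔉.co v a = 0)
    (hvb : 𝔉.co v b = 0) {k l : κ} (hk : k ∈ 𝔉.supp J v) (hl : l ∈ 𝔉.supp J v) (hkl : k ≠ l) :
    2 * 𝔉.co v k ^ 2 = 1 ∧ ∀ m, m ≠ k → m ≠ l → 𝔉.co v m = 0 := by
  obtain ⟨y, hy, hyx⟩ := hv.refl_elt hD hodd
  have hvS := hv.inS hD
  have hpres : ∀ x, 𝔉.InS {a, b} x → (y : Matrix ι ι F) *ᵥ x = -x := by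
    intro x hx
    have hxJ : 𝔉.InS J x := hx.mono (pair_subset ha hb)
    have h0 : 𝔉.dot v x = 0 := by
      rw [dot_comm, hx.dot_eq, Finset.sum_pair hab, hva, hvb, mul_zero, mul_zero, add_zero]
    rw [hyx x hxJ, h0, mul_zero, zero_smul, add_zero]
  have hyC : y ∈ 𝔉.cent K a b := by
    refine mem_cent_of_pres hy (fun x hx => by rw [hpres x hx]; exact hx.neg) fun x hx => ?_
    have h1 : (y : Matrix ι ι F) *ᵥ (-x) = x := by rw [hpres _ hx.neg, neg_neg]
    rw [← h1, inv_mulVec_cancel]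
    exact hx.neg
  obtain ⟨hkJ, hk0⟩ := 𝔉.mem_supp.1 hk
  obtain ⟨hlJ, hl0⟩ := 𝔉.mem_supp.1 hl
  obtain ⟨j, hj, c, hc⟩ := hC a ha b hb hab y hyC k hkJ
  rw [hyx _ (𝔉.inS_basis hkJ), dot_basis_right] at hc
  have hcoord : ∀ m, (if k = m then (-1 : F) else 0) + 2 * 𝔉.co v k * 𝔉.co v m =
      if j = m then c else 0 := by
    intro m
    have := congrArg (fun x => 𝔉.co x m) hc
    simpa [co_basis, apply_ite (fun t : F => -t)] using this
  have h20 := mul_ne_zero 𝔉.two_ne hk0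
  have hjl : j = l := by
    by_contra hne
    have := hcoord l
    rw [if_neg hkl, if_neg hne, zero_add] at this
    exact mul_ne_zero h20 hl0 this
  subst hjl
  refine ⟨?_, fun m hmk hml => ?_⟩
  · have := hcoord k
    rw [if_pos rfl, if_neg (Ne.symm hkl)] at this
    linear_combination this
  · have := hcoord m
    rw [if_neg (Ne.symm hmk), if_neg (Ne.symm hml), zero_add] at this
    exact (mul_eq_zero.1 this).resolve_left h20

end CfsgLib.OrthMono17.Frame
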