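import Cfsg.Agent.OrthMono17.Dihedral

/-!
Two non-zero coordinates of an image of a frame vector have equal squares unless the rest of its support is
a pair with equal squares.
-/

set_option autoImplicit false
set_option linter.unusedSectionVars false

namespace CfsgLib.OrthMono17.Frame

open Cfsg.Geo Module CfsgLib.OrthGeo
open scoped Matrix MatrixGroups

variable {ι : Type} [Fintype ι] [DecidableEq ι] {F : Type*} [Field F] [Finite F]
variable {Q : (ι → F) → F} {κ : Type} [Fintype κ] [DecidableEq κ] {𝔉 : Frame Q κ}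
variable {K : Subgroup (GL ι F)} {J : Finset κ}

theorem Orb.pair_dichotomy (hD : 𝔉.Data K J) (hodd : Odd J.card) (hC : CentMono 𝔉 K J) {v : ι → F}
    (hv : 𝔉.Orb K J v) {a b k₀ l₀ : κ} (ha : a ∈ J) (hb : b ∈ J) (hab : a ≠ b)
    (hva : 𝔉.co v a ≠ 0) (hvb : 𝔉.co v b ≠ 0) (hk : k₀ ∈ 𝔉.supp J v) (hl : l₀ ∈ 𝔉.supp J v)
    (hkl : k₀ ≠ l₀) (hka : k₀ ≠ a) (hkb : k₀ ≠ b) (hla : l₀ ≠ a) (hlb : l₀ ≠ b) :
    𝔉.co v a ^ 2 = 𝔉.co v b ^ 2 ∨
      ((∀ n ∈ 𝔉.supp J v, n = a ∨ n = b ∨ n = k₀ ∨ n = l₀) ∧ 𝔉.co v k₀ ^ 2 = 𝔉.co v l₀ ^ 2) := by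
  classical
  obtain ⟨hkJ, hk0⟩ := 𝔉.mem_supp.1 hk
  obtain ⟨hlJ, hl0⟩ := 𝔉.mem_supp.1 hl
  have h2 := 𝔉.two_ne
  have hvS := hv.inS hD
  have hvv := hv.dot_self hD
  obtain ⟨t, ht, htk⟩ := hD.sgn a ha b hb hab
  obtain ⟨y, hy, hyx⟩ := hv.refl_elt hD hodd
  have hPJ : ({a, b} : Finset κ) ⊆ J := pair_subset ha hb
  have htco : ∀ x, 𝔉.InS J x → ∀ k, 𝔉.co ((t : Matrix ι ι F) *ᵥ x) k =
      (if k = a ∨ k = b then -1 else 1) * 𝔉.co x k := fun x hx k => by
    by_cases hkJ' : k ∈ J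
    · exact co_mulVec_mono hx (σ := id) (c := fun l => if l = a ∨ l = b then -1 else 1) htk
        (fun _ _ _ _ h => h) hkJ'
    · rw [(hD.pres t ht x hx) k hkJ', hx k hkJ', mul_zero]
  have htt : ∀ x, 𝔉.InS J x → (t : Matrix ι ι F) *ᵥ ((t : Matrix ι ι F) *ᵥ x) = x := fun x hx =>
    𝔉.ext_co fun k => by
      rw [htco _ (hD.pres t ht x hx), htco x hx]
      split_ifs <;> ring
  have hyy : ∀ x, 𝔉.InS J x → (y : Matrix ι ι F) *ᵥ ((y : Matrix ι ι F) *ᵥ x) = x := fun x hx => by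
    rw [hyx x hx, hyx _ (hx.neg.add (hvS.smul _))]
    simp only [dot_add_right, dot_neg_right, dot_smul_right, hvv]
    module
  have hnc : ∀ h ∈ K, ¬ ∀ x, 𝔉.InS J x → (y : Matrix ι ι F) *ᵥ ((h : Matrix ι ι F) *ᵥ x) =
      (h : Matrix ι ι F) *ᵥ ((t : Matrix ι ι F) *ᵥ x) := by
    intro h hh hcon
    have key : ∀ k ∈ J, k ≠ a → k ≠ b → ∃ c : F, c ≠ 0 ∧ (h : Matrix ι ι F) *ᵥ 𝔉.basis k = c • v := by
      intro k hk' hka' hkb'
      have hs := hD.pres h hh _ (𝔉.inS_basis hk')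
      have h1 := hcon _ (𝔉.inS_basis hk')
      rw [htk k hk', if_neg (fun h' => h'.elim hka' hkb'), one_smul, hyx _ hs] at h1
      set w := (h : Matrix ι ι F) *ᵥ 𝔉.basis k with hw
      have h3 : (2 : F) • w = (2 * 𝔉.dot v w) • v := by
        rw [two_smul]
        nth_rewrite 1 [← h1]
        abel
      have h4 : w = 𝔉.dot v w • v := by
        have := congrArg (fun z => (2 : F)⁻¹ • z) h3
        simpa [smul_smul, inv_mul_cancel₀ h2, ← mul_assoc] using this
      refine ⟨𝔉.dot v w, fun h0 => ?_, h4⟩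
      have h5 : 𝔉.dot w w = 1 := by rw [hw, 𝔉.dot_isometry (hD.iso hh)]; simp
      rw [h4, h0, zero_smul] at h5
      simp at h5
    obtain ⟨c, hc, hck⟩ := key k₀ hkJ hka hkb
    obtain ⟨c', hc', hcl⟩ := key l₀ hlJ hla hlb
    have h6 : (h : Matrix ι ι F) *ᵥ (c' • 𝔉.basis k₀) = (h : Matrix ι ι F) *ᵥ (c • 𝔉.basis l₀) := by
      rw [Matrix.mulVec_smul, Matrix.mulVec_smul, hck, hcl, smul_smul, smul_smul, mul_comm]
    have h7 := congrArg (fun z => ((h⁻¹ : GL ι F) : Matrix ι ι F) *ᵥ z) h6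
    simp only [inv_mulVec_cancel] at h7
    have h8 := congrArg (fun z => 𝔉.co z k₀) h7
    simp [co_basis_ne (h := hkl.symm), hc'] at h8
  obtain ⟨m, hmt, hmy, hmm, x₁, hx₁, hx₁z⟩ := exists_central hD ht hy htt hyy hnc
  set g := t * y with hg
  set z := g ^ m with hz
  have hzK : z ∈ K := pow_mem (mul_mem ht hy) m
  have hzp : ∀ x, 𝔉.InS J x → 𝔉.InS J ((z : Matrix ι ι F) *ᵥ x) := hD.pres z hzK
  have hzt : ∀ x, 𝔉.InS J x → (z : Matrix ι ι F) *ᵥ ((t : Matrix ι ι F) *ᵥ x) =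
      (t : Matrix ι ι F) *ᵥ ((z : Matrix ι ι F) *ᵥ x) := fun x hx => by
    have := hmt x hx
    rwa [Units.val_mul, Units.val_mul, ← Matrix.mulVec_mulVec, ← Matrix.mulVec_mulVec] at this
  have hzy : ∀ x, 𝔉.InS J x → (z : Matrix ι ι F) *ᵥ ((y : Matrix ι ι F) *ᵥ x) =
      (y : Matrix ι ι F) *ᵥ ((z : Matrix ι ι F) *ᵥ x) := fun x hx => by
    have := hmy x hx
    rwa [Units.val_mul, Units.val_mul, ← Matrix.mulVec_mulVec, ← Matrix.mulVec_mulVec] at this
  have hzz : ∀ x, 𝔉.InS J x → (z : Matrix ι ι F) *ᵥ ((z : Matrix ι ι F) *ᵥ x) = x := fun x hx => by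
    have := hmm x hx
    rwa [Units.val_mul, ← Matrix.mulVec_mulVec] at this
  set R := (J.erase a).erase b with hR
  have hRJ : R ⊆ J := (Finset.erase_subset _ _).trans (Finset.erase_subset _ _)
  have hmemR : ∀ k, k ∈ R ↔ k ∈ J ∧ k ≠ a ∧ k ≠ b := fun k => by
    simp only [hR, Finset.mem_erase]; tauto
  have htR : ∀ x, 𝔉.InS R x → (t : Matrix ι ι F) *ᵥ x = x := fun x hx => 𝔉.ext_co fun k => by
    rw [htco x (hx.mono hRJ)]
    split_ifs with h
    · rw [hx k fun h' => h.elim ((hmemR k).1 h').2.1 ((hmemR k).1 h').2.2]; ring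
    · ring
  have htP : ∀ x, 𝔉.InS {a, b} x → (t : Matrix ι ι F) *ᵥ x = -x := fun x hx => 𝔉.ext_co fun k => by
    rw [htco x (hx.mono hPJ), co_neg]
    split_ifs with h
    · ring
    · rw [hx k (by simpa using h)]; ring
  have hzP : ∀ x, 𝔉.InS {a, b} x → 𝔉.InS {a, b} ((z : Matrix ι ι F) *ᵥ x) := fun x hx k hk' => by
    have h1 := congrArg (fun w => 𝔉.co w k) (hzt x (hx.mono hPJ))
    simp only [htP x hx, Matrix.mulVec_neg, co_neg, htco _ (hzp x (hx.mono hPJ))] at h1
    have hk2 : ¬ (k = a ∨ k = b) := by simpa using hk'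
    rw [if_neg hk2, one_mul] at h1
    exact (mul_eq_zero.1 (show 2 * 𝔉.co ((z : Matrix ι ι F) *ᵥ x) k = 0 by linear_combination -h1)).resolve_left h2
  have hzR : ∀ x, 𝔉.InS R x → 𝔉.InS R ((z : Matrix ι ι F) *ᵥ x) := fun x hx k hk' => by
    by_cases hkJ' : k ∈ J
    · have h1 := congrArg (fun w => 𝔉.co w k) (hzt x (hx.mono hRJ))
      simp only [htR x hx, htco _ (hzp x (hx.mono hRJ))] at h1
      have hk2 : k = a ∨ k = b := by
        by_contra h'
        push Not at h'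
        exact hk' ((hmemR k).2 ⟨hkJ', h'.1, h'.2⟩)
      rw [if_pos hk2] at h1
      exact (mul_eq_zero.1 (show 2 * 𝔉.co ((z : Matrix ι ι F) *ᵥ x) k = 0 by linear_combination h1)).resolve_left h2
    · exact hzp x (hx.mono hRJ) k hkJ'
  have hzC : z ∈ 𝔉.cent K a b := mem_cent_of_pres hzK hzP fun x hx => by
    have h1 := hzz x (hx.mono hPJ)
    conv =>
      arg 3
      rw [← h1, inv_mulVec_cancel]
    exact hzP x hx
  have hMono := hC a ha b hb hab z hzC
  -- `z` fixes the line of `v`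
  set δ := 𝔉.dot v ((z : Matrix ι ι F) *ᵥ v) with hδ
  have hyv : (y : Matrix ι ι F) *ᵥ v = v := by rw [hyx v hvS, hvv]; module
  have hzv : (z : Matrix ι ι F) *ᵥ v = δ • v := by
    have h1 := hzy v hvS
    rw [hyv, hyx _ (hzp v hvS), ← hδ] at h1
    set w := (z : Matrix ι ι F) *ᵥ v
    have h3 : (2 : F) • w = (2 * δ) • v := by
      rw [two_smul]
      nth_rewrite 1 [h1]
      abel
    have := congrArg (fun x => (2 : F)⁻¹ • x) h3
    simpa [smul_smul, inv_mul_cancel₀ h2, ← mul_assoc] using this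
  set p := 𝔉.co v a • 𝔉.basis a + 𝔉.co v b • 𝔉.basis b with hp
  set w := 𝔉.co v b • 𝔉.basis a - 𝔉.co v a • 𝔉.basis b with hw
  set u := v - p with hu
  have hmemP : a ∈ ({a, b} : Finset κ) ∧ b ∈ ({a, b} : Finset κ) := by simp
  have hpP : 𝔉.InS {a, b} p := ((𝔉.inS_basis hmemP.1).smul _).add ((𝔉.inS_basis hmemP.2).smul _)
  have hwP : 𝔉.InS {a, b} w := ((𝔉.inS_basis hmemP.1).smul _).sub ((𝔉.inS_basis hmemP.2).smul _)
  have hpa : 𝔉.co p a = 𝔉.co v a := by simp [hp, co_basis_ne (h := hab.symm)]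
  have hpb : 𝔉.co p b = 𝔉.co v b := by simp [hp, co_basis_ne (h := hab)]
  have hwa : 𝔉.co w a = 𝔉.co v b := by simp [hw, co_basis_ne (h := hab.symm)]
  have hwb : 𝔉.co w b = -𝔉.co v a := by simp [hw, co_basis_ne (h := hab)]
  have hpk : ∀ k, k ≠ a → k ≠ b → 𝔉.co p k = 0 := fun k h1 h3 => by
    simp [hp, co_basis_ne (h := Ne.symm h1), co_basis_ne (h := Ne.symm h3)]
  have huR : 𝔉.InS R u := fun k hk' => by
    rw [hu, co_sub]
    by_cases h1 : k = a
    · rw [h1, hpa, sub_self]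
    by_cases h3 : k = b
    · rw [h3, hpb, sub_self]
    rw [hpk k h1 h3, sub_zero, hvS k fun h' => hk' ((hmemR k).2 ⟨h', h1, h3⟩)]
  have huk : ∀ k ∈ R, 𝔉.co u k = 𝔉.co v k := fun k hk' => by
    rw [hu, co_sub, hpk k ((hmemR k).1 hk').2.1 ((hmemR k).1 hk').2.2, sub_zero]
  have hkR : k₀ ∈ R := (hmemR _).2 ⟨hkJ, hka, hkb⟩
  have hlR : l₀ ∈ R := (hmemR _).2 ⟨hlJ, hla, hlb⟩
  have hu0 : u ≠ 0 := fun h => hk0 (by rw [← huk _ hkR, h, co_zero])
  have hsplit : (z : Matrix ι ι F) *ᵥ u - δ • u = δ • p - (z : Matrix ι ι F) *ᵥ p := by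
    rw [hu, Matrix.mulVec_sub, hzv]; module
  have hzu : (z : Matrix ι ι F) *ᵥ u = δ • u := by
    refine sub_eq_zero.1 (InS.ext ((hzR u huR).sub (huR.smul δ)) 𝔉.inS_zero fun k hk' => ?_)
    rw [hsplit, co_zero]
    exact ((hpP.smul δ).sub (hzP p hpP)) k (by simpa using ((hmemR k).1 hk').2)
  have hzpp : (z : Matrix ι ι F) *ᵥ p = δ • p := by
    have h' := hsplit
    rw [hzu, sub_self] at h'
    exact (sub_eq_zero.1 h'.symm).symm
  -- the rotation part
  set ε : F := (-1) ^ m with hε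
  have hεε : ε * ε = 1 := by rw [hε, ← mul_pow]; simp
  have hperp : ∀ x, 𝔉.InS R x → 𝔉.dot u x = 0 → (z : Matrix ι ι F) *ᵥ x = ε • x := by
    intro x hx hux
    have hvx : 𝔉.dot v x = 0 := by
      have hsum : v = u + p := by rw [hu]; abel
      rw [hsum, dot_add_left, hux, zero_add, hpP.dot_eq, Finset.sum_pair hab,
        hx a (fun h' => ((hmemR a).1 h').2.1 rfl), hx b (fun h' => ((hmemR b).1 h').2.2 rfl)]
      ring
    have h1 : (g : Matrix ι ι F) *ᵥ x = -x := by
      rw [hg, Units.val_mul, ← Matrix.mulVec_mulVec, hyx x (hx.mono hRJ), hvx, mul_zero, zero_smul, add_zero,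
        Matrix.mulVec_neg, htR x hx]
    have : ∀ n : ℕ, ((g ^ n : GL ι F) : Matrix ι ι F) *ᵥ x = ((-1 : F) ^ n) • x := by
      intro n
      induction n with
      | zero => simp
      | succ n ih =>
        rw [pow_succ, Units.val_mul, ← Matrix.mulVec_mulVec, h1, Matrix.mulVec_neg, ih, pow_succ]
        module
    exact this m
  have hzw : (z : Matrix ι ι F) *ᵥ w = w := by
    have hvw : 𝔉.dot v w = 0 := by simp [hw, dot_basis_right]; ring
    have h1 : (g : Matrix ι ι F) *ᵥ w = w := by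
      rw [hg, Units.val_mul, ← Matrix.mulVec_mulVec, hyx w (hwP.mono hPJ), hvw, mul_zero, zero_smul, add_zero,
        Matrix.mulVec_neg, htP w hwP, neg_neg]
    have : ∀ n : ℕ, ((g ^ n : GL ι F) : Matrix ι ι F) *ᵥ w = w := by
      intro n
      induction n with
      | zero => simp
      | succ n ih => rw [pow_succ, Units.val_mul, ← Matrix.mulVec_mulVec, h1, ih]
    exact this m
  by_cases hcase : 𝔉.dot u u ≠ 0 ∧ δ ≠ ε
  · -- a reflection on the rest
    right
    obtain ⟨huu, hne⟩ := hcase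
    have hd : δ - ε ≠ 0 := sub_ne_zero.2 hne
    have himg : ∀ k ∈ R, (z : Matrix ι ι F) *ᵥ 𝔉.basis k =
        ε • 𝔉.basis k + ((δ - ε) * 𝔉.co u k / 𝔉.dot u u) • u := by
      intro k hk'
      have h1 := hperp (𝔉.basis k - (𝔉.co u k / 𝔉.dot u u) • u)
        ((𝔉.inS_basis hk').sub (huR.smul _)) (by simp [div_mul_cancel₀ _ huu])
      rw [Matrix.mulVec_sub, Matrix.mulVec_smul, hzu, sub_eq_iff_eq_add] at h1
      rw [h1, smul_sub, smul_smul, smul_smul,
        show (δ - ε) * 𝔉.co u k / 𝔉.dot u u = 𝔉.co u k / 𝔉.dot u u * δ - ε * (𝔉.co u k / 𝔉.dot u u) by ring,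
        sub_smul]
      abel
    have hmain : ∀ k ∈ R, 𝔉.co u k ≠ 0 → ∀ l ∈ R, l ≠ k → 𝔉.co u l ≠ 0 →
        ε + (δ - ε) * 𝔉.co u k ^ 2 / 𝔉.dot u u = 0 ∧ ∀ n ∈ R, n ≠ k → 𝔉.co u n ≠ 0 → n = l := by
      intro k hk' huk' l hl' hlk' hul'
      obtain ⟨j, -, c, hc⟩ := hMono k (hRJ hk')
      rw [himg k hk'] at hc
      have hcoord : ∀ n, ε * (if k = n then 1 else 0) + (δ - ε) * 𝔉.co u k / 𝔉.dot u u * 𝔉.co u n =
          c * (if j = n then 1 else 0) := fun n => by
        simpa [co_basis] using congrArg (fun x => 𝔉.co x n) hc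
      have hoff : ∀ n, n ≠ k → 𝔉.co u n ≠ 0 → j = n := by
        intro n hn hun
        by_contra hjn
        have := hcoord n
        rw [if_neg (Ne.symm hn), if_neg hjn, mul_zero, zero_add, mul_zero] at this
        exact mul_ne_zero (div_ne_zero (mul_ne_zero hd huk') huu) hun this
      have hjl := hoff l hlk' hul'
      refine ⟨?_, fun n _ hn hun => (hoff n hn hun).symm.trans hjl⟩
      have := hcoord k
      rw [if_pos rfl, if_neg (hjl ▸ hlk'), mul_one, mul_zero] at this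
      rw [← this]; ring
    have huk₀ : 𝔉.co u k₀ ≠ 0 := by rwa [huk _ hkR]
    have hul₀ : 𝔉.co u l₀ ≠ 0 := by rwa [huk _ hlR]
    obtain ⟨e1, o1⟩ := hmain k₀ hkR huk₀ l₀ hlR hkl.symm hul₀
    obtain ⟨e2, -⟩ := hmain l₀ hlR hul₀ k₀ hkR hkl huk₀
    refine ⟨fun n hn => ?_, ?_⟩
    · obtain ⟨hnJ, hn0⟩ := 𝔉.mem_supp.1 hn
      by_cases h1 : n = a
      · exact Or.inl h1
      by_cases h3 : n = b
      · exact Or.inr (Or.inl h3)
      by_cases h4 : n = k₀
      · exact Or.inr (Or.inr (Or.inl h4))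
      have hnR : n ∈ R := (hmemR n).2 ⟨hnJ, h1, h3⟩
      exact Or.inr (Or.inr (Or.inr (o1 n hnR h4 (by rwa [huk _ hnR]))))
    · rw [← huk _ hkR, ← huk _ hlR]
      have h5 : (δ - ε) / 𝔉.dot u u * (𝔉.co u k₀ ^ 2 - 𝔉.co u l₀ ^ 2) = 0 := by
        linear_combination e1 - e2
      exact sub_eq_zero.1 ((mul_eq_zero.1 h5).resolve_left (div_ne_zero hd huu))
  · -- scalar on the rest, a reflection in the plane
    left
    have hδε : δ = ε := by
      by_cases huu : 𝔉.dot u u = 0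
      · have h1 := hperp u huR huu
        rw [hzu] at h1
        exact smul_left_injective F hu0 h1
      · exact not_not.1 fun h' => hcase ⟨huu, h'⟩
    have hscal : ∀ x, 𝔉.InS R x → (z : Matrix ι ι F) *ᵥ x = ε • x := by
      intro x hx
      by_cases huu : 𝔉.dot u u = 0
      · exact eq_smul_of_singular (hD.iso hzK) hzR hεε huR hu0 huu hperp x hx
      · have h1 := hperp (x - (𝔉.dot u x / 𝔉.dot u u) • u) (hx.sub (huR.smul _))
          (by simp [div_mul_cancel₀ _ huu])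
        rw [Matrix.mulVec_sub, Matrix.mulVec_smul, hzu, hδε, sub_eq_iff_eq_add] at h1
        rw [h1]
        module
    set s := 𝔉.co v a ^ 2 + 𝔉.co v b ^ 2 with hs
    have hnotone : ¬ (ε = 1 ∧ ∀ x, 𝔉.InS {a, b} x → (z : Matrix ι ι F) *ᵥ x = x) := by
      rintro ⟨he, hP⟩
      refine hx₁z (hx₁.mulVec_congr (B := 1) (fun k hk' => ?_) |>.trans (Matrix.one_mulVec _))
      rw [Matrix.one_mulVec]
      by_cases h1 : k = a ∨ k = b
      · exact hP _ (𝔉.inS_basis (by simpa using h1))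
      · push Not at h1
        rw [hscal _ (𝔉.inS_basis ((hmemR k).2 ⟨hk', h1.1, h1.2⟩)), he, one_smul]
    by_cases hs0 : s = 0
    · exfalso
      have hwp : w = (𝔉.co v b / 𝔉.co v a) • p := by
        refine InS.ext hwP (hpP.smul _) fun k hk' => ?_
        simp only [Finset.mem_insert, Finset.mem_singleton] at hk'
        rcases hk' with rfl | rfl
        · rw [hwa, co_smul, hpa, div_mul_cancel₀ _ hva]
        · rw [hwb, co_smul, hpb]; field_simp; linear_combination -hs0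
      have h1 := hzw
      rw [hwp, Matrix.mulVec_smul, hzpp, smul_smul] at h1
      have hp0 : p ≠ 0 := fun h' => hva (by rw [← hpa, h', co_zero])
      have h3 := smul_left_injective F hp0 h1
      have hδ1 : δ = 1 := by
        have hne : 𝔉.co v b / 𝔉.co v a ≠ 0 := div_ne_zero hvb hva
        exact mul_left_cancel₀ hne (by rw [mul_one]; exact h3)
      have he : ε = 1 := hδε.symm.trans hδ1
      refine hnotone ⟨he, fun x hx => ?_⟩
      have := eq_smul_of_singular (hD.iso hzK) hzP hεε hpP hp0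
        (by simp [hp, co_basis_ne (h := hab), co_basis_ne (h := hab.symm)]; linear_combination hs0)
        (fun y' hy' hpy => by
          have hy2 : y' = (𝔉.co y' a / 𝔉.co v a) • p := by
            rw [hpP.dot_eq, Finset.sum_pair hab, hpa, hpb] at hpy
            refine InS.ext hy' (hpP.smul _) fun k hk' => ?_
            simp only [Finset.mem_insert, Finset.mem_singleton] at hk'
            rcases hk' with rfl | rfl
            · rw [co_smul, hpa, div_mul_cancel₀ _ hva]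
            · rw [co_smul, hpb]
              field_simp
              refine mul_left_cancel₀ hvb ?_
              linear_combination 𝔉.co v a * hpy - 𝔉.co y' a * hs0
          rw [hy2, Matrix.mulVec_smul, hzpp, hδε, smul_comm]) x hx
      rw [this, he, one_smul]
    · have hfa : 𝔉.basis a = (𝔉.co v a / s) • p + (𝔉.co v b / s) • w := by
        refine InS.ext (𝔉.inS_basis hmemP.1) ((hpP.smul _).add (hwP.smul _)) fun k hk' => ?_
        simp only [Finset.mem_insert, Finset.mem_singleton] at hk'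
        rcases hk' with rfl | rfl
        · simp [hpa, hwa]; field_simp; linear_combination hs
        · simp [hpb, hwb, co_basis_ne (h := hab)]; ring
      by_cases he : ε = 1
      · exfalso
        refine hnotone ⟨he, fun x hx => ?_⟩
        have hfb : 𝔉.basis b = (𝔉.co v b / s) • p - (𝔉.co v a / s) • w := by
          refine InS.ext (𝔉.inS_basis hmemP.2) ((hpP.smul _).sub (hwP.smul _)) fun k hk' => ?_
          simp only [Finset.mem_insert, Finset.mem_singleton] at hk'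
          rcases hk' with rfl | rfl
          · simp [hpa, hwa, co_basis_ne (h := hab.symm)]; ring
          · simp [hpb, hwb]; field_simp; linear_combination hs
        refine (hx.mulVec_congr (B := 1) fun k hk' => ?_).trans (Matrix.one_mulVec _)
        rw [Matrix.one_mulVec]
        simp only [Finset.mem_insert, Finset.mem_singleton] at hk'
        rcases hk' with rfl | rfl
        · rw [hfa, Matrix.mulVec_add, Matrix.mulVec_smul, Matrix.mulVec_smul, hzpp, hzw, hδε, he, one_smul]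
        · rw [hfb, Matrix.mulVec_sub, Matrix.mulVec_smul, Matrix.mulVec_smul, hzpp, hzw, hδε, he, one_smul]
      · have he1 : ε = -1 := (mul_self_eq_one_iff.1 hεε).resolve_left he
        obtain ⟨j, -, c, hc⟩ := hMono a ha
        rw [hfa, Matrix.mulVec_add, Matrix.mulVec_smul, Matrix.mulVec_smul, hzpp, hzw, hδε, he1] at hc
        have hjb : j = b := by
          by_contra hjb
          have := congrArg (fun x => 𝔉.co x b) hc
          simp [hpb, hwb, co_basis_ne (h := hjb)] at this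
          refine mul_ne_zero (mul_ne_zero h2 hva) hvb ?_
          field_simp at this
          linear_combination -this
        have := congrArg (fun x => 𝔉.co x a) hc
        simp [hpa, hwa, co_basis_ne (h := (hjb ▸ hab.symm : j ≠ a))] at this
        field_simp at this
        linear_combination -this

end CfsgLib.OrthMono17.Frame
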