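import Cfsg.Agent.OrthMono17.Core
import Cfsg.Agent.OrthMono17.BaseThree
import Cfsg.Agent.OrthMono17.BaseFive

/-!
A non-monomial group with the even sign changes and three-cycles of an odd number of frame vectors contains
the root elements of three (five, over three elements) of them.
-/

set_option autoImplicit false
set_option linter.unusedSectionVars false

namespace CfsgLib.OrthMono17.Frame

open Cfsg.Geo Module CfsgLib.OrthGeo
open scoped Matrix MatrixGroups

variable {ι : Type} [Fintype ι] [DecidableEq ι] {F : Type*} [Field F] [Fintype F]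
variable {Q : (ι → F) → F} {κ : Type} [Fintype κ] [DecidableEq κ] {𝔉 : Frame Q κ}
variable {K : Subgroup (GL ι F)} {J : Finset κ}

lemma card_eq_three_of (hp : (Fintype.card F).Prime) (h : (3 : F) = 0) : Fintype.card F = 3 := by
  haveI : Fact (Fintype.card F).Prime := ⟨hp⟩
  haveI : CharP F (Fintype.card F) := charP_of_card_eq_prime rfl
  have h' : ((3 : ℕ) : F) = 0 := by exact_mod_cast h
  rw [CharP.cast_eq_zero_iff F (Fintype.card F)] at h'
  exact (Nat.prime_dvd_prime_iff_eq hp Nat.prime_three).1 h'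

/-- Root elements of a small part of the frame. -/
def Concl (𝔉 : Frame Q κ) (K : Subgroup (GL ι F)) (J : Finset κ) : Prop :=
  ∃ J₀ ⊆ J, (((3 : F) ≠ 0 ∧ J₀.card = 3) ∨ ((3 : F) = 0 ∧ J₀.card = 5)) ∧
    ∀ z w, 𝔉.InS J₀ z → 𝔉.InS J₀ w → 𝔉.dot z z = 0 → 𝔉.dot z w = 0 →
      ((3 : F) = 0 → 𝔉.dot w w = 1) → 𝔉.EJ K J z w

/-- Some pair of frame vectors has a stabiliser acting non-monomially on the others. -/
lemma Data.exists_bad_pair (hp : (Fintype.card F).Prime) (hD : 𝔉.Data K J) (hodd : Odd J.card)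
    (h5 : 5 ≤ J.card) (h53 : J.card = 5 → (3 : F) ≠ 0) (hnm : ¬ ∀ g ∈ K, 𝔉.Mono J g) :
    ∃ a ∈ J, ∃ b ∈ J, a ≠ b ∧ ¬ ∀ g ∈ 𝔉.cent K a b, 𝔉.Mono ((J.erase a).erase b) g := by
  classical
  have hCn : ¬ CentMono 𝔉 K J := fun hC => by
    refine hnm (mono_of_centMono hD hodd h5 hC h53 fun h3 x hx => ?_)
    have hq := card_eq_three_of hp h3
    by_cases hx0 : x = 0
    · subst hx0; simp at hx
    · have := FiniteField.pow_card_sub_one_eq_one x hx0
      rw [hq, show 3 - 1 = 2 from rfl, hx] at this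
      exact 𝔉.two_ne (by linear_combination -this)
  simp only [CentMono] at hCn
  push Not at hCn
  obtain ⟨a, ha, b, hb, hab, g, hg, hgn⟩ := hCn
  by_cases hR : ∀ h ∈ 𝔉.cent K a b, 𝔉.Mono ((J.erase a).erase b) h
  swap
  · exact ⟨a, ha, b, hb, hab, hR⟩
  obtain ⟨μ, hμ, hμM, hμg⟩ := hD.exists_correction ha hb hab hg (hR g hg)
  set g' := μ * g with hg'
  have hb' : b ∈ J.erase a := Finset.mem_erase.2 ⟨hab.symm, hb⟩
  have hcard : ((J.erase a).erase b).card = J.card - 2 := by
    rw [Finset.card_erase_of_mem hb', Finset.card_erase_of_mem ha]; omega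
  obtain ⟨c, hc, d, hd, hcd⟩ := Finset.one_lt_card.1 (show 1 < ((J.erase a).erase b).card by omega)
  have hg'K : g' ∈ K := (mul_mem hμ hg).1
  have hfix : ∀ k ∈ (J.erase a).erase b, (g' : Matrix ι ι F) *ᵥ 𝔉.basis k = 𝔉.basis k := hμg
  have hg'C : g' ∈ 𝔉.cent K c d := mem_cent_of_images hg'K
    (by rw [hfix c hc]; exact 𝔉.inS_basis (by simp)) (by rw [hfix d hd]; exact 𝔉.inS_basis (by simp))
  simp only [Finset.mem_erase] at hc hd
  refine ⟨c, hc.2.2, d, hd.2.2, hcd, fun hall => hgn ?_⟩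
  have hM' : 𝔉.Mono J g' := fun i hi => by
    by_cases hiR : i ∈ (J.erase a).erase b
    · exact ⟨i, hi, 1, by rw [hfix i hiR, one_smul]⟩
    · have hi' : i ∈ (J.erase c).erase d := by
        simp only [Finset.mem_erase] at hiR ⊢
        refine ⟨?_, ?_, hi⟩ <;> rintro rfl <;> exact hiR ⟨by tauto, by tauto, hi⟩
      obtain ⟨j, hj, e, he⟩ := hall g' hg'C i hi'
      exact ⟨j, Finset.mem_of_mem_erase (Finset.mem_of_mem_erase hj), e, he⟩
  have := hμM.inv.mul hM'
  rwa [hg', inv_mul_cancel_left] at this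

theorem concl_of_not_mono (hp : (Fintype.card F).Prime) : ∀ (n : ℕ) (K : Subgroup (GL ι F)) (J : Finset κ),
    J.card = n → 𝔉.Data K J → Odd n → 5 ≤ n → (n = 5 → (3 : F) ≠ 0) → (¬ ∀ g ∈ K, 𝔉.Mono J g) →
      Concl 𝔉 K J := by
  classical
  intro n
  induction n using Nat.strong_induction_on with
  | _ n ih =>
    intro K J hn hD hodd h5 h53 hnm
    obtain ⟨a, ha, b, hb, hab, hbad⟩ :=
      hD.exists_bad_pair hp (hn ▸ hodd) (by omega) (fun h => h53 (hn ▸ h)) hnm
    obtain ⟨hD', hF'⟩ := hD.cent_data ha hb hab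
    set R := (J.erase a).erase b with hR
    have hb' : b ∈ J.erase a := Finset.mem_erase.2 ⟨hab.symm, hb⟩
    have hRc : R.card = n - 2 := by
      rw [hR, Finset.card_erase_of_mem hb', Finset.card_erase_of_mem ha]; omega
    have hRJ : R ⊆ J := (Finset.erase_subset _ _).trans (Finset.erase_subset _ _)
    obtain ⟨k, hk⟩ := hodd
    have hsub : Concl 𝔉 (𝔉.cent K a b) R := by
      by_cases h3 : (3 : F) = 0
      · have hn5 : n ≠ 5 := fun h => h53 h h3
        by_cases h7 : n = 7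
        · refine ⟨R, subset_rfl, Or.inr ⟨h3, by omega⟩, fun z w hz hw hzz hzw hww => ?_⟩
          exact base_five (card_eq_three_of hp h3) (by omega) hD' hF' hbad z w hz hw hzz hzw (hww h3)
        · exact ih (n - 2) (by omega) _ R hRc hD' ⟨k - 1, by omega⟩ (by omega) (fun h => by omega) hbad
      · by_cases h5' : n = 5
        · refine ⟨R, subset_rfl, Or.inl ⟨h3, by omega⟩, fun z w hz hw hzz hzw _ => ?_⟩
          exact base_three hp h3 (by omega) hD' hF' hbad z w hz hw hzz hzw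
        · exact ih (n - 2) (by omega) _ R hRc hD' ⟨k - 1, by omega⟩ (by omega) (fun _ => h3) hbad
    obtain ⟨J₀, hJ₀, hcase, hEJ⟩ := hsub
    refine ⟨J₀, hJ₀.trans hRJ, hcase, fun z w hz hw hzz hzw hww => ?_⟩
    have h2 := 𝔉.two_ne
    have h := hEJ z ((-2 : F)⁻¹ • w) hz (hw.smul _) hzz (by rw [dot_smul_right, hzw, mul_zero]) (fun h3 => by
      rw [dot_smul_left, dot_smul_right, hww h3, show (-2 : F) = 1 by linear_combination -h3, inv_one]
      ring)
    have := hD.lift_EJ hp ha hb hab (hz.mono hJ₀) ((hw.smul _).mono hJ₀) hzz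
      (by rw [dot_smul_right, hzw, mul_zero]) h
    rwa [smul_smul, mul_inv_cancel₀ (neg_ne_zero.2 h2), one_smul] at this

end CfsgLib.OrthMono17.Frame
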