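import Cfsg.Agent.OrthMono17.RotCount
import Mathlib.LinearAlgebra.CrossProduct
import Mathlib.LinearAlgebra.Matrix.Determinant.Basic
import Mathlib.LinearAlgebra.Matrix.ToLinearEquiv
import Mathlib.LinearAlgebra.Matrix.ToLin
import Mathlib.LinearAlgebra.Dimension.Constructions
import Mathlib.LinearAlgebra.Matrix.CharP

/-!
The axes of the elements of a group of three dimensional rotations of order prime to the characteristic.
-/

set_option autoImplicit false
set_option linter.unusedSectionVars false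

namespace CfsgLib.OrthMono17.Rot

open scoped Matrix MatrixGroups

variable {F : Type*} [Field F]

lemma cross_mulVec (A : Matrix (Fin 3) (Fin 3) F) (u v : Fin 3 → F) :
    crossProduct (A *ᵥ u) (A *ᵥ v) = (Matrix.adjugate A)ᵀ *ᵥ crossProduct u v := by
  ext i
  fin_cases i <;>
    simp [cross_apply, Matrix.adjugate_fin_three, Matrix.mulVec, dotProduct, Fin.sum_univ_three] <;> ring

/-- Orthogonal with determinant one. -/
def IsRot (A : Matrix (Fin 3) (Fin 3) F) : Prop := Aᵀ * A = 1 ∧ A.det = 1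

lemma IsRot.adjugate {A : Matrix (Fin 3) (Fin 3) F} (hA : IsRot A) : (Matrix.adjugate A)ᵀ = A := by
  have h : Matrix.adjugate A = Aᵀ := by
    calc Matrix.adjugate A = (Aᵀ * A) * Matrix.adjugate A := by rw [hA.1, one_mul]
      _ = Aᵀ := by rw [mul_assoc, Matrix.mul_adjugate, hA.2, one_smul, mul_one]
  rw [h, Matrix.transpose_transpose]

lemma IsRot.dot {A : Matrix (Fin 3) (Fin 3) F} (hA : IsRot A) (u v : Fin 3 → F) :
    (A *ᵥ u) ⬝ᵥ (A *ᵥ v) = u ⬝ᵥ v := by
  rw [Matrix.dotProduct_mulVec, Matrix.vecMul_mulVec, hA.1, Matrix.vecMul_one]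

lemma IsRot.cross {A : Matrix (Fin 3) (Fin 3) F} (hA : IsRot A) (u v : Fin 3 → F) :
    crossProduct (A *ᵥ u) (A *ᵥ v) = A *ᵥ crossProduct u v := by
  rw [cross_mulVec, hA.adjugate]

lemma exists_fixed {A : Matrix (Fin 3) (Fin 3) F} (hA : IsRot A) (h2 : (2 : F) ≠ 0) :
    ∃ x : Fin 3 → F, x ≠ 0 ∧ A *ᵥ x = x := by
  have h : (A - 1).det = 0 := by
    have h1 : (A - 1) = -((A - 1)ᵀ * A) := by
      rw [Matrix.transpose_sub, Matrix.transpose_one, sub_mul, hA.1, one_mul, neg_sub]
    have h2' : (A - 1).det = -(A - 1).det := by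
      conv_lhs => rw [h1]
      rw [Matrix.det_neg, Matrix.det_mul, Matrix.det_transpose, hA.2, Fintype.card_fin]
      ring
    exact (mul_eq_zero.1 (show (2 : F) * (A - 1).det = 0 by linear_combination h2')).resolve_left h2
  obtain ⟨x, hx, hx'⟩ := Matrix.exists_mulVec_eq_zero_iff.2 h
  exact ⟨x, hx, by rwa [Matrix.sub_mulVec, Matrix.one_mulVec, sub_eq_zero] at hx'⟩

/-- A unipotent rotation is killed by the characteristic. -/
lemma pow_char_eq_one {p : ℕ} [CharP F p] (hp : p.Prime) (hp3 : 3 ≤ p) {A : Matrix (Fin 3) (Fin 3) F}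
    (h : (A - 1) ^ 3 = 0) : A ^ p = 1 := by
  haveI : Fact p.Prime := ⟨hp⟩
  haveI : CharP (Matrix (Fin 3) (Fin 3) F) p := inferInstance
  haveI : ExpChar (Matrix (Fin 3) (Fin 3) F) p := ExpChar.prime hp
  have h1 : ((A - 1) + 1) ^ p = (A - 1) ^ p + 1 := by
    rw [add_pow_expChar_of_commute _ (Commute.one_right (A - 1)), one_pow]
  rw [sub_add_cancel] at h1
  rw [h1, show p = 3 + (p - 3) by omega, pow_add, h, zero_mul, zero_add]

lemma eq_smul_of_cross_eq_zero {x z : Fin 3 → F} (hx0 : x ≠ 0) (h : crossProduct x z = 0) :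
    ∃ c : F, z = c • x := by
  obtain ⟨i, hi⟩ : ∃ i, x i ≠ 0 := by
    by_contra h'
    push Not at h'
    exact hx0 (funext h')
  refine ⟨z i / x i, funext fun j => ?_⟩
  rw [Pi.smul_apply, smul_eq_mul, div_mul_eq_mul_div, eq_div_iff hi]
  rw [cross_apply] at h
  have e0 : x 1 * z 2 - x 2 * z 1 = 0 := congrFun h 0
  have e1 : x 2 * z 0 - x 0 * z 2 = 0 := congrFun h 1
  have e2 : x 0 * z 1 - x 1 * z 0 = 0 := congrFun h 2
  fin_cases i <;> fin_cases j <;> simp only [Fin.mk_one, Fin.reduceFinMk, Fin.zero_eta]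
  all_goals first
    | linear_combination e0
    | linear_combination e1
    | linear_combination e2
    | linear_combination -e0
    | linear_combination -e1
    | linear_combination -e2
    | ring

/-- The vectors perpendicular to two independent ones. -/
lemma eq_smul_cross {u v : Fin 3 → F} (h : crossProduct u v ≠ 0) {w : Fin 3 → F} (hu : u ⬝ᵥ w = 0)
    (hv : v ⬝ᵥ w = 0) : ∃ c : F, w = c • crossProduct u v := by
  set n := crossProduct u v with hn
  have hz : crossProduct n w = 0 := by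
    ext i
    fin_cases i <;> simp [hn, cross_apply, dotProduct, Fin.sum_univ_three] at hu hv ⊢
    · linear_combination v 0 * hu - u 0 * hv
    · linear_combination v 1 * hu - u 1 * hv
    · linear_combination v 2 * hu - u 2 * hv
  exact eq_smul_of_cross_eq_zero h hz

/-- A rotation fixing a singular vector, or two independent vectors, is unipotent. -/
lemma unipotent_of_fixed (h2 : (2 : F) ≠ 0) {A : Matrix (Fin 3) (Fin 3) F} (hA : IsRot A) {x : Fin 3 → F}
    (hx : A *ᵥ x = x) (h : (x ≠ 0 ∧ x ⬝ᵥ x = 0) ∨ ∃ y, A *ᵥ y = y ∧ crossProduct x y ≠ 0) :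
    (A - 1) ^ 3 = 0 := by
  have hD : ∀ y, (A - 1) *ᵥ y = A *ᵥ y - y := fun y => by rw [Matrix.sub_mulVec, Matrix.one_mulVec]
  have himg : ∀ {f : Fin 3 → F}, A *ᵥ f = f → ∀ y, f ⬝ᵥ ((A - 1) *ᵥ y) = 0 := fun {f} hf y => by
    have := hA.dot f y
    rw [hf] at this
    rw [hD, dotProduct_sub, this, sub_self]
  refine Matrix.ext_of_mulVec_single fun i => ?_
  generalize (Pi.single i 1 : Fin 3 → F) = y
  rw [pow_succ, sq, ← Matrix.mulVec_mulVec, ← Matrix.mulVec_mulVec, Matrix.zero_mulVec]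
  rcases h with ⟨hx0, hxx⟩ | ⟨f, hf, hc⟩
  · have key : ∀ z, x ⬝ᵥ z = 0 → ∃ c : F, (A - 1) *ᵥ z = c • x := by
      intro z hz
      by_cases hxz : crossProduct x z = 0
      · obtain ⟨c, hc⟩ := eq_smul_of_cross_eq_zero hx0 hxz
        refine ⟨0, ?_⟩
        rw [hD, hc, Matrix.mulVec_smul, hx, sub_self, zero_smul]
      · obtain ⟨ν, hν⟩ := eq_smul_cross hxz hxx (by rw [dotProduct_comm]; exact hz)
        have hν0 : ν ≠ 0 := fun h0 => hx0 (by rw [hν, h0, zero_smul])
        have hAc : A *ᵥ crossProduct x z = crossProduct x z := by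
          have h' := congrArg (fun t => A *ᵥ t) hν
          simp only [hx, Matrix.mulVec_smul] at h'
          exact smul_right_injective _ hν0 (h'.symm.trans hν)
        have hc1 : crossProduct x ((A - 1) *ᵥ z) = 0 := by
          rw [hD, map_sub]
          conv_lhs =>
            arg 1
            rw [← hx]
          rw [hA.cross, hAc, sub_self]
        exact eq_smul_of_cross_eq_zero hx0 hc1
    obtain ⟨c, hc⟩ := key _ (himg hx y)
    rw [hc, Matrix.mulVec_smul, hD, hx, sub_self, smul_zero]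
  · have key : ∀ z, ∃ c : F, (A - 1) *ᵥ z = c • crossProduct x f := fun z =>
      eq_smul_cross hc (himg hx z) (himg hf z)
    have hfix : (A - 1) *ᵥ crossProduct x f = 0 := by
      conv_lhs => rw [hD, ← hA.cross, hx, hf, sub_self]
    obtain ⟨c, hc'⟩ := key y
    rw [hc', Matrix.mulVec_smul, hfix, smul_zero, Matrix.mulVec_zero]

end CfsgLib.OrthMono17.Rot
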