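import Mathlib.GroupTheory.GroupAction.Quotient
import Mathlib.LinearAlgebra.Matrix.GeneralLinearGroup.Defs
import Mathlib.LinearAlgebra.Matrix.NonsingularInverse
import Mathlib.GroupTheory.Perm.Cycle.Type
import Mathlib.Algebra.CharP.Lemmas
import Mathlib.FieldTheory.Finite.Basic

/-!
A finite group of three dimensional rotations containing the signed permutations and without elements of
order the characteristic consists of the signed permutations: the count of the rotation axes.
-/

set_option autoImplicit false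
set_option linter.unusedSectionVars false

namespace CfsgLib.OrthMono17.Rot

open scoped Matrix MatrixGroups

/-- The possible shapes of a count of axes: a distinguished axis with a rotation of order four forces
twenty-four. -/
lemma count_arith {N k₁ : ℕ} (hk₁ : 4 ∣ k₁) (hk₁0 : 0 < k₁) (hN : 4 * k₁ ≤ N) {α : Type*} [DecidableEq α]
    (T : Finset α) (k s : α → ℕ) (hk : ∀ i ∈ T, 2 ≤ k i) (hs : ∀ i ∈ T, s i = k i ∨ s i = 2 * k i)
    (hsum : ((k₁ : ℚ) - 1) / (2 * k₁) + ∑ i ∈ T, ((k i : ℚ) - 1) / s i = 1 - 1 / N) : N = 24 := by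
  classical
  obtain ⟨l, rfl⟩ := hk₁
  have hl : 1 ≤ l := by omega
  have hlQ : (1 : ℚ) ≤ l := by exact_mod_cast hl
  have hNQ : (16 : ℚ) * l ≤ N := by exact_mod_cast (show 16 * l ≤ N by omega)
  have hN0 : (0 : ℚ) < N := by linarith
  have hkQ : ∀ i ∈ T, (2 : ℚ) ≤ k i := fun i hi => by exact_mod_cast hk i hi
  have ht : ∀ i ∈ T, (s i = 2 * k i ∧ (1 / 4 : ℚ) ≤ ((k i : ℚ) - 1) / s i ∧
      ((k i : ℚ) - 1) / s i = 1 / 2 - 1 / (2 * k i)) ∨
      (s i = k i ∧ (1 / 2 : ℚ) ≤ ((k i : ℚ) - 1) / s i ∧ (3 ≤ k i → (2 / 3 : ℚ) ≤ ((k i : ℚ) - 1) / s i) ∧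
        (k i = 2 → ((k i : ℚ) - 1) / s i = 1 / 2)) := by
    intro i hi
    have h2 := hkQ i hi
    rcases hs i hi with h | h
    · right
      rw [h]
      refine ⟨rfl, by rw [le_div_iff₀ (by linarith)]; linarith, fun h3 => ?_, fun h3 => by rw [h3]; norm_num⟩
      have : (3 : ℚ) ≤ k i := by exact_mod_cast h3
      rw [le_div_iff₀ (by linarith)]; linarith
    · left
      rw [h]
      push_cast
      refine ⟨rfl, by rw [le_div_iff₀ (by linarith)]; linarith, ?_⟩
      field_simp
  have hlow : ∀ i ∈ T, (1 / 4 : ℚ) ≤ ((k i : ℚ) - 1) / s i := fun i hi => by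
    rcases ht i hi with h | h <;> linarith [h.2.1]
  -- the remaining sum lies strictly between one half and five eighths
  have hR : ∑ i ∈ T, ((k i : ℚ) - 1) / s i = 1 / 2 + 1 / (8 * l) - 1 / N := by
    push_cast at hsum
    have : (4 * (l : ℚ) - 1) / (2 * (4 * l)) = 1 / 2 - 1 / (8 * l) := by field_simp; ring
    linarith [hsum]
  have h8 : 1 / (8 * (l : ℚ)) ≤ 1 / 8 := by
    rw [div_le_div_iff₀ (by linarith) (by norm_num)]; linarith
  have hNl : 1 / (N : ℚ) ≤ 1 / (16 * l) := by
    rw [div_le_div_iff₀ hN0 (by linarith)]; linarith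
  have hl16 : 1 / (8 * (l : ℚ)) = 2 * (1 / (16 * l)) := by field_simp; ring
  have hN' : 0 < 1 / (N : ℚ) := by positivity
  have hl16' : 0 < 1 / (16 * (l : ℚ)) := by positivity
  rcases Nat.lt_or_ge T.card 3 with hc | hc
  swap
  · exfalso
    have := Finset.card_nsmul_le_sum T (fun i => ((k i : ℚ) - 1) / s i) (1 / 4) hlow
    rw [nsmul_eq_mul] at this
    have : (3 : ℚ) ≤ T.card := by exact_mod_cast hc
    nlinarith
  interval_cases hT : T.card
  · rw [Finset.card_eq_zero.1 hT, Finset.sum_empty] at hR
    linarith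
  · obtain ⟨i, rfl⟩ := Finset.card_eq_one.1 hT
    rw [Finset.sum_singleton] at hR
    have h2 := hkQ i (Finset.mem_singleton_self i)
    rcases ht i (Finset.mem_singleton_self i) with ⟨-, -, h⟩ | ⟨-, -, h3, h2'⟩
    · have : 0 < 1 / (2 * (k i : ℚ)) := by positivity
      linarith
    · rcases Nat.lt_or_ge (k i) 3 with h' | h'
      · have := h2' (by have := hk i (Finset.mem_singleton_self i); omega)
        linarith
      · linarith [h3 h']
  · obtain ⟨i, j, hij, rfl⟩ := Finset.card_eq_two.1 hT
    rw [Finset.sum_pair hij] at hR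
    have hi : i ∈ ({i, j} : Finset α) := by simp
    have hj : j ∈ ({i, j} : Finset α) := by simp
    have l1 := hlow i hi
    have l2 := hlow j hj
    rcases ht i hi with ⟨-, -, e1⟩ | ⟨-, e1, -, -⟩
    swap
    · linarith
    rcases ht j hj with ⟨-, -, e2⟩ | ⟨-, e2, -, -⟩
    swap
    · linarith
    rw [e1, e2] at hR
    have hsum2 : (1 : ℚ) / k i + 1 / k j = 1 - 1 / (4 * l) + 2 / N := by
      have a1 : 1 / (2 * (k i : ℚ)) = 1 / 2 * (1 / k i) := by field_simp
      have a2 : 1 / (2 * (k j : ℚ)) = 1 / 2 * (1 / k j) := by field_simp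
      have a3 : 1 / (8 * (l : ℚ)) = 1 / 2 * (1 / (4 * l)) := by field_simp; ring
      have a4 : 2 / (N : ℚ) = 2 * (1 / N) := by field_simp
      linarith
    have h4l : 1 / (4 * (l : ℚ)) ≤ 1 / 4 := by
      rw [div_le_div_iff₀ (by linarith) (by norm_num)]; linarith
    have hpos : 0 < 2 / (N : ℚ) := by positivity
    -- the two orders are two and three
    have main : ∀ a b : ℕ, 2 ≤ a → a ≤ b → (1 : ℚ) / a + 1 / b = 1 - 1 / (4 * l) + 2 / N → N = 24 := by
      intro a b ha hab h
      have haQ : (a : ℚ) ≤ b := by exact_mod_cast hab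
      have ha2 : (2 : ℚ) ≤ a := by exact_mod_cast ha
      rcases Nat.lt_or_ge a 3 with h3 | h3
      · obtain rfl : a = 2 := by omega
        rcases Nat.lt_or_ge b 4 with hb | hb
        · interval_cases b
          · exfalso
            push_cast at h
            have : 2 / (N : ℚ) = 1 / (4 * l) := by linarith
            rw [div_eq_div_iff hN0.ne' (by positivity)] at this
            linarith
          · push_cast at h
            have h' : 2 / (N : ℚ) = 1 / (4 * l) - 1 / 6 := by linarith
            rcases Nat.lt_or_ge l 2 with hl2 | hl2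
            · obtain rfl : l = 1 := by omega
              push_cast at h'
              norm_num at h'
              field_simp at h'
              have : (N : ℚ) = 24 := by linarith
              exact_mod_cast this
            · exfalso
              have : (2 : ℚ) ≤ l := by exact_mod_cast hl2
              have : 1 / (4 * (l : ℚ)) ≤ 1 / 8 := by
                rw [div_le_div_iff₀ (by linarith) (by norm_num)]; linarith
              linarith
        · exfalso
          have : (4 : ℚ) ≤ b := by exact_mod_cast hb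
          have : (1 : ℚ) / b ≤ 1 / 4 := by
            rw [div_le_div_iff₀ (by linarith) (by norm_num)]; linarith
          push_cast at h
          linarith
      · exfalso
        have h3Q : (3 : ℚ) ≤ a := by exact_mod_cast h3
        have e3 : (1 : ℚ) / a ≤ 1 / 3 := by
          rw [div_le_div_iff₀ (by linarith) (by norm_num)]; linarith
        have e4 : (1 : ℚ) / b ≤ 1 / 3 := by
          rw [div_le_div_iff₀ (by linarith) (by norm_num)]; linarith
        linarith
    rcases le_total (k i) (k j) with h | h
    · exact main _ _ (hk i hi) h hsum2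
    · exact main _ _ (hk j hj) h (by linarith)

end CfsgLib.OrthMono17.Rot
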