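import Cfsg.Agent.OrthMono17.Recursion

/-!
A non-monomial group of isometries with the even sign changes and three-cycles of a whole frame of odd size
contains the commutator subgroup of the isometry group.
-/

set_option autoImplicit false
set_option linter.unusedSectionVars false

namespace CfsgLib.OrthMono17.Frame

open Cfsg.Geo Module CfsgLib.OrthGeo
open scoped Matrix MatrixGroups

variable {ι : Type} [Fintype ι] [DecidableEq ι] {F : Type*} [Field F] [Fintype F]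
variable {Q : (ι → F) → F} {κ : Type} [Fintype κ] [DecidableEq κ] {𝔉 : Frame Q κ}
variable {H : Subgroup (GL ι F)}

/-- All allowed root elements of a set of frame vectors lie in the group. -/
def Good (𝔉 : Frame Q κ) (H : Subgroup (GL ι F)) (S : Finset κ) : Prop :=
  ∀ z w, 𝔉.InS S z → 𝔉.InS S w → 𝔉.dot z z = 0 → 𝔉.dot z w = 0 →
    ((3 : F) = 0 → 𝔉.dot w w = 1) → EIn Q H z w

lemma eIn_conj {z w : ι → F} {g : GL ι F} (hg : g ∈ H) (hgI : g ∈ Cfsg.isometryGroup F Q)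
    (hzz : 𝔉.dot z z = 0) (hzw : 𝔉.dot z w = 0) (h : EIn Q H z w) :
    EIn Q H ((g : Matrix ι ι F) *ᵥ z) ((g : Matrix ι ι F) *ᵥ w) :=
  h.conj 𝔉.nondeg (by rw [𝔉.q_eq, hzz, mul_zero]) (by rw [𝔉.bform_eq, hzw, mul_zero]) hg hgI

lemma eIn_add {z w w' : ι → F} (hzz : 𝔉.dot z z = 0) (hzw : 𝔉.dot z w = 0) (hzw' : 𝔉.dot z w' = 0)
    (h : EIn Q H z w) (h' : EIn Q H z w') : EIn Q H z (w + w') :=
  h.add 𝔉.nondeg h' (by rw [𝔉.q_eq, hzz, mul_zero]) (by rw [𝔉.bform_eq, hzw, mul_zero])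
    (by rw [𝔉.bform_eq, hzw', mul_zero])

lemma eIn_zero (z : ι → F) (hQ : IsNondegenerateQuadraticForm Q) : EIn Q H z 0 :=
  ⟨1, one_mem _, by rw [eichlerMat_zero hQ]; rfl⟩

lemma eIn_smul (hp : (Fintype.card F).Prime) {z w : ι → F} (hzz : 𝔉.dot z z = 0) (hzw : 𝔉.dot z w = 0)
    (h : EIn Q H z w) (c : F) : EIn Q H z (c • w) := by
  obtain ⟨n, rfl⟩ := exists_natCast hp c
  induction n with
  | zero => rw [Nat.cast_zero, zero_smul]; exact eIn_zero z 𝔉.nondeg
  | succ n ih =>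
    rw [Nat.cast_succ, add_smul, one_smul]
    exact eIn_add hzz (by rw [dot_smul_right, hzw, mul_zero]) hzw ih h

lemma eIn_sum {z : ι → F} (hzz : 𝔉.dot z z = 0) {α : Type*} (s : Finset α) (f : α → ι → F)
    (h : ∀ a ∈ s, 𝔉.dot z (f a) = 0 ∧ EIn Q H z (f a)) :
    𝔉.dot z (∑ a ∈ s, f a) = 0 ∧ EIn Q H z (∑ a ∈ s, f a) := by
  classical
  induction s using Finset.induction with
  | empty => simpa using eIn_zero z 𝔉.nondeg
  | @insert a s ha ih =>
    obtain ⟨h1, h2⟩ := h a (Finset.mem_insert_self _ _)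
    obtain ⟨h3, h4⟩ := ih fun b hb => h b (Finset.mem_insert_of_mem hb)
    rw [Finset.sum_insert ha]
    exact ⟨by rw [dot_add_right, h1, h3, add_zero], eIn_add hzz h1 h3 h2 h4⟩

/-- A vector is full if all root elements at it lie in the group. -/
lemma full_of_parts (hp : (Fintype.card F).Prime) {z : ι → F} (hzz : 𝔉.dot z z = 0) {S : Finset κ}
    (hz : 𝔉.InS S z) (hout : ∀ k ∉ S, EIn Q H z (𝔉.basis k))
    (hin : ∀ w, 𝔉.InS S w → 𝔉.dot z w = 0 → EIn Q H z w) :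
    ∀ w, 𝔉.dot z w = 0 → EIn Q H z w := by
  intro w hzw
  set w₀ := ∑ k ∈ S, 𝔉.co w k • 𝔉.basis k with hw₀
  set w₁ := ∑ k ∈ Sᶜ, 𝔉.co w k • 𝔉.basis k with hw₁
  have hw : w = w₀ + w₁ := by rw [hw₀, hw₁, Finset.sum_add_sum_compl, 𝔉.sum_co]
  have hw₀S : 𝔉.InS S w₀ := fun k hk => by
    rw [hw₀, co, map_sum, Finset.sum_apply']
    refine Finset.sum_eq_zero fun l hl => ?_
    rw [map_smul, Finsupp.smul_apply, smul_eq_mul]
    show _ * 𝔉.co _ _ = 0
    rw [co_basis_ne (h := fun e : l = k => hk (by rw [← e]; exact hl)), mul_zero]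
  obtain ⟨h1, h2⟩ := eIn_sum (H := H) hzz Sᶜ (fun k => 𝔉.co w k • 𝔉.basis k) fun k hk => by
    have hk0 : 𝔉.dot z (𝔉.basis k) = 0 := by rw [dot_basis_right]; exact hz k (Finset.mem_compl.1 hk)
    exact ⟨by rw [dot_smul_right, hk0, mul_zero], eIn_smul hp hzz hk0 (hout k (Finset.mem_compl.1 hk)) _⟩
  rw [← hw₁] at h1 h2
  have h0 : 𝔉.dot z w₀ = 0 := by rw [hw, dot_add_right, h1, add_zero] at hzw; exact hzw
  rw [hw]
  exact eIn_add hzz h0 h1 (hin w₀ hw₀S h0) h2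

lemma good_transport (hD : 𝔉.Data H Finset.univ) {S₀ : Finset κ} (h0 : Good 𝔉 H S₀)
    (hn : S₀.card + 2 ≤ Fintype.card κ) : ∀ (n : ℕ) (S : Finset κ), S.card = S₀.card → (S \ S₀).card = n →
      Good 𝔉 H S := by
  classical
  intro n
  induction n with
  | zero =>
    intro S hS h
    rw [Finset.card_eq_zero, Finset.sdiff_eq_empty_iff_subset] at h
    rw [Finset.eq_of_subset_of_card_le h hS.ge]
    exact h0
  | succ n ih =>
    intro S hS h
    obtain ⟨a, ha⟩ := Finset.card_pos.1 (show 0 < (S \ S₀).card by omega)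
    obtain ⟨c, hc⟩ := Finset.card_pos.1 (show 0 < (S₀ \ S).card by
      rw [← (Finset.card_sdiff_comm hS)]; omega)
    rw [Finset.mem_sdiff] at ha hc
    have hcompl : 1 < Sᶜ.card := by rw [Finset.card_compl]; omega
    obtain ⟨b, hb, hbc⟩ := Finset.exists_mem_ne hcompl c
    rw [Finset.mem_compl] at hb
    have hac : a ≠ c := fun e => hc.2 (e ▸ ha.1)
    have hab : a ≠ b := fun e => hb (e ▸ ha.1)
    obtain ⟨g, hg, hgk⟩ := hD.cyc a (Finset.mem_univ _) c (Finset.mem_univ _) b (Finset.mem_univ _) hac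
      hbc.symm hab
    set S' := insert c (S.erase a) with hS'
    have hgood : Good 𝔉 H S' := by
      refine ih S' ?_ ?_
      · rw [hS', Finset.card_insert_of_notMem (fun h' => hc.2 (Finset.mem_of_mem_erase h')),
          Finset.card_erase_of_mem ha.1]
        have := Finset.card_pos.2 ⟨a, ha.1⟩
        omega
      · rw [hS', Finset.insert_sdiff_of_mem _ hc.1, show S.erase a \ S₀ = (S \ S₀).erase a by
          ext k; simp; tauto, Finset.card_erase_of_mem (Finset.mem_sdiff.2 ha)]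
        omega
    have hmap : ∀ x, 𝔉.InS S x → 𝔉.InS S' ((g : Matrix ι ι F) *ᵥ x) := by
      intro x hx k hk
      rw [← hx.sum_eq, Matrix.mulVec_sum, co, map_sum, Finset.sum_apply']
      refine Finset.sum_eq_zero fun l hl => ?_
      rw [Matrix.mulVec_smul, hgk l (Finset.mem_univ _), map_smul, Finsupp.smul_apply, smul_eq_mul]
      show _ * 𝔉.co _ _ = 0
      rw [co_basis_ne (h := fun e => hk ?_), mul_zero]
      rw [← e, hS']
      by_cases hla : l = a
      · simp [hla]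
      · rw [if_neg hla, if_neg (fun e : l = c => hc.2 (e ▸ hl)), if_neg (fun e : l = b => hb (e ▸ hl))]
        exact Finset.mem_insert_of_mem (Finset.mem_erase.2 ⟨hla, hl⟩)
    intro z w hz hw hzz hzw hww
    have hgI := hD.iso hg
    have h1 := hgood _ _ (hmap z hz) (hmap w hw) (by rw [𝔉.dot_isometry hgI, hzz])
      (by rw [𝔉.dot_isometry hgI, hzw]) (fun h3 => by rw [𝔉.dot_isometry hgI]; exact hww h3)
    have := eIn_conj (𝔉 := 𝔉) (inv_mem hg) (inv_mem hgI) (by rw [𝔉.dot_isometry hgI, hzz])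
      (by rw [𝔉.dot_isometry hgI, hzw]) h1
    rwa [inv_mulVec_cancel, inv_mulVec_cancel] at this

lemma three_card {a b c : κ} (hab : a ≠ b) (hac : a ≠ c) (hbc : b ≠ c) : ({a, b, c} : Finset κ).card = 3 :=
  Finset.card_eq_three.2 ⟨a, b, c, hab, hac, hbc, rfl⟩

/-- Root vectors when minus one is a square. -/
lemma pair_full (hp : (Fintype.card F).Prime) (h3 : (3 : F) ≠ 0) (hcard : 3 ≤ Fintype.card κ)
    (hgood : ∀ S : Finset κ, S.card = 3 → Good 𝔉 H S) {a b : κ} (hab : a ≠ b) {e : F} (he : e * e = -1) :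
    𝔉.dot (𝔉.basis a + e • 𝔉.basis b) (𝔉.basis a + e • 𝔉.basis b) = 0 ∧
    ∀ w, 𝔉.dot (𝔉.basis a + e • 𝔉.basis b) w = 0 → EIn Q H (𝔉.basis a + e • 𝔉.basis b) w := by
  classical
  set z := 𝔉.basis a + e • 𝔉.basis b with hz
  have hzz : 𝔉.dot z z = 0 := by
    simp [hz, co_basis_ne (h := hab), co_basis_ne (h := hab.symm)]
    linear_combination he
  have hzS : 𝔉.InS {a, b} z := (𝔉.inS_basis (by simp)).add ((𝔉.inS_basis (by simp)).smul _)
  refine ⟨hzz, full_of_parts hp hzz hzS (fun k hk => ?_) fun w hw hzw => ?_⟩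
  · simp only [Finset.mem_insert, Finset.mem_singleton, not_or] at hk
    refine hgood {a, b, k} (three_card hab (Ne.symm hk.1) (Ne.symm hk.2)) z _ (hzS.mono (by simp [Finset.subset_iff]))
      (𝔉.inS_basis (by simp)) hzz ?_ (fun h => absurd h h3)
    rw [dot_basis_right]; exact hzS k (by simp [hk.1, hk.2])
  · obtain ⟨k, -, hk⟩ := Finset.exists_mem_notMem_of_card_lt_card
      (s := ({a, b} : Finset κ)) (t := Finset.univ) (by rw [Finset.card_pair hab, Finset.card_univ]; omega)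
    simp only [Finset.mem_insert, Finset.mem_singleton, not_or] at hk
    exact hgood {a, b, k} (three_card hab (Ne.symm hk.1) (Ne.symm hk.2)) z w (hzS.mono (by simp [Finset.subset_iff]))
      (hw.mono (by simp [Finset.subset_iff])) hzz hzw (fun h => absurd h h3)

/-- Root vectors when minus one is not a square. -/
lemma triple_full (hp : (Fintype.card F).Prime) (h3 : (3 : F) ≠ 0) (hns : ∀ e : F, e * e ≠ -1)
    (hH : H ≤ Cfsg.isometryGroup F Q) (hgood : ∀ S : Finset κ, S.card = 3 → Good 𝔉 H S) :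
    ∃ F₁ F₂ σ : F, σ ≠ 0 ∧ ∀ a b c : κ, a ≠ b → a ≠ c → b ≠ c → ∀ τ : F, τ * τ = σ * σ →
      𝔉.dot (-F₂ • 𝔉.basis a + F₁ • 𝔉.basis b + τ • 𝔉.basis c)
        (-F₂ • 𝔉.basis a + F₁ • 𝔉.basis b + τ • 𝔉.basis c) = 0 ∧
      ∀ w, 𝔉.dot (-F₂ • 𝔉.basis a + F₁ • 𝔉.basis b + τ • 𝔉.basis c) w = 0 →
        EIn Q H (-F₂ • 𝔉.basis a + F₁ • 𝔉.basis b + τ • 𝔉.basis c) w := by
  classical
  haveI : Fact (Fintype.card F).Prime := ⟨hp⟩
  haveI : CharP F (Fintype.card F) := charP_of_card_eq_prime rfl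
  have h2 := 𝔉.two_ne
  have h4 : (4 : F) ≠ 0 := by rw [show (4 : F) = 2 * 2 by norm_num]; exact mul_ne_zero h2 h2
  obtain ⟨n₁, n₂, hn⟩ : ∃ s₁ s₂ : F, s₁ ^ 2 + s₂ ^ 2 = -1 := by
    obtain ⟨s₁, s₂, h⟩ := CharP.sq_add_sq F (Fintype.card F) (-1 : ℤ)
    exact ⟨s₁, s₂, by rw [h]; push_cast; rfl⟩
  set x : F := 3 / 4 with hx
  set y : F := 5 / 4 with hy
  have hy2 : 1 + x ^ 2 = y ^ 2 := by rw [hx, hy]; field_simp; ring
  have hx0 : x ≠ 0 := div_ne_zero h3 h4
  have hy0 : y ≠ 0 := fun h => hns x (by rw [h] at hy2; linear_combination hy2)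
  set fk : F := 1 + 2 * x ^ 2 with hfk
  set F₁ : F := 2 * x ^ 2 * n₁ - 2 * x * n₂ with hF₁
  set F₂ : F := 2 * x ^ 2 * n₂ + 2 * x * n₁ with hF₂
  set σ : F := 2 * x * y with hσ
  have hq : F₁ * F₁ + F₂ * F₂ = -(σ * σ) := by
    rw [hF₁, hF₂, hσ]; linear_combination (4 * x ^ 2 * (x ^ 2 + 1)) * hn + (-4 * x ^ 2) * hy2
  have hσ0 : σ ≠ 0 := mul_ne_zero (mul_ne_zero h2 hx0) hy0
  refine ⟨F₁, F₂, σ, hσ0, fun a b c hab hac hbc τ hτ => ?_⟩
  set z := -F₂ • 𝔉.basis a + F₁ • 𝔉.basis b + τ • 𝔉.basis c with hz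
  have hzz : 𝔉.dot z z = 0 := by
    simp [hz, co_basis_ne (h := hab), co_basis_ne (h := hab.symm), co_basis_ne (h := hac),
      co_basis_ne (h := hac.symm), co_basis_ne (h := hbc), co_basis_ne (h := hbc.symm)]
    linear_combination hq + hτ
  have hzS : 𝔉.InS {a, b, c} z :=
    (((𝔉.inS_basis (by simp)).smul _).add ((𝔉.inS_basis (by simp)).smul _)).add
      ((𝔉.inS_basis (by simp)).smul _)
  have htriple : ∀ w, 𝔉.InS {a, b, c} w → 𝔉.dot z w = 0 → EIn Q H z w := fun w hw hzw =>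
    hgood {a, b, c} (three_card hab hac hbc) z w hzS hw hzz hzw (fun h => absurd h h3)
  refine ⟨hzz, full_of_parts hp hzz hzS (fun k hk => ?_) htriple⟩
  simp only [Finset.mem_insert, Finset.mem_singleton, not_or] at hk
  obtain ⟨hka, hkb, hkc⟩ := hk
  set s := n₁ • 𝔉.basis a + n₂ • 𝔉.basis b + 𝔉.basis k with hs
  set w := (x / 𝔉.lam) • (n₂ • 𝔉.basis a - n₁ • 𝔉.basis b) with hw
  have hsS : 𝔉.InS {a, b, k} s :=
    (((𝔉.inS_basis (by simp)).smul _).add ((𝔉.inS_basis (by simp)).smul _)).add (𝔉.inS_basis (by simp))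
  have hwS : 𝔉.InS {a, b, k} w :=
    (((𝔉.inS_basis (by simp)).smul _).sub ((𝔉.inS_basis (by simp)).smul _)).smul _
  have hss : 𝔉.dot s s = 0 := by
    simp [hs, co_basis_ne (h := hab), co_basis_ne (h := hab.symm), co_basis_ne (h := hka),
      co_basis_ne (h := Ne.symm hka), co_basis_ne (h := hkb), co_basis_ne (h := Ne.symm hkb)]
    linear_combination hn
  have hsw : 𝔉.dot s w = 0 := by
    simp [hs, hw, co_basis_ne (h := hab), co_basis_ne (h := hab.symm), co_basis_ne (h := hka),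
      co_basis_ne (h := Ne.symm hka), co_basis_ne (h := hkb), co_basis_ne (h := Ne.symm hkb)]
    right; ring
  obtain ⟨h, hh, hhm⟩ := hgood {a, b, k} (three_card hab (Ne.symm hka) (Ne.symm hkb)) s w hsS hwS hss hsw
    (fun h' => absurd h' h3)
  have hhI := hH hh
  have hhc : (h : Matrix ι ι F) *ᵥ 𝔉.basis c = 𝔉.basis c := by
    rw [hhm, eichler_fix_outside hsS hwS (by simp [hac.symm, hbc.symm, Ne.symm hkc])]
  have hhk : (h : Matrix ι ι F) *ᵥ 𝔉.basis k = F₁ • 𝔉.basis a + F₂ • 𝔉.basis b + fk • 𝔉.basis k := by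
    rw [hhm, eichlerMat_mulVec_dot (𝔉 := 𝔉)]
    have e1 : 𝔉.dot w (𝔉.basis k) = 0 := by
      simp [hw, co_basis_ne (h := Ne.symm hka), co_basis_ne (h := Ne.symm hkb)]
    have e2 : 𝔉.dot s (𝔉.basis k) = 1 := by
      simp [hs, co_basis_ne (h := Ne.symm hka), co_basis_ne (h := Ne.symm hkb)]
    have e3 : 𝔉.dot w w = -(x / 𝔉.lam) ^ 2 := by
      simp [hw, co_basis_ne (h := hab), co_basis_ne (h := hab.symm)]
      linear_combination (x / 𝔉.lam) ^ 2 * hn
    rw [e1, e2, e3, hw, hs, hfk, hF₁, hF₂]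
    have hl := 𝔉.lam_ne
    match_scalars <;> field_simp <;> ring
  -- the vector perpendicular to both
  set q₁ := F₁ * F₁ + F₂ * F₂ with hq₁
  set X := fk • (F₁ • 𝔉.basis a + F₂ • 𝔉.basis b) - q₁ • 𝔉.basis k with hX
  have hpres : ∀ v, 𝔉.InS {a, b, c, k} v → 𝔉.InS {a, b, c, k} ((h : Matrix ι ι F) *ᵥ v) := fun v hv => by
    rw [hhm]
    exact hv.eichler (hsS.mono (by simp [Finset.subset_iff])) (hwS.mono (by simp [Finset.subset_iff]))
  have hinv : 𝔉.Pres {a, b, c, k} h⁻¹ := Pres.inv hpres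
  have hzf : 𝔉.dot z ((h : Matrix ι ι F) *ᵥ 𝔉.basis k) = 0 := by
    rw [hhk]
    simp [hz, co_basis_ne (h := hab), co_basis_ne (h := hab.symm), co_basis_ne (h := hac.symm),
      co_basis_ne (h := hbc.symm), co_basis_ne (h := Ne.symm hka), co_basis_ne (h := Ne.symm hkb),
      co_basis_ne (h := Ne.symm hkc)]
    ring
  have hXf : 𝔉.dot X ((h : Matrix ι ι F) *ᵥ 𝔉.basis k) = 0 := by
    rw [hhk]
    simp [hX, co_basis_ne (h := hab), co_basis_ne (h := hab.symm), co_basis_ne (h := hka),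
      co_basis_ne (h := Ne.symm hka), co_basis_ne (h := hkb), co_basis_ne (h := Ne.symm hkb), hq₁]
    ring
  have hzX : 𝔉.dot z X = 0 := by
    simp [hz, hX, co_basis_ne (h := hab), co_basis_ne (h := hab.symm), co_basis_ne (h := hac.symm),
      co_basis_ne (h := hbc.symm), co_basis_ne (h := Ne.symm hka), co_basis_ne (h := Ne.symm hkb),
      co_basis_ne (h := Ne.symm hkc)]
    ring
  have hdrop : ∀ v, 𝔉.InS {a, b, c, k} v → 𝔉.dot v ((h : Matrix ι ι F) *ᵥ 𝔉.basis k) = 0 →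
      𝔉.InS {a, b, c} (((h⁻¹ : GL ι F) : Matrix ι ι F) *ᵥ v) := by
    intro v hv hv0 l hl
    by_cases hlk : l = k
    · subst hlk
      rw [← dot_basis_right, ← 𝔉.dot_isometry hhI, mulVec_inv_cancel]
      exact hv0
    · exact hinv v hv l (by simp only [Finset.mem_insert, Finset.mem_singleton] at hl ⊢; tauto)
  have hXS : 𝔉.InS {a, b, c, k} X :=
    ((((𝔉.inS_basis (by simp)).smul _).add ((𝔉.inS_basis (by simp)).smul _)).smul _).sub
      ((𝔉.inS_basis (by simp)).smul _)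
  have hzz' : 𝔉.dot (((h⁻¹ : GL ι F) : Matrix ι ι F) *ᵥ z) (((h⁻¹ : GL ι F) : Matrix ι ι F) *ᵥ z) = 0 := by
    rw [𝔉.dot_isometry (inv_mem hhI), hzz]
  have hzX' : 𝔉.dot (((h⁻¹ : GL ι F) : Matrix ι ι F) *ᵥ z) (((h⁻¹ : GL ι F) : Matrix ι ι F) *ᵥ X) = 0 := by
    rw [𝔉.dot_isometry (inv_mem hhI), hzX]
  have hEX : EIn Q H z X := by
    have h1 := hgood {a, b, c} (three_card hab hac hbc) _ _
      (hdrop z (hzS.mono (by simp [Finset.subset_iff])) hzf) (hdrop X hXS hXf) hzz' hzX'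
      (fun h' => absurd h' h3)
    have := eIn_conj (𝔉 := 𝔉) hh hhI hzz' hzX' h1
    rwa [mulVec_inv_cancel, mulVec_inv_cancel] at this
  set W := fk • (F₁ • 𝔉.basis a + F₂ • 𝔉.basis b) with hW
  have hWS : 𝔉.InS {a, b, c} W :=
    (((𝔉.inS_basis (by simp)).smul _).add ((𝔉.inS_basis (by simp)).smul _)).smul _
  have hzW : 𝔉.dot z W = 0 := by
    simp [hz, hW, co_basis_ne (h := hab), co_basis_ne (h := hab.symm), co_basis_ne (h := hac.symm),
      co_basis_ne (h := hbc.symm)]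
    ring
  have hq₁0 : q₁ ≠ 0 := by rw [hq]; exact neg_ne_zero.2 (mul_ne_zero hσ0 hσ0)
  have hk0 : 𝔉.dot z (𝔉.basis k) = 0 := by
    rw [dot_basis_right]; exact hzS k (by simp [hka, hkb, hkc])
  have hq1e : EIn Q H z (q₁ • 𝔉.basis k) := by
    have hd := EIn.sub 𝔉.nondeg (htriple W hWS hzW) hEX (by rw [𝔉.q_eq, hzz, mul_zero])
      (by rw [𝔉.bform_eq, hzW, mul_zero]) (by rw [𝔉.bform_eq, hzX, mul_zero])
    rwa [hX, sub_sub_cancel] at hd
  have := eIn_smul (𝔉 := 𝔉) hp hzz (by rw [dot_smul_right, hk0, mul_zero]) hq1e q₁⁻¹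
  rwa [smul_smul, inv_mul_cancel₀ hq₁0, one_smul] at this

/-- Root vectors over the field with three elements. -/
lemma three_full (hp : (Fintype.card F).Prime) (h3 : (3 : F) = 0) (hn : 7 ≤ Fintype.card κ)
    (hgood : ∀ S : Finset κ, S.card = 5 → Good 𝔉 H S) {a b c : κ} (hab : a ≠ b) (hac : a ≠ c) (hbc : b ≠ c)
    {e : F} (he : e * e = 1) :
    𝔉.dot (𝔉.basis a + 𝔉.basis b + e • 𝔉.basis c) (𝔉.basis a + 𝔉.basis b + e • 𝔉.basis c) = 0 ∧
    ∀ w, 𝔉.dot (𝔉.basis a + 𝔉.basis b + e • 𝔉.basis c) w = 0 →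
      EIn Q H (𝔉.basis a + 𝔉.basis b + e • 𝔉.basis c) w := by
  classical
  set z := 𝔉.basis a + 𝔉.basis b + e • 𝔉.basis c with hz
  have hzz : 𝔉.dot z z = 0 := by
    simp [hz, co_basis_ne (h := hab), co_basis_ne (h := hab.symm), co_basis_ne (h := hac),
      co_basis_ne (h := hac.symm), co_basis_ne (h := hbc), co_basis_ne (h := hbc.symm)]
    linear_combination he + h3
  have hzS : 𝔉.InS {a, b, c} z :=
    ((𝔉.inS_basis (by simp)).add (𝔉.inS_basis (by simp))).add ((𝔉.inS_basis (by simp)).smul _)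
  have hfive : ∀ k l : κ, k ∉ ({a, b, c} : Finset κ) → l ∉ ({a, b, c} : Finset κ) → k ≠ l →
      ∀ w, 𝔉.InS {a, b, c, k, l} w → 𝔉.dot z w = 0 → 𝔉.dot w w = 1 → EIn Q H z w := by
    intro k l hk hl hkl w hw hzw hww
    simp only [Finset.mem_insert, Finset.mem_singleton, not_or] at hk hl
    refine hgood {a, b, c, k, l} ?_ z w (hzS.mono (by simp [Finset.subset_iff])) hw hzz hzw (fun _ => hww)
    rw [Finset.card_insert_of_notMem (by simp [hab, hac, Ne.symm hk.1, Ne.symm hl.1]),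
      Finset.card_insert_of_notMem (by simp [hbc, Ne.symm hk.2.1, Ne.symm hl.2.1]),
      Finset.card_insert_of_notMem (by simp [Ne.symm hk.2.2, Ne.symm hl.2.2]), Finset.card_pair hkl]
  have hcompl : 4 ≤ (({a, b, c} : Finset κ)ᶜ).card := by
    rw [Finset.card_compl, three_card hab hac hbc]; omega
  have hout : ∀ k ∉ ({a, b, c} : Finset κ), EIn Q H z (𝔉.basis k) := by
    intro k hk
    obtain ⟨l, hl, hlk⟩ := Finset.exists_mem_ne (show 1 < (({a, b, c} : Finset κ)ᶜ).card by omega) k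
    exact hfive k l hk (Finset.mem_compl.1 hl) hlk.symm _ (𝔉.inS_basis (by simp))
      (by rw [dot_basis_right]; exact hzS k hk) (by simp)
  obtain ⟨k, hk, l, hl, hkl⟩ := Finset.one_lt_card.1 (show 1 < (({a, b, c} : Finset κ)ᶜ).card by omega)
  rw [Finset.mem_compl] at hk hl
  have hzk : 𝔉.co z k = 0 := hzS k hk
  have hzl : 𝔉.co z l = 0 := hzS l hl
  simp only [Finset.mem_insert, Finset.mem_singleton, not_or] at hk hl
  have hdiff : ∀ d, 𝔉.InS {a, b, c} d → 𝔉.dot z d = 0 → 𝔉.dot d d = 2 → EIn Q H z d := by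
    intro d hd hzd hdd
    have hdk : 𝔉.co d k = 0 := hd k (by simp [hk.1, hk.2.1, hk.2.2])
    have hdl : 𝔉.co d l = 0 := hd l (by simp [hl.1, hl.2.1, hl.2.2])
    have h1 := hfive k l (by simp [hk.1, hk.2.1, hk.2.2]) (by simp [hl.1, hl.2.1, hl.2.2]) hkl
      (d + 𝔉.basis k + 𝔉.basis l)
      (((hd.mono (by simp [Finset.subset_iff])).add (𝔉.inS_basis (by simp))).add (𝔉.inS_basis (by simp)))
      (by simp [hzd, hzk, hzl])
      (by simp [hdd, hdk, hdl, co_basis_ne (h := hkl), co_basis_ne (h := hkl.symm)]; linear_combination h3)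
    have h2 := hout k (by simp [hk.1, hk.2.1, hk.2.2])
    have h3' := hout l (by simp [hl.1, hl.2.1, hl.2.2])
    have e1 : 𝔉.dot z (𝔉.basis k) = 0 := by rw [dot_basis_right, hzk]
    have e2 : 𝔉.dot z (𝔉.basis l) = 0 := by rw [dot_basis_right, hzl]
    have h4 := eIn_add hzz e1 e2 h2 h3'
    have h5 := EIn.sub 𝔉.nondeg h1 h4 (by rw [𝔉.q_eq, hzz, mul_zero])
      (by rw [𝔉.bform_eq]; simp [hzd, hzk, hzl]) (by rw [𝔉.bform_eq]; simp [hzk, hzl])
    rwa [show d + 𝔉.basis k + 𝔉.basis l - (𝔉.basis k + 𝔉.basis l) = d by abel] at h5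
  refine ⟨hzz, full_of_parts hp hzz hzS hout fun w hw hzw => ?_⟩
  set d₁ := 𝔉.basis a - 𝔉.basis b with hd₁
  set d₂ := 𝔉.basis b - e • 𝔉.basis c with hd₂
  have hzd₁ : 𝔉.dot z d₁ = 0 := by
    simp [hz, hd₁, co_basis_ne (h := hab), co_basis_ne (h := hab.symm), co_basis_ne (h := hac.symm),
      co_basis_ne (h := hbc.symm)]
  have hzd₂ : 𝔉.dot z d₂ = 0 := by
    simp [hz, hd₂, co_basis_ne (h := hab), co_basis_ne (h := hac), co_basis_ne (h := hbc),
      co_basis_ne (h := hbc.symm)]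
    linear_combination -he
  have h1 := hdiff d₁ ((𝔉.inS_basis (by simp)).sub (𝔉.inS_basis (by simp))) hzd₁
    (by simp [hd₁, co_basis_ne (h := hab), co_basis_ne (h := hab.symm)]; ring)
  have h2 := hdiff d₂ ((𝔉.inS_basis (by simp)).sub ((𝔉.inS_basis (by simp)).smul _)) hzd₂
    (by simp [hd₂, co_basis_ne (h := hbc), co_basis_ne (h := hbc.symm)]; linear_combination he)
  have hwd : w = 𝔉.co w a • d₁ + (𝔉.co w a + 𝔉.co w b) • d₂ := by
    have hrel : 𝔉.co w a + 𝔉.co w b + e * 𝔉.co w c = 0 := by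
      simpa [hz] using hzw
    refine InS.ext hw ((((𝔉.inS_basis (by simp)).sub (𝔉.inS_basis (by simp))).smul _).add
      (((𝔉.inS_basis (by simp)).sub ((𝔉.inS_basis (by simp)).smul _)).smul _)) fun i hi => ?_
    simp only [Finset.mem_insert, Finset.mem_singleton] at hi
    rcases hi with rfl | rfl | rfl
    · simp [hd₁, hd₂, co_basis_ne (h := hab.symm), co_basis_ne (h := hac.symm)]
    · simp [hd₁, hd₂, co_basis_ne (h := hab), co_basis_ne (h := hbc.symm)]
    · simp [hd₁, hd₂, co_basis_ne (h := hac), co_basis_ne (h := hbc)]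
      linear_combination e * hrel - 𝔉.co w i * he
  rw [hwd]
  exact eIn_add hzz (by rw [dot_smul_right, hzd₁, mul_zero]) (by rw [dot_smul_right, hzd₂, mul_zero])
    (eIn_smul hp hzz hzd₁ h1 _) (eIn_smul hp hzz hzd₂ h2 _)

theorem omegaGL_le_of_not_mono (hp : (Fintype.card F).Prime) (hodd : Odd (Fintype.card κ))
    (h5 : 5 ≤ Fintype.card κ) (h53 : Fintype.card κ = 5 → (3 : F) ≠ 0) (hι : 5 ≤ Fintype.card ι)
    (hD : 𝔉.Data H Finset.univ) (hnm : ¬ ∀ g ∈ H, 𝔉.Mono Finset.univ g) : omegaGL Q ≤ H := by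
  classical
  obtain ⟨S₀, -, hcase, hEJ⟩ := concl_of_not_mono hp (Fintype.card κ) H Finset.univ Finset.card_univ hD hodd h5
    h53 hnm
  have hgood₀ : Good 𝔉 H S₀ := fun z w hz hw hzz hzw hww => by
    obtain ⟨g, hg, hgx⟩ := hEJ z w hz hw hzz hzw hww
    exact ⟨g, hg, Matrix.ext_of_mulVec_single fun i => hgx _ (𝔉.inS_univ _)⟩
  have hcard : S₀.card + 2 ≤ Fintype.card κ := by
    rcases hcase with ⟨-, h⟩ | ⟨h3, h⟩
    · omega
    · have : Fintype.card κ ≠ 5 := fun e => h53 e h3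
      obtain ⟨k, hk⟩ := hodd
      omega
  have hall : ∀ S : Finset κ, S.card = S₀.card → Good 𝔉 H S := fun S hS =>
    good_transport hD hgood₀ hcard _ S hS rfl
  let R : Set (ι → F) := {z | 𝔉.dot z z = 0 ∧ ∀ w, 𝔉.dot z w = 0 → EIn Q H z w}
  suffices hpair : ∀ u, u ≠ 0 → ∃ z ∈ R, ∃ v ∈ R, 𝔉.dot z v ≠ 0 ∧ 𝔉.dot z u ≠ 0 by
    refine omega_le_of_root_vectors 𝔉.nondeg hι hD.iso R (fun z hz => ⟨by rw [𝔉.q_eq, hz.1, mul_zero],
      fun w hw => hz.2 w ?_⟩) fun u _ hu0 => ?_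
    · rw [𝔉.bform_eq] at hw
      exact (mul_eq_zero.1 hw).resolve_left (mul_ne_zero 𝔉.two_ne 𝔉.lam_ne)
    · obtain ⟨z, hz, v, hv, hzv, hzu⟩ := hpair u hu0
      refine ⟨z, hz, v, hv, ?_, ?_⟩ <;>
        rw [𝔉.bform_eq] <;> exact mul_ne_zero (mul_ne_zero 𝔉.two_ne 𝔉.lam_ne) (by assumption)
  intro u hu0
  obtain ⟨c, hc⟩ : ∃ c, 𝔉.co u c ≠ 0 := by
    by_contra h
    push Not at h
    exact hu0 (𝔉.ext_co fun k => by rw [h k, co_zero])
  obtain ⟨a, ha, b, hb, hab⟩ := Finset.one_lt_card.1 (show 1 < (Finset.univ.erase c).card by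
    rw [Finset.card_erase_of_mem (Finset.mem_univ c), Finset.card_univ]; omega)
  rw [Finset.mem_erase] at ha hb
  have h2 := 𝔉.two_ne
  rcases hcase with ⟨h3, hS⟩ | ⟨h3, hS⟩
  · have hg3 : ∀ S : Finset κ, S.card = 3 → Good 𝔉 H S := fun S h => hall S (by omega)
    by_cases hsq : ∃ e : F, e * e = -1
    · obtain ⟨e, he⟩ := hsq
      have he' : -e * -e = -1 := by linear_combination he
      have he0 : e ≠ 0 := fun h => by rw [h, zero_mul] at he; exact neg_ne_zero.2 one_ne_zero he.symm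
      set zp := 𝔉.basis a + e • 𝔉.basis c
      set zm := 𝔉.basis a + -e • 𝔉.basis c
      have hp1 : zp ∈ R := pair_full hp h3 (by omega) hg3 ha.1 he
      have hm1 : zm ∈ R := pair_full hp h3 (by omega) hg3 ha.1 he'
      have hpm : 𝔉.dot zp zm = 2 := by
        simp [zp, zm, co_basis_ne (h := ha.1), co_basis_ne (h := Ne.symm ha.1)]
        linear_combination -he
      by_cases hd : 𝔉.dot zp u = 0
      · refine ⟨zm, hm1, zp, hp1, by rw [dot_comm, hpm]; exact h2, fun h' => hc ?_⟩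
        have : 2 * e * 𝔉.co u c = 0 := by
          simp [zp, zm] at hd h'
          linear_combination hd - h'
        exact (mul_eq_zero.1 this).resolve_left (mul_ne_zero h2 he0)
      · exact ⟨zp, hp1, zm, hm1, by rw [hpm]; exact h2, hd⟩
    · push Not at hsq
      obtain ⟨F₁, F₂, σ, hσ, hfull⟩ := triple_full hp h3 hsq hD.iso hg3
      set zp := -F₂ • 𝔉.basis a + F₁ • 𝔉.basis b + σ • 𝔉.basis c with hzp
      set zm := -F₂ • 𝔉.basis a + F₁ • 𝔉.basis b + -σ • 𝔉.basis c with hzm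
      have hp1 : zp ∈ R := hfull a b c hab ha.1 hb.1 σ rfl
      have hm1 : zm ∈ R := hfull a b c hab ha.1 hb.1 (-σ) (by ring)
      have hpm : 𝔉.dot zp zm = -2 * (σ * σ) := by
        have h := hp1.1
        simp [hzp, co_basis_ne (h := hab), co_basis_ne (h := Ne.symm hab), co_basis_ne (h := ha.1),
          co_basis_ne (h := Ne.symm ha.1), co_basis_ne (h := hb.1), co_basis_ne (h := Ne.symm hb.1)] at h
        simp [hzp, hzm, co_basis_ne (h := hab), co_basis_ne (h := Ne.symm hab), co_basis_ne (h := ha.1),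
          co_basis_ne (h := Ne.symm ha.1), co_basis_ne (h := hb.1), co_basis_ne (h := Ne.symm hb.1)]
        linear_combination h
      have hpm0 : 𝔉.dot zp zm ≠ 0 := by
        rw [hpm]; exact mul_ne_zero (neg_ne_zero.2 h2) (mul_ne_zero hσ hσ)
      by_cases hd : 𝔉.dot zp u = 0
      · refine ⟨zm, hm1, zp, hp1, by rw [dot_comm]; exact hpm0, fun h' => hc ?_⟩
        have : 2 * σ * 𝔉.co u c = 0 := by
          simp [hzp, hzm] at hd h'
          linear_combination hd - h'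
        exact (mul_eq_zero.1 this).resolve_left (mul_ne_zero h2 hσ)
      · exact ⟨zp, hp1, zm, hm1, hpm0, hd⟩
  · have hg5 : ∀ S : Finset κ, S.card = 5 → Good 𝔉 H S := fun S h => hall S (by omega)
    set zp := 𝔉.basis a + 𝔉.basis b + (1 : F) • 𝔉.basis c with hzp
    set zm := 𝔉.basis a + 𝔉.basis b + (-1 : F) • 𝔉.basis c with hzm
    have hp1 : zp ∈ R := three_full hp h3 (by omega) hg5 hab ha.1 hb.1 (by ring)
    have hm1 : zm ∈ R := three_full hp h3 (by omega) hg5 hab ha.1 hb.1 (by ring)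
    have hpm : 𝔉.dot zp zm = 1 := by
      simp [hzp, hzm, co_basis_ne (h := hab), co_basis_ne (h := Ne.symm hab), co_basis_ne (h := ha.1),
        co_basis_ne (h := Ne.symm ha.1), co_basis_ne (h := hb.1), co_basis_ne (h := Ne.symm hb.1)]
    by_cases hd : 𝔉.dot zp u = 0
    · refine ⟨zm, hm1, zp, hp1, by rw [dot_comm, hpm]; exact one_ne_zero, fun h' => hc ?_⟩
      have : 2 * 𝔉.co u c = 0 := by
        simp [hzp, hzm] at hd h'
        linear_combination hd - h'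
      exact (mul_eq_zero.1 this).resolve_left h2
    · exact ⟨zp, hp1, zm, hm1, by rw [hpm]; exact one_ne_zero, hd⟩

end CfsgLib.OrthMono17.Frame
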